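import Cfsg.Statements.S0001
import Cfsg.Agent.Lib.Solv.Coprime

set_option autoImplicit false
open Pointwise
open Cfsg

namespace Cfsg.Agent.S0001

/-- Conjugacy half of the Schur–Zassenhaus Theorem, under a solvability assumption on the normal Hall subgroup or on its quotient. -/
theorem result {G : Type*} [Group G] [Finite G] (N : Subgroup G) [N.Normal]
    (hN : (Nat.card N).Coprime N.index) (hsolv : Group.IsSolvable N ∨ Group.IsSolvable (G ⧸ N))
    (H K : Subgroup G) (hH : Subgroup.IsComplement' N H) (hK : Subgroup.IsComplement' N K) :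
    ∃ g : G, MulAut.conj g • H = K := by
  have hH' : Nat.card H = N.index := hH.symm.index_eq_card.symm
  have hK' : Nat.card K = N.index := hK.symm.index_eq_card.symm
  have hs : Group.IsSolvable H ∨ Group.IsSolvable N := by
    rcases hsolv with h | h
    · exact Or.inr h
    · exact Or.inl (Group.isSolvable_of_surjective (f := hH.symm.QuotientMulEquiv.toMonoidHom)
        hH.symm.QuotientMulEquiv.surjective)
  obtain ⟨n, -, h⟩ := Solv.sz_star (A := H) (K := N) (S := K) Subgroup.le_normalizer_of_normal
    (hH' ▸ hN.symm) hs (by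
      intro a _
      obtain ⟨⟨n, k⟩, h⟩ := hK.2 a
      refine ⟨n, n.2, ?_⟩
      rw [← h]
      simp)
  exact ⟨n⁻¹, Solv.conj_smul_eq_of_forall_mem (by simpa using h) (by rw [hH', hK'])⟩

end Cfsg.Agent.S0001
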