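import Cfsg.Statements.S0002
import Cfsg.Agent.Lib.Solv.Coprime

set_option autoImplicit false
open Pointwise
open Cfsg

namespace Cfsg.Agent.S0002

/-- Schur's Theorem, conjugacy part, for an abelian normal subgroup of coprime order and index: any two complements are conjugate by an element of the normal subgroup. -/
theorem result {G : Type*} [Group G] [Finite G] (A : Subgroup G) [A.Normal] [IsMulCommutative A]
    (hA : (Nat.card A).Coprime A.index)
    (H K : Subgroup G) (hH : Subgroup.IsComplement' A H) (hK : Subgroup.IsComplement' A K) :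
    ∃ a ∈ A, MulAut.conj a • H = K := by
  have hH' : Nat.card H = A.index := hH.symm.index_eq_card.symm
  have hK' : Nat.card K = A.index := hK.symm.index_eq_card.symm
  obtain ⟨n, hn, h⟩ := Solv.sz_star (A := H) (K := A) (S := K) Subgroup.le_normalizer_of_normal
    (hH' ▸ hA.symm) (Or.inr (Solv.isSolvable_of_isMulCommutative A)) (by
      intro a _
      obtain ⟨⟨n, k⟩, h⟩ := hK.2 a
      refine ⟨n, n.2, ?_⟩
      rw [← h]
      simp)
  exact ⟨n⁻¹, inv_mem hn, Solv.conj_smul_eq_of_forall_mem (by simpa using h) (by rw [hH', hK'])⟩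

end Cfsg.Agent.S0002
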