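import Cfsg.Statements.S0005
import Cfsg.Agent.Lib.Solv.Hall2

set_option autoImplicit false
open Cfsg

namespace Cfsg.Agent.S0005

/-- Hall's Theorem, containment: in a finite solvable group of order m * n with m and n coprime, every subgroup of order coprime to n is contained in a subgroup of order m. -/
theorem result {G : Type*} [Group G] [Finite G] [Group.IsSolvable G] (m n : ℕ)
    (hG : Nat.card G = m * n) (hmn : m.Coprime n) (K : Subgroup G) (hK : (Nat.card K).Coprime n) :
    ∃ H : Subgroup G, Nat.card H = m ∧ K ≤ H := by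
  obtain ⟨H, hH, h⟩ := Solv.exists_isHallIn_ge (π := {p | ¬ p ∣ n}) (Solv.isSolvable_top (G := G))
    (le_top : K ≤ ⊤) (fun p hp h1 h2 => hp.one_lt.ne' (Nat.eq_one_of_dvd_coprimes hK h1 h2))
  exact ⟨H, hH.card_eq_of_mul (by rwa [Subgroup.card_top]) hmn, h⟩

end Cfsg.Agent.S0005
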