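import Cfsg.Statements.S0020
import Cfsg.Agent.Lib.Solv.Hall2

set_option autoImplicit false
open Pointwise
open Cfsg

namespace Cfsg.Agent.S0020

/-- A finite solvable group admits a Sylow system: Sylow subgroups, one for each prime, that pairwise permute as sets. -/
theorem result {G : Type*} [Group G] [Finite G] [Group.IsSolvable G] :
    ∃ S : (p : Nat.Primes) → Sylow (p : ℕ) G,
      ∀ p q : Nat.Primes, (S p : Set G) * (S q : Set G) = (S q : Set G) * (S p : Set G) := by
  obtain ⟨S, hS, h⟩ := Solv.exists_sylow_system (Solv.isSolvable_top (G := G))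
  have key : ∀ p : Nat.Primes, ∃ P : Sylow (p : ℕ) G, (P : Subgroup G) = S p := fun p => by
    have : Fact (p : ℕ).Prime := ⟨p.2⟩
    exact (hS p p.2).exists_sylow_top
  choose P hP using key
  have key2 : ∀ p q : Nat.Primes, (P p : Set G) * (P q : Set G) ⊆ (P q : Set G) * (P p : Set G) := by
    intro p q
    obtain ⟨L, h1, h2, h3⟩ := h q p q.2 p.2
    rw [← hP] at h1 h2 h3
    rw [← hP] at h3
    rintro _ ⟨x, hx, y, hy, rfl⟩
    obtain ⟨a, ha, b, hb, h⟩ := h3 (x * y) (mul_mem (h2 hx) (h1 hy))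
    exact ⟨a, ha, b, hb, h.symm⟩
  exact ⟨P, fun p q => Set.Subset.antisymm (key2 p q) (key2 q p)⟩

end Cfsg.Agent.S0020
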