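import Cfsg.Statements.S0027
import Cfsg.Agent.Lib.Solv.Coprime

set_option autoImplicit false
open Cfsg

namespace Cfsg.Agent.S0027

/-- Under coprime action the commutator subgroup with A is stable: taking the commutator with A twice gives the same subgroup as once. -/
theorem result {G : Type*} [Group G] [Finite G] (A K : Subgroup G) (hAK : A ≤ Subgroup.normalizer (K : Set G))
    (hcop : (Nat.card A).Coprime (Nat.card K)) (hsolv : Group.IsSolvable A ∨ Group.IsSolvable K) :
    ⁅⁅K, A⁆, A⁆ = ⁅K, A⁆ := by
  exact Solv.commutator_commutator_eq hAK hcop hsolv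

end Cfsg.Agent.S0027
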