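import Cfsg.Statements.S0038
import Cfsg.Agent.Lib.Frob.FPF
import Cfsg.Agent.S0035

set_option autoImplicit false
open Pointwise
open Cfsg

namespace Cfsg.Agent.S0038

/-- All Frobenius complements of a finite group are conjugate to one another. -/
theorem result {G : Type*} [Group G] [Finite G] (H H₀ : Subgroup G)
    (hH : Cfsg.IsFrobeniusComplement H) (hH₀ : Cfsg.IsFrobeniusComplement H₀) :
    ∃ g : G, MulAut.conj g • H₀ = H := by
  have key : ∀ (H H₀ : Subgroup G), Cfsg.IsFrobeniusComplement H → Cfsg.IsFrobeniusComplement H₀ →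
      Nat.card H ≥ Nat.card H₀ → ∃ g : G, MulAut.conj g • H₀ = H := by
    intro H H₀ hH hH₀ hle
    obtain ⟨g, hg⟩ := Frob.exists_conj_le_of_card_le hH.2.2 hH₀.2.2 hle
    refine ⟨g, ?_⟩
    by_contra hne
    obtain ⟨K, -, hKn, hKc⟩ := Cfsg.Agent.S0035.result H hH
    have hK : K ≠ ⊥ := by
      rintro rfl
      exact hH.2.1 (Subgroup.isComplement'_bot_left.1 hKc)
    have hc := Frob.center_ne_bot_of_fpf hK hH.1 (by rw [Subgroup.normalizer_eq_top]; exact le_top)
      (Frob.fpf_of_ti hKc.disjoint hH.2.2)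
    apply hc
    apply Frob.center_eq_bot_of_isFrobeniusComplement (H := (MulAut.conj g • H₀).subgroupOf H)
    refine ⟨?_, ?_, Frob.ti_subgroupOf (Frob.ti_conj_smul hH₀.2.2 g) H⟩
    · intro h
      rw [Subgroup.subgroupOf_eq_bot, disjoint_iff, inf_eq_left.2 hg] at h
      apply hH₀.1
      simpa using congrArg (fun L => (MulAut.conj g)⁻¹ • L) h
    · intro h
      rw [Subgroup.subgroupOf_eq_top] at h
      exact hne (le_antisymm hg h)
  rcases le_total (Nat.card H₀) (Nat.card H) with h | h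
  · exact key H H₀ hH hH₀ h
  · obtain ⟨g, hg⟩ := key H₀ H hH₀ hH h
    refine ⟨g⁻¹, ?_⟩
    rw [← hg, map_inv, inv_smul_smul]

end Cfsg.Agent.S0038
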