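import Cfsg.Statements.S0042
import Cfsg.Agent.Lib.Frob.Basic
import Cfsg.Agent.Lib.ZJ.Fpf
import Cfsg.Agent.S0035

set_option autoImplicit false
open Cfsg

namespace Cfsg.Agent.S0042

/-- In a finite Frobenius group, the Frobenius kernel is (the carrier of) a normal subgroup which is nilpotent. -/
theorem result {G : Type*} [Group G] [Finite G] (H : Subgroup G) (hH : Cfsg.IsFrobeniusComplement H) :
    ∃ N : Subgroup G, (N : Set G) = Cfsg.frobeniusKernel H ∧ N.Normal ∧ Group.IsNilpotent N := by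
  obtain ⟨N, hN, hn, hc⟩ := Cfsg.Agent.S0035.result H hH
  refine ⟨N, hN, hn, ?_⟩
  have hHb : H ≠ ⊥ := hH.1
  have hti := hH.2.2
  have h2 : 1 < Nat.card H := Frob.two_le_card_of_ne_bot hHb
  obtain ⟨p, hp, hpd⟩ := Nat.exists_prime_and_dvd h2.ne'
  have : Fact p.Prime := ⟨hp⟩
  obtain ⟨a, ha⟩ := exists_prime_orderOf_dvd_card' p hpd
  have ha1 : (a : G) ≠ 1 := by
    intro h
    have : a = 1 := Subtype.ext h
    rw [this, orderOf_one] at ha
    exact hp.one_lt.ne ha
  have hap : (a : G) ^ p = 1 := by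
    have : a ^ p = 1 := by rw [← ha]; exact pow_orderOf_eq_one a
    exact_mod_cast congrArg Subtype.val this
  have hf := Frob.fpf_of_ti hc.disjoint hti a a.2 ha1
  refine ZJ.isNilpotent_of_fpf_conj hp (a := (a : G)) ?_ ?_ ?_
  · rw [Subgroup.normalizer_eq_top]; trivial
  · rw [hap]; exact one_mem _
  · intro x hx h
    have : x ∈ N ⊓ Subgroup.centralizer {(a : G)} := by
      refine Subgroup.mem_inf.2 ⟨hx, ?_⟩
      rw [Subgroup.mem_centralizer_singleton_iff]
      rw [mul_inv_eq_iff_eq_mul] at h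
      exact h.symm
    rw [hf] at this
    exact this

end Cfsg.Agent.S0042
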