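import Cfsg.Statements.S0054
import Cfsg.Agent.Lib.Fit.Solvable

set_option autoImplicit false
open Cfsg

namespace Cfsg.Agent.S0054

/-- A regular normal subgroup of a finite 2-transitive group is elementary abelian: it is commutative and all its elements have order dividing one prime. -/
theorem result {G : Type*} [Group G] [Finite G]
    {X : Type*} [Nonempty X] [MulAction G X] (h2 : MulAction.IsMultiplyPretransitive G X 2)
    (N : Subgroup G) [N.Normal] (htrans : MulAction.IsPretransitive N X) (hreg : ∀ x : X, MulAction.stabilizer N x = ⊥) :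
    IsMulCommutative N ∧ ∃ p : ℕ, p.Prime ∧ ∀ n ∈ N, n ^ p = 1 := by
  obtain ⟨x⟩ := ‹Nonempty X›
  have hfree : ∀ n ∈ N, n • x = x → n = 1 := fun n hn h => by
    have : (⟨n, hn⟩ : N) ∈ MulAction.stabilizer N x := h
    rw [hreg x] at this
    exact congrArg Subtype.val this
  have hconj : ∀ a ∈ N, ∀ b ∈ N, a ≠ 1 → b ≠ 1 → ∃ g : G, g * a * g⁻¹ = b := by
    intro a ha b hb ha1 hb1
    obtain ⟨g, hg1, hg2⟩ := MulAction.is_two_pretransitive_iff.mp h2
      (fun h => ha1 (hfree a ha h.symm)) (fun h => hb1 (hfree b hb h.symm))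
    refine ⟨g, (inv_mul_eq_one.mp (hfree _ (mul_mem (inv_mem hb)
      (Subgroup.Normal.conj_mem inferInstance a ha g)) ?_)).symm⟩
    rw [mul_smul, mul_smul, mul_smul, inv_smul_eq_iff.mpr hg1.symm, hg2, inv_smul_smul]
  by_cases hN : N = ⊥
  · subst hN
    exact ⟨inferInstance, 2, Nat.prime_two, fun n hn => by rw [Subgroup.mem_bot.mp hn, one_pow]⟩
  obtain ⟨p, hp, hd⟩ := Nat.exists_prime_and_dvd (fun e => hN (Subgroup.card_eq_one.mp e))
  have : Fact p.Prime := ⟨hp⟩
  obtain ⟨a, ha⟩ := exists_prime_orderOf_dvd_card' p hd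
  have ha1 : (a : G) ≠ 1 := fun e => hp.one_lt.ne' (by
    rw [← ha, ← Subgroup.orderOf_coe, e, orderOf_one])
  have hpow : ∀ n ∈ N, n ^ p = 1 := fun n hn => by
    by_cases h1 : n = 1
    · rw [h1, one_pow]
    obtain ⟨g, rfl⟩ := hconj a a.2 n hn ha1 h1
    rw [conj_pow, ← ha, ← Subgroup.orderOf_coe, pow_orderOf_eq_one, mul_one, mul_inv_cancel]
  have hP := Fit.isPGroup_of_forall_pow_eq_one hpow
  have := hP.isNilpotent
  refine ⟨(Fit.minimal_normal_elementary N inferInstance hN fun M hM hMN => ?_).1, p, hp, hpow⟩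
  refine or_iff_not_imp_left.mpr fun hMb => le_antisymm hMN fun n hn => ?_
  obtain ⟨⟨m, hm⟩, hm1⟩ := Subgroup.ne_bot_iff_exists_ne_one.mp hMb
  by_cases h1 : n = 1
  · rw [h1]; exact one_mem _
  obtain ⟨g, rfl⟩ := hconj m (hMN hm) n hn (fun e => hm1 (Subtype.ext e)) h1
  exact hM.conj_mem m hm g

end Cfsg.Agent.S0054
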