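import Cfsg.Statements.S0144
import Cfsg.Agent.Lib.Char.Integral

set_option autoImplicit false
open Cfsg

namespace Cfsg.Agent.S0144

/-- The Burnside two-prime Theorem: a finite group of order p ^ a * q ^ b, for primes p and q, is solvable. -/
theorem result {G : Type*} [Group G] [Finite G] (p q a b : ℕ) (hp : p.Prime) (hq : q.Prime) (hcard : Nat.card G = p ^ a * q ^ b) : Group.IsSolvable G := by
  exact Cfsg.Agent.Char.burnside hp hq hcard.dvd

end Cfsg.Agent.S0144
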