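import Cfsg.Statements.S0167
import Cfsg.Agent.Lib.Ind.PermLemma

set_option autoImplicit false
open Cfsg

namespace Cfsg.Agent.S0167

open Cfsg.Agent.Char Cfsg.Agent.Ind
open scoped ComplexConjugate

theorem sum_conj_mul {G : Type*} [Group G] [Fintype G] {χ : G → ℂ} (hχ : IsIrrCharacter G χ)
    (b c : G) : ∑ a : G, χ (a * b * a⁻¹ * c) = Nat.card G * χ b * χ c / χ 1 := by
  obtain ⟨n, ρ, hρ, rfl⟩ := hχ
  obtain ⟨z, hz⟩ := exists_eq_smul_of_comm ρ (∑ a : G, ρ (a * b * a⁻¹)) (fun g => by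
    rw [Finset.sum_mul, Finset.mul_sum]
    refine Fintype.sum_equiv (Equiv.mulLeft g⁻¹) _ _ fun a => ?_
    simp [← map_mul, mul_assoc])
  have h1 : ∀ c : G, ∑ a : G, ρ.character (a * b * a⁻¹ * c) = z * ρ.character c := by
    intro c
    have := congrArg (fun T => LinearMap.trace ℂ _ (T * ρ c)) hz
    simp only [Finset.sum_mul, map_sum, ← map_mul, smul_mul_assoc, one_mul, map_smul,
      smul_eq_mul] at this
    exact this
  have h2 := h1 1
  simp only [mul_one, ρ.char_conj, Finset.sum_const, Finset.card_univ, nsmul_eq_mul,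
    ← Nat.card_eq_fintype_card] at h2
  have h3 : ρ.character 1 ≠ 0 := apply_one_ne_zero_of_isIrr ⟨n, ρ, hρ, rfl⟩
  rw [h1, h2]
  field_simp

theorem count_eq {G : Type*} [Group G] [Fintype G] (g : G) :
    (Nat.card {p : G × G // g = p.1 * p.2 * p.1⁻¹ * p.2⁻¹} : ℂ) =
      Nat.card G * ∑ χ : IrrCharacter G, (χ : G → ℂ) g / (χ : G → ℂ) 1 := by
  classical
  let N : G → ℂ := fun g => ∑ p : G × G, if g = p.1 * p.2 * p.1⁻¹ * p.2⁻¹ then 1 else 0
  have hN : IsClassFunction G N := by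
    intro g h
    refine Fintype.sum_equiv ((MulAut.conj h⁻¹).toEquiv.prodCongr (MulAut.conj h⁻¹).toEquiv) _ _
      fun p => ?_
    have : h * g * h⁻¹ = p.1 * p.2 * p.1⁻¹ * p.2⁻¹ ↔
        g = (h⁻¹ * p.1 * h) * (h⁻¹ * p.2 * h) * (h⁻¹ * p.1 * h)⁻¹ * (h⁻¹ * p.2 * h)⁻¹ := by
      constructor
      · intro e
        calc g = h⁻¹ * (h * g * h⁻¹) * h := by group
          _ = _ := by rw [e]; group
      · intro e
        rw [e]; group
    simp [this]
  have h1 : ∀ χ : IrrCharacter G, classInner N χ = Nat.card G / (χ : G → ℂ) 1 := by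
    intro χ
    have h2 : ∑ g, N g * conj ((χ : G → ℂ) g) =
        conj (∑ b : G, ∑ a : G, (χ : G → ℂ) (a * b * a⁻¹ * b⁻¹)) := by
      simp only [N, Finset.sum_mul, ite_mul, one_mul, zero_mul]
      rw [Finset.sum_comm]
      simp only [Finset.sum_ite_eq', Finset.mem_univ, if_true, map_sum]
      rw [Fintype.sum_prod_type_right]
    rw [classInner, h2]
    simp only [sum_conj_mul χ.2]
    simp only [irr_apply_inv, mul_assoc, ← Finset.sum_div, ← Finset.mul_sum,
      sum_mul_conj_of_isIrr χ.2, map_div₀, map_mul, map_natCast,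
      conj_apply_one_of_isChar (isChar_irr χ)]
    have := card_ne_zero' G
    field_simp
  have h3 := apply_eq_sum_inner_mul hN g
  simp only [h1] at h3
  rw [Finset.mul_sum, Finset.sum_congr rfl (g := fun χ : IrrCharacter G =>
    Nat.card G / (χ : G → ℂ) 1 * (χ : G → ℂ) g) (fun χ _ => by ring), ← h3]
  simp only [N, Finset.sum_boole]
  rw [Nat.card_eq_fintype_card, Fintype.card_subtype]

/-- An element g of a finite group is a commutator if and only if the sum over the irreducible characters χ of χ g / χ 1 is nonzero. -/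
theorem result {G : Type*} [Group G] [Finite G] (g : G) : (∃ a b : G, g = a * b * a⁻¹ * b⁻¹) ↔ ∑ᶠ χ : Cfsg.IrrCharacter G, (χ : G → ℂ) g / (χ : G → ℂ) 1 ≠ 0 := by
  have := Fintype.ofFinite G
  rw [finsum_eq_sum_of_fintype]
  have h := count_eq g
  constructor
  · rintro ⟨a, b, hab⟩ h0
    rw [h0, mul_zero, Nat.cast_eq_zero] at h
    have : Nonempty {p : G × G // g = p.1 * p.2 * p.1⁻¹ * p.2⁻¹} := ⟨⟨(a, b), hab⟩⟩
    exact Nat.card_pos.ne' h
  · intro h0
    have h1 := mul_ne_zero (card_ne_zero' G) h0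
    rw [← h, Nat.cast_ne_zero] at h1
    obtain ⟨⟨⟨a, b⟩, hab⟩⟩ := (Nat.card_pos_iff.mp (Nat.pos_of_ne_zero h1)).1
    exact ⟨a, b, hab⟩

end Cfsg.Agent.S0167
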