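import Cfsg.Statements.S0168
import Cfsg.Agent.Lib.Ind.PermLemma

set_option autoImplicit false
open Cfsg

namespace Cfsg.Agent.S0168

open Cfsg.Agent.Char Cfsg.Agent.Ind Polynomial
open scoped ComplexConjugate

/-- The Burnside–Brauer Theorem. Let χ be the character of a faithful complex representation of a finite group, taking m distinct values. Then every irreducible character has nonzero inner product with χ ^ i for some i < m. -/
theorem result {G : Type*} [Group G] [Fintype G] {V : Type*} [AddCommGroup V] [Module ℂ V] [FiniteDimensional ℂ V] (ρ : Representation ℂ G V) (hfaithful : Function.Injective ρ) (ψ : G → ℂ) (hψ : Cfsg.IsIrrCharacter G ψ) : ∃ i : ℕ, i < Nat.card (Set.range ρ.character) ∧ Cfsg.classInner (fun g => ρ.character g ^ i) ψ ≠ 0 := by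
  classical
  by_contra hcon
  push Not at hcon
  let S : Finset ℂ := Finset.univ.image ρ.character
  have hS : Nat.card (Set.range ρ.character) = S.card := by
    rw [← Set.ncard_coe_finset, Finset.coe_image, Finset.coe_univ, Set.image_univ]
    rfl
  have h1S : ρ.character 1 ∈ S := Finset.mem_image_of_mem _ (Finset.mem_univ 1)
  let P : ℂ[X] := ∏ a ∈ S.erase (ρ.character 1), (X - C a)
  have hdeg : P.natDegree < S.card := by
    have : P.natDegree = (S.erase (ρ.character 1)).card := by
      simp only [P]
      rw [natDegree_prod_of_monic _ _ (fun a _ => monic_X_sub_C a)]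
      simp
    rw [this, Finset.card_erase_of_mem h1S]
    have := Finset.card_pos.mpr ⟨_, h1S⟩
    omega
  have h2 : (fun g => P.eval (ρ.character g)) =
      ∑ i ∈ Finset.range (P.natDegree + 1), P.coeff i • fun g => ρ.character g ^ i := by
    ext g
    rw [eval_eq_sum_range]
    simp
  have h3 : classInner (fun g => P.eval (ρ.character g)) ψ = 0 := by
    rw [h2, Ind.inner_sum_left]
    refine Finset.sum_eq_zero fun i hi => ?_
    rw [Ind.inner_smul_left, hcon i (by rw [hS]; have := Finset.mem_range.mp hi; omega), mul_zero]
  rw [classInner, Finset.sum_eq_single 1] at h3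
  · have h4 : P.eval (ρ.character 1) ≠ 0 := by
      simp only [P, eval_prod, eval_sub, eval_X, eval_C]
      exact Finset.prod_ne_zero_iff.mpr fun a ha => sub_ne_zero.mpr (Finset.mem_erase.mp ha).1.symm
    rw [conj_apply_one_of_isChar (isChar_of_isIrr hψ)] at h3
    exact mul_ne_zero (inv_ne_zero (card_ne_zero' G))
      (mul_ne_zero h4 (apply_one_ne_zero_of_isIrr hψ)) h3
  · intro g _ hg
    have h5 : ρ.character g ≠ ρ.character 1 := by
      intro h
      rw [ρ.char_one, character_eq_finrank_iff] at h
      exact hg (hfaithful (by rw [h, map_one]; rfl))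
    have : P.eval (ρ.character g) = 0 := by
      simp only [P, eval_prod, eval_sub, eval_X, eval_C]
      exact Finset.prod_eq_zero (Finset.mem_erase.mpr ⟨h5, Finset.mem_image_of_mem _
        (Finset.mem_univ g)⟩) (sub_self _)
    rw [this, zero_mul]
  · simp

end Cfsg.Agent.S0168
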