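import Cfsg.Statements.S0175
import Cfsg.Agent.Lib.Ind.PermLemma
import Cfsg.Agent.Lib.Ind.Solomon

set_option autoImplicit false
open Cfsg

namespace Cfsg.Agent.S0175

open Cfsg.Agent.Char Cfsg.Agent.Ind
open scoped ComplexConjugate commutatorElement

/-- Taketa's Theorem on M-groups: if every irreducible complex character of a finite group is induced from a linear character (a homomorphism to ℂˣ) of some subgroup, the group is solvable. -/
theorem result {G : Type*} [Group G] [Fintype G] (hM : ∀ χ : G → ℂ, Cfsg.IsIrrCharacter G χ → ∃ (H : Subgroup G) (lam : H →* ℂˣ), χ = Cfsg.indFun H (fun h => (lam h : ℂ))) : Group.IsSolvable G := by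
  classical
  have key : ∀ n : ℕ, ∀ χ : G → ℂ, IsIrrCharacter G χ → ∀ d : ℕ, χ 1 = d → d ≤ n →
      ∀ x ∈ derivedSeries G n, χ x = χ 1 := by
    intro n
    induction n with
    | zero =>
      intro χ hχ d hd hle
      have : d = 0 := by omega
      exact absurd (by simpa [this] using hd) (apply_one_ne_zero_of_isIrr hχ)
    | succ n ih =>
      intro χ hχ d hd hle
      obtain ⟨H, lam, rfl⟩ := hM χ hχ
      have := Fintype.ofFinite H
      have hidx : H.index = d := by
        rw [indFun_one] at hd
        simpa using hd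
      have hπ := isCharacter_indFun H (isChar_one (G := H))
      have h1 : classInner (indFun H fun _ => (1 : ℂ)) (fun _ => 1) = 1 := by
        rw [frobenius H _ (cf_const 1)]
        exact inner_one_one
      have hπ' := isChar_sub_of_inner_ne_zero hπ isIrr_one (by rw [h1]; exact one_ne_zero)
      have hd1 : 1 ≤ d := by
        rw [← hidx]; exact Nat.pos_of_ne_zero Subgroup.index_ne_zero_of_finite
      have hdeg : ((indFun H fun _ => (1 : ℂ)) - (fun _ => 1) : G → ℂ) 1 = ((d - 1 : ℕ) : ℂ) := by
        simp [indFun_one, hidx, hd1]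
      have h2 : ∀ x ∈ derivedSeries G n, x ∈ H := by
        intro x hx
        have h3 : ((indFun H fun _ => (1 : ℂ)) - (fun _ => 1) : G → ℂ) x =
            ((indFun H fun _ => (1 : ℂ)) - (fun _ => 1) : G → ℂ) 1 := by
          rw [apply_eq_sum_inner_mul (cf_of_isCharacter hπ') x,
            apply_eq_sum_inner_mul (cf_of_isCharacter hπ') 1]
          refine Finset.sum_congr rfl fun ψ _ => ?_
          by_cases h0 : classInner ((indFun H fun _ => (1 : ℂ)) - fun _ => 1) ψ = 0
          · rw [h0, zero_mul, zero_mul]
          · obtain ⟨e, he⟩ := exists_nat_of_isChar (isChar_irr ψ)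
            have := deg_le_of_inner_ne_zero hπ' ψ.2 h0 hdeg he
            rw [ih ψ ψ.2 e he (by omega) x hx]
        simp only [Pi.sub_apply, sub_left_inj] at h3
        have h4 := card_mul_indFun_one H x
        rw [h3, card_mul_indFun_one] at h4
        have h5 : Nat.card {y : G // y⁻¹ * x * y ∈ H} = Nat.card G := by
          have : Nat.card {y : G // y⁻¹ * 1 * y ∈ H} = Nat.card G :=
            Nat.card_congr (Equiv.subtypeUnivEquiv (by simp))
          rw [← this]
          exact_mod_cast h4.symm
        by_contra hxH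
        have := Finite.card_subtype_lt (p := fun y : G => y⁻¹ * x * y ∈ H) (x := 1) (by simpa using hxH)
        omega
      have h6 : derivedSeries G (n + 1) ≤ lam.ker.map H.subtype := by
        rw [derivedSeries_succ, Subgroup.commutator_le]
        intro a ha b hb
        refine ⟨⁅(⟨a, h2 a ha⟩ : H), ⟨b, h2 b hb⟩⁆, ?_, rfl⟩
        change lam _ = 1
        rw [map_commutatorElement, commutatorElement_eq_one_iff_mul_comm, mul_comm]
      intro x hx
      rw [indFun_apply, indFun_apply]
      congr 1
      refine Finset.sum_congr rfl fun y _ => ?_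
      have h7 : y⁻¹ * x * y ∈ derivedSeries G (n + 1) := by
        simpa using (derivedSeries_normal G (n + 1)).conj_mem x hx y⁻¹
      obtain ⟨z, hz, hz'⟩ := h6 h7
      rw [← hz', mul_one, inv_mul_cancel]
      change extendByZero H _ (z : G) = extendByZero H _ ((1 : H) : G)
      rw [ebz_coe, ebz_coe, (MonoidHom.mem_ker).mp hz, map_one]
  refine ⟨⟨Nat.card G, ?_⟩⟩
  rw [eq_bot_iff]
  intro x hx
  rw [Subgroup.mem_bot]
  refine eq_one_of_forall_irr fun χ => ?_
  obtain ⟨d, hd⟩ := exists_nat_of_isChar (isChar_irr χ)
  exact key _ χ χ.2 d hd (Nat.le_of_dvd Nat.card_pos (dvd_card_of_isIrr χ.2 hd)) x hx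

end Cfsg.Agent.S0175
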