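import Cfsg.Statements.S0177
import Cfsg.Agent.Lib.Ind.PermLemma
import Cfsg.Agent.Lib.Ind.Brauer

set_option autoImplicit false
open Cfsg

namespace Cfsg.Agent.S0177

open Cfsg.Agent.Char Cfsg.Agent.Ind
open scoped ComplexConjugate

universe u

open Classical in
/-- The Artin function: the group order at generators, zero elsewhere. -/
noncomputable def gen (A : Type*) [Group A] : A → ℂ :=
  fun x => if Subgroup.zpowers x = ⊤ then Nat.card A else 0

theorem cf_gen (A : Type*) [Group A] : IsClassFunction A (gen A) := by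
  intro g h
  have : Subgroup.zpowers (h * g * h⁻¹) = (Subgroup.zpowers g).map (MulAut.conj h).toMonoidHom := by
    simp [MonoidHom.map_zpowers]
  have e : Subgroup.zpowers (h * g * h⁻¹) = ⊤ ↔ Subgroup.zpowers g = ⊤ := by
    rw [this]
    conv_lhs => rw [← Subgroup.map_top_of_surjective (MulAut.conj h).toMonoidHom
      (MulAut.conj h).surjective]
    exact (Subgroup.map_injective (f := (MulAut.conj h).toMonoidHom)
      (MulAut.conj h).injective).eq_iff
  unfold gen
  rw [e]

open Classical in
theorem ebz_gen {G : Type*} [Group G] (A : Subgroup G) (y : G) :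
    extendByZero A (gen A) y = if A = Subgroup.zpowers y then (Nat.card A : ℂ) else 0 := by
  by_cases hy : y ∈ A
  · rw [ebz_of_mem A _ hy, gen]
    have : Subgroup.zpowers (⟨y, hy⟩ : A) = ⊤ ↔ A = Subgroup.zpowers y := by
      rw [← (Subgroup.map_injective A.subtype_injective).eq_iff, MonoidHom.map_zpowers,
        ← MonoidHom.range_eq_map, Subgroup.range_subtype, eq_comm]
      rfl
    simp only [this]
  · rw [ebz_of_not_mem A _ hy, if_neg]
    rintro rfl
    exact hy (Subgroup.mem_zpowers y)

theorem sum_ind_gen (G : Type*) [Group G] [Fintype G] [Fintype (Subgroup G)] :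
    ∑ A : Subgroup G, indFun A (gen A) = fun _ => (Nat.card G : ℂ) := by
  classical
  ext g
  simp only [Finset.sum_apply, indFun_apply, ebz_gen, Finset.mul_sum]
  rw [Finset.sum_comm]
  have : ∀ x : G, ∑ A : Subgroup G, (Nat.card A : ℂ)⁻¹ *
      (if A = Subgroup.zpowers (x⁻¹ * g * x) then (Nat.card A : ℂ) else 0) = 1 := by
    intro x
    simp only [mul_ite, mul_zero, Finset.sum_ite_eq', Finset.mem_univ, if_true]
    exact inv_mul_cancel₀ (card_ne_zero' _)
  simp only [this]
  simp

theorem isGen_gen (n : ℕ) : ∀ (G : Type u) [Group G] [Finite G], Nat.card G = n →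
    IsGeneralizedCharacter G (gen G) := by
  induction n using Nat.strong_induction_on with
  | _ n ih =>
    intro G _ _ hn
    classical
    have := Fintype.ofFinite G
    have := Fintype.ofFinite (Subgroup G)
    have h := sum_ind_gen G
    rw [← Finset.add_sum_erase _ _ (Finset.mem_univ ⊤)] at h
    have h1 : indFun (⊤ : Subgroup G) (gen (⊤ : Subgroup G)) = gen G := by
      rw [← indFun_top (cf_gen G)]
      congr 1
      ext x
      have := ebz_gen (⊤ : Subgroup G) x
      rw [ebz_coe] at this
      rw [this, gen, Subgroup.card_top]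
      simp only [eq_comm]
    rw [h1, ← eq_sub_iff_add_eq] at h
    rw [h]
    refine isGen_sub ?_ (isGen_sum _ fun A hA => isGen_indFun A (ih _ ?_ A rfl))
    · have : (fun _ : G => (Nat.card G : ℂ)) = (Nat.card G : ℂ) • fun _ => 1 := by ext; simp
      rw [this]
      exact isGen_natCast_smul _ isGen_one
    · rw [← hn, ← A.card_mul_index]
      have : 1 < A.index := Subgroup.one_lt_index_of_ne_top (Finset.mem_erase.mp hA).1
      have h0 : 0 < Nat.card A := Nat.card_pos
      nlinarith

/-- The Artin induction Theorem: for a character χ of a finite group, |G| • χ is a ℤ-linear combination of functions induced from homomorphisms of cyclic subgroups into ℂˣ. -/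
theorem result {G : Type*} [Group G] [Fintype G] (χ : G → ℂ) (hχ : Cfsg.IsCharacter G χ) : ∃ l : List ((A : Subgroup G) × ((A →* ℂˣ) × ℤ)), (∀ t ∈ l, IsCyclic t.1) ∧ (Nat.card G : ℂ) • χ = (l.map fun t => (t.2.2 : ℂ) • Cfsg.indFun t.1 (fun a => (t.2.1 a : ℂ))).sum := by
  classical
  have := Fintype.ofFinite (Subgroup G)
  refine exists_list_of_mem_linSpan (P := fun A => IsCyclic A) ?_
  have h : (Nat.card G : ℂ) • χ = (∑ A : Subgroup G, indFun A (gen A)) * χ := by
    rw [sum_ind_gen]; ext; simp
  rw [h, Finset.sum_mul]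
  refine sum_mem fun A _ => ?_
  by_cases hA : IsCyclic A
  · have := Fintype.ofFinite A
    rw [← indFun_mul_res A _ (cf_of_isCharacter hχ)]
    obtain ⟨n, hn⟩ := isGen_iff_exists_int.mp
      (isGen_mul (isGen_gen _ A rfl) (isGen_of_isChar (isChar_restrict hχ A)))
    rw [hn, indFun_sum]
    refine sum_mem fun ψ _ => ?_
    rw [indFun_smul, Int.cast_smul_eq_zsmul]
    refine zsmul_mem ?_ _
    obtain ⟨lam, hlam⟩ := exists_unitsHom_of_apply_one (isChar_irr ψ)
      (apply_one_eq_one_of_comm ψ.2 IsCyclic.isMulCommutative.is_comm.comm)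
    exact AddSubgroup.subset_closure ⟨A, hA, lam, by rw [hlam]⟩
  · have : gen A = 0 := by
      ext x
      rw [gen, if_neg]
      · rfl
      · intro hx
        exact hA (isCyclic_iff_exists_zpowers_eq_top.mpr ⟨x, hx⟩)
    rw [this, indFun_zero, zero_mul]
    exact zero_mem _

end Cfsg.Agent.S0177
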