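import Cfsg.Statements.S0178
import Cfsg.Agent.Lib.Ind.PermLemma

set_option autoImplicit false
open Cfsg

namespace Cfsg.Agent.S0178

/-- The degree of an irreducible complex representation of a finite group is at most the index of any abelian subgroup. -/
theorem result {G : Type*} [Group G] [Finite G] {V : Type*} [AddCommGroup V] [Module ℂ V] [FiniteDimensional ℂ V] (ρ : Representation ℂ G V) [ρ.IsIrreducible] (A : Subgroup G) (hA : ∀ a ∈ A, ∀ b ∈ A, a * b = b * a) : Module.finrank ℂ V ≤ A.index := by
  open Cfsg.Agent.Char Cfsg.Agent.Ind in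
  have := Fintype.ofFinite G
  have := Fintype.ofFinite A
  have hχ := isIrr_character ρ
  obtain ⟨lam, hlam, h1⟩ := exists_constituent (cf_res (cf_of_isIrr hχ) A)
    (apply_one_ne_zero_of_isIrr hχ)
  have h2 : lam 1 = 1 := apply_one_eq_one_of_comm hlam fun a b => Subtype.ext (hA _ a.2 _ b.2)
  rw [← frobenius' A lam (cf_of_isIrr hχ)] at h1
  refine deg_le_of_inner_ne_zero (isCharacter_indFun A (isChar_of_isIrr hlam)) hχ
    (inner_ne_zero_comm h1) ?_ ρ.char_one
  rw [indFun_one, h2, mul_one]

end Cfsg.Agent.S0178
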