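import Cfsg.Statements.S0180
import Cfsg.Agent.Lib.Ind.PermLemma

set_option autoImplicit false
open Cfsg

namespace Cfsg.Agent.S0180

open Cfsg.Agent.Char Cfsg.Agent.Ind

/-- Every irreducible complex character of a finite group takes only rational values if and only if g is conjugate to g ^ m for every element g and every m coprime to the group order. -/
theorem result {G : Type*} [Group G] [Finite G] : (∀ χ : Cfsg.IrrCharacter G, ∀ g : G, ∃ q : ℚ, (χ : G → ℂ) g = (q : ℂ)) ↔ ∀ m : ℕ, m.Coprime (Nat.card G) → ∀ g : G, IsConj g (g ^ m) := by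
  constructor
  · intro h m hm g
    obtain ⟨τ, hτ⟩ := exists_ringEquiv_char_pow G hm
    rw [isConj_iff_irr]
    intro χ
    rw [← hτ χ (isGen_of_isIrr χ.2) g]
    obtain ⟨q, hq⟩ := h χ g
    rw [hq, map_ratCast]
  · intro h χ g
    refine exists_rat_of_forall_ringEquiv
      (isIntegral_of_isChar (isChar_irr χ) g).tower_top fun τ => ?_
    obtain ⟨m, hm, hτ⟩ := exists_char_pow_of_ringHom G τ.toRingHom
    have := hτ χ (isGen_of_isIrr χ.2) g
    rw [← cf_isConj (isClass_irr χ) (h m hm g)] at this
    exact this

end Cfsg.Agent.S0180
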