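import Cfsg.Statements.S0181
import Cfsg.Agent.Lib.Ind.PermLemma

set_option autoImplicit false
open Cfsg

namespace Cfsg.Agent.S0181

open Cfsg.Agent.Char Cfsg.Agent.Ind
open scoped ComplexConjugate

/-- Let H be a normal subgroup of a finite group G and ρ an irreducible complex representation whose kernel does not contain H. If g commutes with no non-identity element of H, then the character of ρ vanishes at g. -/
theorem result {G : Type*} [Group G] [Finite G] {V : Type*} [AddCommGroup V] [Module ℂ V] [FiniteDimensional ℂ V] (ρ : Representation ℂ G V) [ρ.IsIrreducible] (H : Subgroup G) [H.Normal] (hker : ∃ h ∈ H, ρ h ≠ LinearMap.id) (g : G) (hg : ∀ h ∈ H, h * g = g * h → h = 1) : ρ.character g = 0 := by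
  classical
  have := Fintype.ofFinite G
  have hN : H.Normal := inferInstance
  have hχ := isIrr_character ρ
  have h1 : ∀ h ∈ H, ρ.character (h * g) = ρ.character g := by
    intro h hh
    let f : H → H := fun k => ⟨k * (g * (k : G)⁻¹ * g⁻¹),
      H.mul_mem k.2 (hN.conj_mem _ (H.inv_mem k.2) g)⟩
    have hf : Function.Injective f := by
      intro a b hab
      have e : (a : G) * (g * (a : G)⁻¹ * g⁻¹) = b * (g * (b : G)⁻¹ * g⁻¹) :=
        congrArg Subtype.val hab
      have : (b : G)⁻¹ * a = 1 := by
        apply hg _ (H.mul_mem (H.inv_mem b.2) a.2)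
        calc (b : G)⁻¹ * a * g = (b : G)⁻¹ * (a * (g * (a : G)⁻¹ * g⁻¹)) * g * a := by group
          _ = (b : G)⁻¹ * (b * (g * (b : G)⁻¹ * g⁻¹)) * g * a := by rw [e]
          _ = g * ((b : G)⁻¹ * a) := by group
      exact Subtype.ext (inv_mul_eq_one.mp this).symm
    obtain ⟨k, hk⟩ := Finite.injective_iff_surjective.mp hf ⟨h, hh⟩
    have e : (k : G) * (g * (k : G)⁻¹ * g⁻¹) = h := congrArg Subtype.val hk
    rw [← e, ← ρ.char_conj g k]
    congr 1
    group
  have h2 : IsClassFunction G (extendByZero H fun _ => 1) := by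
    intro a b
    have : b * a * b⁻¹ ∈ H ↔ a ∈ H := ⟨fun h => by simpa [mul_assoc] using hN.conj_mem _ h b⁻¹,
      fun h => hN.conj_mem _ h b⟩
    simp only [ebz_apply, this]
  have h3 := sum_mul_apply_mul hχ h2 g
  rw [sum_ebz_mul, sum_ebz_mul] at h3
  simp only [one_mul] at h3
  rw [Finset.sum_congr rfl (g := fun _ => ρ.character g) (fun (h : H) _ => h1 h h.2), Finset.sum_const,
    Finset.card_univ, nsmul_eq_mul, ← Nat.card_eq_fintype_card] at h3
  by_contra h0
  have h4 := mul_right_cancel₀ h0 h3
  have h5 : classInner (fun h : H => ρ.character h) (fun _ => 1) = Module.finrank ℂ V := by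
    simp only [classInner, map_one, mul_one]
    rw [eq_div_iff (apply_one_ne_zero_of_isIrr hχ)] at h4
    rw [← h4, ρ.char_one, ← mul_assoc, inv_mul_cancel₀ (card_ne_zero' H), one_mul]
  have h6 := eq_zero_of_isChar_of_apply_one
    (isChar_sub_nat_smul (isChar_restrict (isChar_of_isIrr hχ) H) isIrr_one h5 le_rfl) (by simp)
  obtain ⟨h, hh, hne⟩ := hker
  apply hne
  rw [← character_eq_finrank_iff]
  have := congrFun h6 ⟨h, hh⟩
  simpa [sub_eq_zero] using this

end Cfsg.Agent.S0181
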