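import Cfsg.Statements.S0184
import Cfsg.Agent.Lib.Ind.PermLemma
import Cfsg.Agent.Lib.Fit.Fitting

set_option autoImplicit false
open Cfsg

namespace Cfsg.Agent.S0184

open Cfsg.Agent.Char Cfsg.Agent.Ind
open scoped ComplexConjugate

/-- A finite p-group admits a faithful irreducible complex representation if and only if its centre is cyclic. -/
theorem result {G : Type*} [Group G] [Finite G] (p : ℕ) [Fact p.Prime] (hG : IsPGroup p G) : (∃ (n : ℕ) (ρ : Representation ℂ G (Fin n → ℂ)), ρ.IsIrreducible ∧ Function.Injective ρ) ↔ IsCyclic (Subgroup.center G) := by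
  classical
  have := Fintype.ofFinite G
  have := Fintype.ofFinite (Subgroup.center G)
  constructor
  · rintro ⟨n, ρ, hρ, hinj⟩
    have hχ := isIrr_character ρ
    obtain ⟨θ, hθ, h1⟩ := exists_constituent (cf_res (cf_of_isIrr hχ) (Subgroup.center G))
      (apply_one_ne_zero_of_isIrr hχ)
    have h2 := clifford_inv _ hχ hθ h1 (fun g => by
      ext z
      simp only [cjf]
      congr 1
      ext
      simp [Subgroup.mem_center_iff.mp z.2 g])
    obtain ⟨lam, rfl⟩ := exists_unitsHom_of_apply_one (isChar_of_isIrr hθ)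
      (apply_one_eq_one_of_comm hθ fun a b => Subtype.ext (Subgroup.mem_center_iff.mp b.2 a))
    refine isCyclic_of_injective_ringHom ((Units.coeHom ℂ).comp lam) ?_
    rw [injective_iff_map_eq_one]
    intro z hz
    have h3 := congrFun h2 z
    have h4 := congrFun h2 1
    have hz' : (lam z : ℂ) = 1 := hz
    simp only [Pi.smul_apply, smul_eq_mul, hz', map_one, Units.val_one, OneMemClass.coe_one] at h3 h4
    rw [← h4, ρ.char_one, character_eq_finrank_iff] at h3
    exact Subtype.ext (hinj (by rw [h3, OneMemClass.coe_one, map_one]; rfl))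
  · intro hZ
    obtain ⟨z, hz⟩ := IsCyclic.exists_generator (α := Subgroup.center G)
    have hprim := Complex.isPrimitiveRoot_exp (orderOf z) (orderOf_pos z).ne'
    let ζ : ℂˣ := (hprim.isUnit (orderOf_pos z).ne').unit
    have hζ : orderOf ζ = orderOf z := by
      rw [← orderOf_units]
      exact hprim.eq_orderOf.symm
    let lam : Subgroup.center G →* ℂˣ := monoidHomOfForallMemZpowers hz (g' := ζ) (by rw [hζ])
    have hlam : Function.Injective lam := by
      rw [injective_iff_map_eq_one]
      intro a ha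
      obtain ⟨k, rfl⟩ := hz a
      simp only [map_zpow, lam, monoidHomOfForallMemZpowers_apply_gen] at ha ⊢
      rw [← orderOf_dvd_iff_zpow_eq_one, hζ, orderOf_dvd_iff_zpow_eq_one] at ha
      exact ha
    have hθ := isIrr_unitsHom lam
    obtain ⟨χ, hχ, h1⟩ := exists_constituent (cf_indFun (Subgroup.center G) fun a => (lam a : ℂ))
      (by rw [indFun_one]; simp [Subgroup.index_ne_zero_of_finite])
    rw [Ind.frobenius _ _ (cf_of_isIrr hχ)] at h1
    have h2 := clifford_inv _ hχ hθ (inner_ne_zero_comm h1) (fun g => by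
      ext z
      simp only [cjf]
      congr 2
      ext
      simp [Subgroup.mem_center_iff.mp z.2 g])
    have h5 := apply_one_ne_zero_of_isIrr hχ
    obtain ⟨n, ρ, hρ, rfl⟩ := hχ
    refine ⟨n, ρ, hρ, ?_⟩
    rw [← MonoidHom.ker_eq_bot_iff]
    by_contra hne
    have := hG.isNilpotent
    obtain ⟨⟨w, hw⟩, hw1⟩ := Subgroup.ne_bot_iff_exists_ne_one.mp
      (Cfsg.Agent.Fit.inf_center_ne_bot (MonoidHom.ker ρ) hne)
    have h3 := congrFun h2 ⟨w, hw.2⟩
    have h4 := congrFun h2 1
    simp only [Pi.smul_apply, smul_eq_mul, map_one, Units.val_one, OneMemClass.coe_one,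
      mul_one] at h3 h4
    have h6 : ρ.character w = ρ.character 1 := by
      rw [ρ.char_one, character_eq_finrank_iff]
      exact hw.1
    rw [h6, ← h4] at h3
    have h7 : (lam ⟨w, hw.2⟩ : ℂ) = 1 := mul_left_cancel₀ h5 (by rw [← h3, mul_one])
    have h8 : (⟨w, hw.2⟩ : Subgroup.center G) = 1 := hlam (by rw [map_one]; exact Units.ext h7)
    have h9 : w = 1 := congrArg Subtype.val h8
    exact hw1 (Subtype.ext h9)

end Cfsg.Agent.S0184
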