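import Cfsg.Statements.S0185
import Cfsg.Agent.Lib.Ind.PermLemma

set_option autoImplicit false
open Cfsg

namespace Cfsg.Agent.S0185

open Cfsg.Agent.Char Cfsg.Agent.Ind

/-- If a finite group has a faithful complex representation of degree less than the smallest prime dividing its order, the group is abelian. -/
theorem result {G : Type*} [Group G] [Finite G] {V : Type*} [AddCommGroup V] [Module ℂ V] [FiniteDimensional ℂ V] (ρ : Representation ℂ G V) (hfaithful : Function.Injective ρ) (hdeg : ∀ p : ℕ, p.Prime → p ∣ Nat.card G → Module.finrank ℂ V < p) (a b : G) : a * b = b * a := by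
  have := Fintype.ofFinite G
  have hχ := isChar_character ρ
  have h1 : ρ.character (a * b * a⁻¹ * b⁻¹) = ρ.character 1 := by
    rw [apply_eq_sum_inner_mul (cf_of_isCharacter hχ) (a * b * a⁻¹ * b⁻¹),
      apply_eq_sum_inner_mul (cf_of_isCharacter hχ) 1]
    refine Finset.sum_congr rfl fun ψ _ => ?_
    by_cases h0 : classInner ρ.character ψ = 0
    · rw [h0, zero_mul, zero_mul]
    obtain ⟨d, hd⟩ := exists_nat_of_isChar (isChar_irr ψ)
    have h2 := deg_le_of_inner_ne_zero hχ ψ.2 h0 ρ.char_one hd
    have h3 : d = 1 := by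
      by_contra hne
      obtain ⟨p, hp, hpd⟩ := Nat.exists_prime_and_dvd hne
      have hdG := dvd_card_of_isIrr ψ.2 hd
      have h4 := hdeg p hp (hpd.trans hdG)
      have h5 : 0 < d := Nat.pos_of_dvd_of_pos hdG Nat.card_pos
      have := Nat.le_of_dvd h5 hpd
      omega
    obtain ⟨lam, hlam⟩ := exists_unitsHom_of_apply_one (isChar_irr ψ) (by rw [hd, h3]; simp)
    rw [hlam]
    simp [mul_comm (lam a)]
  rw [ρ.char_one, character_eq_finrank_iff] at h1
  have h2 : a * b * a⁻¹ * b⁻¹ = 1 := hfaithful (by rw [h1, map_one]; rfl)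
  calc a * b = (a * b * a⁻¹ * b⁻¹) * (b * a) := by group
    _ = b * a := by rw [h2, one_mul]

end Cfsg.Agent.S0185
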