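import Cfsg.Statements.S0186
import Cfsg.Agent.Lib.Ind.PermLemma

set_option autoImplicit false
open Cfsg

namespace Cfsg.Agent.S0186

open Cfsg.Agent.Char Cfsg.Agent.Ind
open scoped ComplexConjugate

/-- Let G be a finite simple group of order n and p a prime dividing n. If G has more than n / p^2 conjugacy classes, then every Sylow p-subgroup of G is abelian. -/
theorem result {G : Type*} [Group G] [Finite G] [IsSimpleGroup G] (p : ℕ) [Fact p.Prime] (hp : p ∣ Nat.card G) (hmany : Nat.card G < p ^ 2 * Nat.card (ConjClasses G)) (P : Sylow p G) (a b : G) (ha : a ∈ P) (hb : b ∈ P) : a * b = b * a := by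
  classical
  have := Fintype.ofFinite G
  have := Fintype.ofFinite (P : Subgroup G)
  have hpp : p.Prime := Fact.out
  by_contra hab
  obtain ⟨k, hk⟩ := IsPGroup.iff_card.mp P.isPGroup'
  have hk2 : 2 ≤ k := by
    by_contra hlt
    have : IsCyclic (P : Subgroup G) := by
      apply isCyclic_of_card_dvd_prime (p := p)
      rw [hk]
      interval_cases k <;> simp
    exact hab (congrArg Subtype.val
      ((IsCyclic.isMulCommutative (α := (P : Subgroup G))).is_comm.comm ⟨a, ha⟩ ⟨b, hb⟩))
  have hdvd : p ^ 2 ∣ Nat.card G :=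
    (pow_dvd_pow p hk2).trans (hk ▸ Subgroup.card_subgroup_dvd_card _)
  have hdeg : ∀ χ : IrrCharacter G, χ ≠ irrOne G → ∀ d : ℕ, (χ : G → ℂ) 1 = d → p ≤ d := by
    intro χ hχ d hd
    by_contra hlt
    apply hab
    have hres := isChar_restrict (isChar_irr χ) (P : Subgroup G)
    let c : (P : Subgroup G) := ⟨a, ha⟩ * ⟨b, hb⟩ * (⟨a, ha⟩ : (P : Subgroup G))⁻¹ * (⟨b, hb⟩ : (P : Subgroup G))⁻¹
    have h1 : (χ : G → ℂ) c = (χ : G → ℂ) (1 : (P : Subgroup G)) := by
      refine (apply_eq_sum_inner_mul (cf_of_isCharacter hres) c).trans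
        (Eq.trans ?_ (apply_eq_sum_inner_mul (cf_of_isCharacter hres) 1).symm)
      refine Finset.sum_congr rfl fun ψ _ => ?_
      by_cases h0 : classInner (fun x : (P : Subgroup G) => (χ : G → ℂ) x) ψ = 0
      · rw [h0, zero_mul, zero_mul]
      obtain ⟨e, he⟩ := exists_nat_of_isChar (isChar_irr ψ)
      have h2 := deg_le_of_inner_ne_zero hres ψ.2 h0 hd he
      have h3 := dvd_card_of_isIrr ψ.2 he
      rw [hk] at h3
      obtain ⟨j, -, hj⟩ := (Nat.dvd_prime_pow hpp).mp h3
      have h4 : e = 1 := by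
        rcases j with _ | j
        · simpa using hj
        · have : p ≤ e := hj ▸ Nat.le_self_pow j.succ_ne_zero p
          omega
      obtain ⟨lam, hlam⟩ := exists_unitsHom_of_apply_one (isChar_irr ψ) (by rw [he, h4]; simp)
      rw [hlam]
      simp only [c, map_mul, map_inv, map_one, mul_comm (lam ⟨a, ha⟩)]
      simp
    have h2 := eq_one_of_simple χ.2 (fun h => hχ (Subtype.ext h)) h1
    calc a * b = (a * b * a⁻¹ * b⁻¹) * (b * a) := by group
      _ = b * a := by rw [show a * b * a⁻¹ * b⁻¹ = 1 from h2, one_mul]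
  choose d hd using fun χ : IrrCharacter G => exists_nat_of_isChar (isChar_irr χ)
  have h1 := sum_irr_apply_one_sq (G := G)
  simp only [hd] at h1
  have h2 : ∑ χ : IrrCharacter G, d χ ^ 2 = Nat.card G := by exact_mod_cast h1
  rw [← Finset.add_sum_erase _ _ (Finset.mem_univ (irrOne G))] at h2
  have h3 : d (irrOne G) = 1 := by
    have := hd (irrOne G)
    rw [irrOne_apply] at this
    exact_mod_cast this.symm
  have h4 : (Finset.univ.erase (irrOne G)).card • p ^ 2 ≤
      ∑ χ ∈ Finset.univ.erase (irrOne G), d χ ^ 2 :=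
    Finset.card_nsmul_le_sum _ _ _ fun χ hχ =>
      Nat.pow_le_pow_left (hdeg χ (Finset.mem_erase.mp hχ).1 _ (hd χ)) 2
  rw [Finset.card_erase_of_mem (Finset.mem_univ _), Finset.card_univ, ← Nat.card_eq_fintype_card,
    card_irr_eq_card_conjClasses, smul_eq_mul] at h4
  obtain ⟨m, hm⟩ := hdvd
  rw [h3] at h2
  rw [hm] at h2 hmany
  have h5 : m < Nat.card (ConjClasses G) := lt_of_mul_lt_mul_left hmany (Nat.zero_le _)
  have h6 : (Nat.card (ConjClasses G) - 1) * p ^ 2 < p ^ 2 * m := by omega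
  rw [mul_comm] at h6
  have h7 := lt_of_mul_lt_mul_left h6 (Nat.zero_le _)
  omega

end Cfsg.Agent.S0186
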