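import Cfsg.Statements.S0187
import Cfsg.Agent.Lib.Ind.PermLemma

set_option autoImplicit false
open Cfsg

namespace Cfsg.Agent.S0187

open Cfsg.Agent.Char Cfsg.Agent.Ind

/-- A finite group is commutative if and only if every irreducible complex character has degree 1. -/
theorem result {G : Type*} [Group G] [Finite G] : (∀ a b : G, a * b = b * a) ↔ ∀ χ : Cfsg.IrrCharacter G, (χ : G → ℂ) 1 = 1 := by
  constructor
  · intro h χ
    exact apply_one_eq_one_of_comm χ.2 h
  · intro h a b
    have h2 : a * b * a⁻¹ * b⁻¹ = 1 := by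
      refine eq_one_of_forall_irr fun χ => ?_
      obtain ⟨lam, hlam⟩ := exists_unitsHom_of_apply_one (isChar_irr χ) (h χ)
      rw [hlam]
      simp [mul_comm (lam a)]
    calc a * b = (a * b * a⁻¹ * b⁻¹) * (b * a) := by group
      _ = b * a := by rw [h2, one_mul]

end Cfsg.Agent.S0187
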