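import Cfsg.Statements.S0191
import Cfsg.Agent.Lib.Ind.PermLemma

set_option autoImplicit false
open Cfsg

namespace Cfsg.Agent.S0191

open Cfsg.Agent.Char Cfsg.Agent.Ind
open scoped ComplexConjugate

/-- An irreducible complex representation of a finite group of degree greater than 1 has a character that vanishes somewhere. -/
theorem result {G : Type*} [Group G] [Finite G] {V : Type*} [AddCommGroup V] [Module ℂ V] [FiniteDimensional ℂ V] (ρ : Representation ℂ G V) [ρ.IsIrreducible] (hdeg : 1 < Module.finrank ℂ V) : ∃ g : G, ρ.character g = 0 := by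
  classical
  have := Fintype.ofFinite G
  have hχ := isIrr_character ρ
  have hχ' := isChar_of_isIrr hχ
  by_contra hne
  push Not at hne
  set χ := ρ.character with hχdef
  let s : Finset G := Finset.univ.erase 1
  have hint : IsIntegral ℤ (∏ g ∈ s, (χ g * χ g⁻¹)) :=
    IsIntegral.prod _ fun g _ => (isIntegral_of_isChar hχ' g).mul (isIntegral_of_isChar hχ' g⁻¹)
  obtain ⟨N, hN⟩ := exists_int_of_forall_ringEquiv hint (fun τ => by
    obtain ⟨m, hm, hτ⟩ := exists_char_pow_of_ringHom G τ.toRingHom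
    have h1 : ∀ g, τ (χ g) = χ (g ^ m) := hτ χ (isGen_of_isChar hχ')
    simp only [map_prod, map_mul, h1]
    refine Finset.prod_equiv (powCoprime hm.symm) (fun g => ?_) (fun g _ => by simp)
    simp only [s, Finset.mem_erase, Finset.mem_univ, and_true, ne_eq, not_iff_not]
    rw [← (powCoprime hm.symm).injective.eq_iff]
    simp)
  have h2 : ∀ g, χ g * χ g⁻¹ = ((‖χ g‖ ^ 2 : ℝ) : ℂ) := fun g => by
    rw [apply_inv_of_isChar hχ', Complex.mul_conj, Complex.normSq_eq_norm_sq]
  simp only [h2] at hN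
  have hN' : ∏ g ∈ s, ‖χ g‖ ^ 2 = (N : ℝ) := by exact_mod_cast hN
  have hpos : 0 < ∏ g ∈ s, ‖χ g‖ ^ 2 :=
    Finset.prod_pos fun g _ => pow_pos (norm_pos_iff.mpr (hne g)) 2
  have hN1 : (1 : ℝ) ≤ ∏ g ∈ s, ‖χ g‖ ^ 2 := by
    rw [hN'] at hpos ⊢
    have : 0 < N := by exact_mod_cast hpos
    exact_mod_cast this
  have h3 : 0 ≤ ∑ g ∈ s, (‖χ g‖ ^ 2 - 1) := by
    have := Real.log_nonneg hN1
    rw [Real.log_prod (fun g _ => (pow_pos (norm_pos_iff.mpr (hne g)) 2).ne')] at this
    exact this.trans (Finset.sum_le_sum fun g _ =>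
      Real.log_le_sub_one_of_pos (pow_pos (norm_pos_iff.mpr (hne g)) 2))
  have h4 := sum_mul_conj_of_isIrr hχ
  simp only [Complex.mul_conj, Complex.normSq_eq_norm_sq] at h4
  have h5 : ∑ g, ‖χ g‖ ^ 2 = (Nat.card G : ℝ) := by exact_mod_cast h4
  rw [← Finset.add_sum_erase _ _ (Finset.mem_univ 1)] at h5
  rw [Finset.sum_sub_distrib, Finset.sum_const, Finset.card_erase_of_mem (Finset.mem_univ _),
    Finset.card_univ, ← Nat.card_eq_fintype_card, nsmul_eq_mul, mul_one,
    Nat.cast_sub Nat.card_pos] at h3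
  have h6 : ‖χ 1‖ = Module.finrank ℂ V := by rw [hχdef, ρ.char_one, Complex.norm_natCast]
  have h7 : (1 : ℝ) < Module.finrank ℂ V := by exact_mod_cast hdeg
  rw [h6] at h5
  simp only [s] at h3
  push_cast at h3
  nlinarith

end Cfsg.Agent.S0191
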