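import Cfsg.Statements.S0192
import Cfsg.Agent.Lib.Ind.PermLemma

set_option autoImplicit false
open Cfsg

namespace Cfsg.Agent.S0192

open Cfsg.Agent.Char Cfsg.Agent.Ind
open scoped ComplexConjugate

/-- Brauer's generation criterion. Let G be a finite simple group, H₁ and H₂ subgroups, and χ a non-principal irreducible character. If the multiplicity of the principal character in χ restricted to H₁ ⊓ H₂ is less than the sum of the corresponding multiplicities for H₁ and H₂, then H₁ and H₂ do not generate G. -/
theorem result {G : Type*} [Group G] [Fintype G] [IsSimpleGroup G] (H₁ H₂ : Subgroup G) [Fintype H₁] [Fintype H₂] [Fintype ↥(H₁ ⊓ H₂)] (χ : G → ℂ) (hχ : Cfsg.IsIrrCharacter G χ) (hχ1 : χ ≠ fun _ => 1) (hlt : (Cfsg.classInner (fun x : ↥(H₁ ⊓ H₂) => χ x) (fun _ => 1)).re < (Cfsg.classInner (fun x : H₁ => χ x) (fun _ => 1)).re + (Cfsg.classInner (fun x : H₂ => χ x) (fun _ => 1)).re) : H₁ ⊔ H₂ ≠ ⊤ := by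
  intro htop
  obtain ⟨n, ρ, hρ, rfl⟩ := hχ
  have key : ∀ (H : Subgroup G) [Fintype H], (classInner (fun x : H => ρ.character x) (fun _ => 1)).re =
      Module.finrank ℂ (Representation.invariants (ρ.comp H.subtype)) := by
    intro H _
    have := inner_character_one_eq_finrank (ρ.comp H.subtype : Representation ℂ H _)
    rw [character_comp] at this
    rw [show (fun x : H => ρ.character x) = fun x : H => ρ.character (H.subtype x) from rfl, this]
    simp
  rw [key, key, key] at hlt
  set U₁ := Representation.invariants (ρ.comp H₁.subtype)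
  set U₂ := Representation.invariants (ρ.comp H₂.subtype)
  set W := Representation.invariants (ρ.comp (H₁ ⊓ H₂).subtype)
  have hle : U₁ ⊔ U₂ ≤ W := by
    refine sup_le (fun v hv x => ?_) (fun v hv x => ?_)
    · exact hv ⟨x, x.2.1⟩
    · exact hv ⟨x, x.2.2⟩
  have h1 := Submodule.finrank_sup_add_finrank_inf_eq U₁ U₂
  have h2 := Submodule.finrank_mono hle
  have h3 : Module.finrank ℂ W < Module.finrank ℂ U₁ + Module.finrank ℂ U₂ := by exact_mod_cast hlt
  have h4 : U₁ ⊓ U₂ ≤ ρ.invariants := by
    intro v hv g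
    have hg : g ∈ H₁ ⊔ H₂ := htop ▸ Subgroup.mem_top g
    let S : Subgroup G :=
      { carrier := {g | ρ g v = v}
        one_mem' := by simp
        mul_mem' := fun {a b} ha hb => by
          have ha' : ρ a v = v := ha
          have hb' : ρ b v = v := hb
          change ρ (a * b) v = v
          rw [map_mul, Module.End.mul_apply, hb', ha']
        inv_mem' := fun {a} ha => by
          have ha' : ρ a v = v := ha
          change ρ a⁻¹ v = v
          conv_lhs => rw [← ha']
          simp }
    exact (sup_le (fun x hx => hv.1 ⟨x, hx⟩) (fun x hx => hv.2 ⟨x, hx⟩) : H₁ ⊔ H₂ ≤ S) hg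
  have h5 := Submodule.finrank_mono h4
  have h6 := inner_character_one_eq_finrank ρ
  rw [inner_eq_zero_of_isIrr ⟨n, ρ, hρ, rfl⟩ isIrr_one hχ1] at h6
  have h7 : Module.finrank ℂ ρ.invariants = 0 := by exact_mod_cast h6.symm
  omega

end Cfsg.Agent.S0192
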