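import Cfsg.Statements.S0197
import Cfsg.Agent.Lib.Wong.W4

set_option autoImplicit false
open Cfsg

namespace Cfsg.Agent.S0197

/-- If a finite simple group has an involution whose centralizer is isomorphic to the general linear group GL(2, 3), then the group has order 5616 or 7920. -/
theorem result {G : Type*} [Group G] [Finite G] [IsSimpleGroup G] (t : G) (ht : orderOf t = 2) (e : Subgroup.centralizer ({t} : Set G) ≃* Matrix.GeneralLinearGroup (Fin 2) (ZMod 3)) : Nat.card G = 5616 ∨ Nat.card G = 7920 := by
  classical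
  have := Fintype.ofFinite G
  let φ : Wong.W ≃* Subgroup.centralizer ({t} : Set G) :=
    (MulEquiv.ofBijective _ Wong.W.bij).trans e.symm
  let ι : Wong.W →* G := (Subgroup.centralizer ({t} : Set G)).subtype.comp φ.toMonoidHom
  have hι : Function.Injective ι := Subtype.val_injective.comp φ.injective
  have hr : ∀ g, g * t = t * g → ∃ w, ι w = g := fun g hg =>
    ⟨φ.symm ⟨g, Subgroup.mem_centralizer_singleton_iff.2 hg⟩, by simp [ι]⟩
  have hc : ∀ w, ι w * t = t * ι w := fun w => Subgroup.mem_centralizer_singleton_iff.1 (φ w).2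
  obtain ⟨w, hw⟩ := hr t rfl
  have h1 : w = Wong.r 1 := by
    refine Wong.central w (hι ?_) (hι ?_) (hι ?_) fun h => ?_
    · rw [map_mul, map_mul, hw, hc]
    · rw [map_mul, map_mul, hw, hc]
    · rw [map_mul, hw, map_one, ← sq, ← ht, pow_orderOf_eq_one]
    · rw [← hw, h, map_one, orderOf_one] at ht
      omega
  subst h1
  exact Wong.order hι fun g hg => hr g (by rw [← hw]; exact mul_inv_eq_iff_eq_mul.1 hg)

end Cfsg.Agent.S0197
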