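import Cfsg.Statements.S0902
import Cfsg.Agent.Lib.Block.Red
import Cfsg.Agent.Lib.Char.Galois

set_option autoImplicit false
open Cfsg

namespace Cfsg.Agent.S0902

open Cfsg.Agent.Block Cfsg.Agent.Char Cfsg.Agent.Tr
open Polynomial

theorem red_prod_ne_zero {M : Ideal AlgInt} [M.IsMaximal] (s : Multiset ℂ)
    (h : ∀ a ∈ s, red M a ≠ 0) : red M s.prod ≠ 0 := by
  induction s using Multiset.induction_on with
  | empty => simp
  | cons a s ih =>
    have h1 := h a (Multiset.mem_cons_self a s)
    have h2 := ih fun b hb => h b (Multiset.mem_cons_of_mem hb)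
    rw [Multiset.prod_cons,
      red_mul (mem_locRing_of_red_ne_zero h1) (mem_locRing_of_red_ne_zero h2)]
    exact mul_ne_zero h1 h2

theorem mem_of_forall_conj (p : ℕ) (M M' : Ideal AlgInt) [M.IsMaximal] [hM' : M'.IsMaximal]
    [CharP (Res M) p] [CharP (Res M') p] {r : AlgInt}
    (h : ∀ τ : ℂ ≃+* ℂ, τ r ∈ locIdeal M) : r ∈ M' := by
  by_contra hr
  obtain ⟨t, y, hy, e⟩ := hM'.exists_inv hr
  have hyi : IsIntegral ℤ (y : ℂ) := y.2
  have hyq : IsIntegral ℚ (y : ℂ) := hyi.tower_top
  set f := minpoly ℤ (y : ℂ) with hf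
  have hmon : f.Monic := minpoly.monic hyi
  have h1 : ∀ a ∈ (f.map (algebraMap ℤ ℂ)).roots, red M a ≠ 0 := by
    intro a ha
    have ha' : aeval a (minpoly ℚ (y : ℂ)) = 0 := by
      rw [minpoly.isIntegrallyClosed_eq_field_fractions' ℚ hyi, aeval_map_algebraMap]
      have := (mem_roots (hmon.map _).ne_zero).1 ha
      rwa [IsRoot.def, eval_map_algebraMap] at this
    obtain ⟨τ, rfl⟩ := exists_ringEquiv_of_isConjRoot hyq (isConjRoot_of_aeval_eq_zero hyq ha')
    have e' : (y : ℂ) = 1 - t * r := by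
      have := congrArg (Subtype.val : AlgInt → ℂ) e
      simp only [AddMemClass.coe_add, MulMemClass.coe_mul, OneMemClass.coe_one] at this
      linear_combination this
    have ht : IsIntegral ℤ (τ t) := IsIntegral.map (τ : ℂ →+* ℂ).toIntAlgHom t.2
    have : τ y - 1 ∈ locIdeal M := by
      rw [e', map_sub, map_one, map_mul, sub_sub_cancel_left]
      exact neg_mem (mul_mem_locIdeal_left (mem_locRing_of_isIntegral ht) (h τ))
    rw [red_eq_of_sub_mem this, red_one]
    exact one_ne_zero
  have h2 := (IsAlgClosed.splits _).coeff_zero_eq_prod_roots_of_monic (hmon.map (algebraMap ℤ ℂ))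
  have h3 := red_prod_ne_zero _ h1
  have h4 : red M ((f.coeff 0 : ℤ) : ℂ) ≠ 0 := by
    rw [coeff_map] at h2
    have h5 : ((-1 : ℂ) ^ (f.map (algebraMap ℤ ℂ)).natDegree) ∈ locRing M :=
      pow_mem (neg_mem (one_mem _)) _
    rw [show ((f.coeff 0 : ℤ) : ℂ) = algebraMap ℤ ℂ (f.coeff 0) from rfl, h2,
      red_mul h5 (mem_locRing_of_red_ne_zero h3), red_pow (neg_mem (one_mem _)),
      red_neg (one_mem _), red_one]
    exact mul_ne_zero (pow_ne_zero _ (neg_ne_zero.2 one_ne_zero)) h3
  apply h4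
  apply red_eq_zero_of_mem
  rw [intCast_mem_locIdeal_iff p, ← intCast_mem_locIdeal_iff (M := M') p]
  have h6 := minpoly.aeval ℤ (y : ℂ)
  rw [← hf, ← divX_mul_X_add f, map_add, map_mul, aeval_X, aeval_C] at h6
  have h7 : ((f.coeff 0 : ℤ) : ℂ) = -(aeval (y : ℂ) f.divX * y) := by
    rw [eq_neg_iff_add_eq_zero, add_comm]; exact h6
  rw [h7]
  refine neg_mem (mul_mem_locIdeal_left ?_ (coe_mem_locIdeal.2 hy))
  have h8 : aeval (y : ℂ) f.divX = ((aeval y f.divX : AlgInt) : ℂ) :=
    aeval_algHom_apply AlgInt.val y f.divX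
  rw [h8]
  exact coe_mem_locRing _


/-- If two irreducible characters of a finite group lie in the same block relative to one maximal ideal M of the algebraic integers containing the prime p, then at every element the difference of their central characters is an algebraic integer lying in every maximal ideal containing p; in particular they lie in the same block relative to any such ideal. -/
theorem result {G : Type*} [Group G] [Finite G] (p : ℕ) [Fact p.Prime] (M : Ideal Cfsg.AlgInt) (hM : Cfsg.IsPModular p M) (χ ψ : Cfsg.IrrCharacter G) (h : Cfsg.SameBlock M (χ : G → ℂ) (ψ : G → ℂ)) (M' : Ideal Cfsg.AlgInt) (hM' : Cfsg.IsPModular p M') (g : G) : ∃ r : Cfsg.AlgInt, r ∈ M' ∧ (r : ℂ) = Cfsg.centralChar (χ : G → ℂ) g - Cfsg.centralChar (ψ : G → ℂ) g := by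
  haveI := hM.2.1
  haveI := charP_res hM
  haveI := hM'.2.1
  haveI := charP_res hM'
  have hint : IsIntegral ℤ (centralChar χ.1 g - centralChar ψ.1 g) :=
    (isIntegral_centralChar χ g).sub (isIntegral_centralChar ψ g)
  refine ⟨⟨_, hint⟩, mem_of_forall_conj p M M' fun τ => ?_, rfl⟩
  obtain ⟨m, hm, hτ⟩ := exists_char_pow_of_ringHom G (τ : ℂ →+* ℂ)
  have key : ∀ θ : IrrCharacter G, τ (centralChar θ.1 g) = centralChar θ.1 (g ^ m) := by
    intro θ
    have h1 := hτ θ.1 (isGen_of_isIrr θ.2) g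
    have h2 := hτ θ.1 (isGen_of_isIrr θ.2) 1
    rw [one_pow] at h2
    have h3 : Subgroup.centralizer ({g ^ m} : Set G) = Subgroup.centralizer ({g} : Set G) := by
      rw [← Subgroup.centralizer_closure, ← Subgroup.centralizer_closure {g},
        ← Subgroup.zpowers_eq_closure, ← Subgroup.zpowers_eq_closure]
      congr 2
      refine le_antisymm (Subgroup.zpowers_le.2 (Subgroup.npow_mem_zpowers g m))
        (Subgroup.zpowers_le.2 ?_)
      exact mem_zpowers_pow_iff.2 (hm.coprime_dvd_right (orderOf_dvd_natCard g))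
    rw [centralChar, centralChar, h3, map_div₀, map_mul, map_natCast]
    exact congrArg₂ (· / ·) (congrArg _ h1) h2
  simp only [map_sub, key]
  exact h _

end Cfsg.Agent.S0902
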