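import Cfsg.Statements.S0903
import Cfsg.Agent.Lib.Block.GA

set_option autoImplicit false
open Cfsg

namespace Cfsg.Agent.S0903

open Cfsg.Agent.Block


/-- Let P be a p-subgroup of the finite group G, let c centralize P and let g, h ∈ G. The number of pairs (x, y) with x conjugate to g, y conjugate to h and x * y = c is congruent modulo p to the number of such pairs in which x and y both centralize P. (This is why the Brauer map on class sums is multiplicative.) -/
theorem result {G : Type*} [Group G] [Finite G] (p : ℕ) [Fact p.Prime] (P : Subgroup G) (hP : IsPGroup p P) (c : G) (hc : c ∈ Subgroup.centralizer (P : Set G)) (g h : G) : Nat.card {xy : G × G // IsConj g xy.1 ∧ IsConj h xy.2 ∧ xy.1 * xy.2 = c} ≡ Nat.card {xy : G × G // IsConj g xy.1 ∧ IsConj h xy.2 ∧ xy.1 * xy.2 = c ∧ xy.1 ∈ Subgroup.centralizer (P : Set G) ∧ xy.2 ∈ Subgroup.centralizer (P : Set G)} [MOD p] := by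
  classical
  haveI := Fintype.ofFinite G
  rw [← ZMod.natCast_eq_natCast_iff]
  have e1 : Nat.card {xy : G × G // IsConj g xy.1 ∧ IsConj h xy.2 ∧ xy.1 * xy.2 = c} =
      (Finset.univ.filter fun x : G => IsConj g x ∧ IsConj h (x⁻¹ * c)).card := by
    rw [← Fintype.card_subtype, ← Nat.card_eq_fintype_card]
    exact Nat.card_congr
      { toFun := fun xy => ⟨xy.1.1, xy.2.1, by rw [inv_mul_eq_of_eq_mul xy.2.2.2.symm]; exact xy.2.2.1⟩
        invFun := fun x => ⟨(x.1, x.1⁻¹ * c), x.2.1, x.2.2, by simp⟩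
        left_inv := fun xy => Subtype.ext (Prod.ext rfl (inv_mul_eq_of_eq_mul xy.2.2.2.symm))
        right_inv := fun x => rfl }
  have e2 : Nat.card {xy : G × G // IsConj g xy.1 ∧ IsConj h xy.2 ∧ xy.1 * xy.2 = c ∧ xy.1 ∈ Subgroup.centralizer (P : Set G) ∧ xy.2 ∈ Subgroup.centralizer (P : Set G)} =
      (Finset.univ.filter fun x : G => x ∈ Subgroup.centralizer (P : Set G) ∧
        (IsConj g x ∧ IsConj h (x⁻¹ * c))).card := by
    rw [← Fintype.card_subtype, ← Nat.card_eq_fintype_card]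
    exact Nat.card_congr
      { toFun := fun xy => ⟨xy.1.1, xy.2.2.2.2.1, xy.2.1, by
          rw [inv_mul_eq_of_eq_mul xy.2.2.2.1.symm]; exact xy.2.2.1⟩
        invFun := fun x => ⟨(x.1, x.1⁻¹ * c), x.2.2.1, x.2.2.2, by simp, x.2.1,
          mul_mem (inv_mem x.2.1) hc⟩
        left_inv := fun xy => Subtype.ext (Prod.ext rfl (inv_mul_eq_of_eq_mul xy.2.2.2.1.symm))
        right_inv := fun x => rfl }
  rw [e1, e2, ← Finset.sum_boole, ← Finset.sum_boole, sum_eq_sum_centralizer hP]
  · refine Finset.sum_congr rfl fun x _ => ?_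
    by_cases hx : x ∈ Subgroup.centralizer (P : Set G) <;> simp [hx]
  · intro u hu x
    have h1 : (u * x * u⁻¹)⁻¹ * c = u * (x⁻¹ * c) * u⁻¹ := by
      have : u * c = c * u := Subgroup.mem_centralizer_iff.1 hc u hu
      calc (u * x * u⁻¹)⁻¹ * c = u * x⁻¹ * u⁻¹ * (c * u) * u⁻¹ := by group
        _ = u * x⁻¹ * u⁻¹ * (u * c) * u⁻¹ := by rw [this]
        _ = _ := by group
    rw [h1]
    simp only [isConj_conj_iff]

end Cfsg.Agent.S0903
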