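import Cfsg.Statements.S0904
import Cfsg.Agent.Lib.Block.Misc

set_option autoImplicit false
open Cfsg

namespace Cfsg.Agent.S0904

open Cfsg.Agent.Block Cfsg.Agent.Char Cfsg.Agent.Tr
open scoped ComplexConjugate

theorem key {G : Type*} [Group G] [Finite G] [IsSimpleGroup G] {p q r a b : ℕ} [hp : Fact p.Prime]
    (hq : q.Prime) [hr : Fact r.Prime] (hpr : p ≠ r) (hqr : q ≠ r)
    (hcard : Nat.card G = p ^ a * q ^ b * r) {g : G} (hg : orderOf g = r * p) : False := by
  classical
  have hna : ∃ a b : G, a * b ≠ b * a := by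
    by_contra hcon
    push Not at hcon
    letI : CommGroup G := { (inferInstance : Group G) with mul_comm := hcon }
    have h1 := IsSimpleGroup.prime_card (α := G)
    have h2 : r * p ∣ Nat.card G := hg ▸ orderOf_dvd_natCard g
    rcases (Nat.dvd_prime h1).1 h2 with h | h
    · exact hr.out.ne_one (Nat.eq_one_of_mul_eq_one_right h)
    · exact Nat.not_prime_mul hr.out.ne_one hp.out.ne_one (h ▸ h1)
  obtain ⟨M, hM⟩ := exists_isPModular p
  haveI := hM.2.1
  haveI := charP_res hM
  haveI := Fact.mk hq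
  obtain ⟨M', hM'⟩ := exists_isPModular q
  haveI := hM'.2.1
  haveI := charP_res hM'
  have h1 := weak_block_orthogonality (IsPBlock.idem_mem_SG p
    (isPBlock_principalBlock (M := M) (G := G))) not_dvd_orderOf_one
    (hg ▸ dvd_mul_left p r : p ∣ orderOf g)
  rw [← Finset.add_sum_erase _ _ (Finset.mem_univ (irrOne G)),
    if_pos irrOne_mem_principalBlock, irrOne_apply, irrOne_apply, map_one, mul_one] at h1
  apply one_notMem_locIdeal (M := M')
  rw [eq_neg_of_add_eq_zero_left h1]
  refine neg_mem (sum_mem fun χ hχ => ?_)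
  split_ifs with hχB
  · by_cases h2 : q ∣ charDegree χ.1
    · refine mul_mem_locIdeal_right ?_ (conj_irr_apply_mem_locRing χ g)
      rwa [← cast_charDegree, natCast_mem_locIdeal_iff q]
    · have h3 := charDegree_dvd_card χ
      by_cases h4 : r ∣ charDegree χ.1
      · rw [apply_eq_zero_of_defect_zero (p := r) (g := g) _ (hg ▸ dvd_mul_right r p), map_zero, mul_zero]
        · exact zero_mem _
        · refine le_trans ?_ ((hr.out.dvd_iff_one_le_factorization (charDegree_ne_zero χ)).1 h4)
          rw [hcard, Nat.factorization_mul (mul_ne_zero (pow_ne_zero _ hp.out.ne_zero)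
            (pow_ne_zero _ hq.ne_zero)) hr.out.ne_zero,
            Nat.factorization_mul (pow_ne_zero _ hp.out.ne_zero) (pow_ne_zero _ hq.ne_zero),
            hp.out.factorization_pow, hq.factorization_pow, hr.out.factorization]
          simp [hpr, hqr]
      · exfalso
        rw [hcard] at h3
        have h5 : charDegree χ.1 ∣ p ^ a :=
          (Nat.Coprime.pow_right _ ((Nat.Prime.coprime_iff_not_dvd hq).2 h2).symm).dvd_of_dvd_mul_right
            (((Nat.Prime.coprime_iff_not_dvd hr.out).2 h4).symm.dvd_of_dvd_mul_right h3)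
        obtain ⟨k, -, hk⟩ := (Nat.dvd_prime_pow hp.out).1 h5
        exact (Finset.ne_of_mem_erase hχ) (Subtype.ext (eq_one_of_mem_principalBlock hna hχB
          (k := k) (by rw [← cast_charDegree, hk, Nat.cast_pow])))
  · exact zero_mem _


/-- Let G be a finite simple group of order p ^ a * q ^ b * r with p, q, r distinct primes. Then every Sylow r-subgroup S of G satisfies C_G(S) = S. -/
theorem result {G : Type*} [Group G] [Finite G] [IsSimpleGroup G] (p q r a b : ℕ) (hp : p.Prime) (hq : q.Prime) [Fact r.Prime] (hpq : p ≠ q) (hpr : p ≠ r) (hqr : q ≠ r) (hcard : Nat.card G = p ^ a * q ^ b * r) (S : Sylow r G) : Subgroup.centralizer (S : Set G) = (S : Subgroup G) := by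
  have hr : r.Prime := Fact.out
  have hSr : Nat.card S = r := by
    rw [S.card_eq_multiplicity, hcard, Nat.factorization_mul
      (mul_ne_zero (pow_ne_zero _ hp.ne_zero) (pow_ne_zero _ hq.ne_zero)) hr.ne_zero,
      Nat.factorization_mul (pow_ne_zero _ hp.ne_zero) (pow_ne_zero _ hq.ne_zero),
      hp.factorization_pow, hq.factorization_pow, hr.factorization]
    simp [hpr, hqr]
  haveI : IsCyclic S := isCyclic_of_prime_card hSr
  have hSC : (S : Subgroup G) ≤ Subgroup.centralizer (S : Set G) := fun x hx y hy =>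
    congrArg Subtype.val ((IsCyclic.isMulCommutative (α := S)).is_comm.comm (⟨y, hy⟩ : S) ⟨x, hx⟩)
  by_contra hne
  have hS := (SylowIn.top S).mono hSC le_top
  have h1 : (S : Subgroup G).relIndex (Subgroup.centralizer (S : Set G)) ≠ 1 := fun h =>
    hne (le_antisymm (Subgroup.relIndex_eq_one.1 h) hSC)
  obtain ⟨s, hs, hsd⟩ := Nat.exists_prime_and_dvd h1
  have hsr : s ≠ r := fun h => hS.not_dvd (h ▸ hsd)
  have hsC : s ∣ Nat.card (Subgroup.centralizer (S : Set G)) :=
    hsd.trans (Dvd.intro_left _ (card_mul_relIndex hSC))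
  have hsG : s ∣ p ^ a * q ^ b * r := hcard ▸ hsC.trans (Subgroup.card_subgroup_dvd_card _)
  haveI := Fact.mk hs
  obtain ⟨y, hy⟩ := exists_prime_orderOf_dvd_card' s hsC
  obtain ⟨x, hx⟩ := exists_prime_orderOf_dvd_card' (G := S) r (by rw [hSr])
  have hc : Commute (x : G) y := y.2 x x.2
  rw [← Subgroup.orderOf_coe] at hx hy
  have ho : orderOf ((x : G) * y) = r * s := by
    rw [hc.orderOf_mul_eq_mul_orderOf_of_coprime
      (by rw [hx, hy]; exact (Nat.coprime_primes hr hs).2 hsr.symm), hx, hy]
  rcases (Nat.Prime.dvd_mul hs).1 hsG with h | h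
  · rcases (Nat.Prime.dvd_mul hs).1 h with h | h
    · obtain rfl := (Nat.prime_dvd_prime_iff_eq hs hp).1 (hs.dvd_of_dvd_pow h)
      exact key hq hpr hqr hcard ho
    · obtain rfl := (Nat.prime_dvd_prime_iff_eq hs hq).1 (hs.dvd_of_dvd_pow h)
      exact key hp hqr hpr (by rw [hcard, mul_comm (p ^ a)]) ho
  · exact hsr ((Nat.prime_dvd_prime_iff_eq hs hr).1 h)

end Cfsg.Agent.S0904
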