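import Cfsg.Statements.S0916
import Cfsg.Agent.Lib.Block.Grp

set_option autoImplicit false
open Cfsg

namespace Cfsg.Agent.S0916

open Cfsg.Agent.Block


/-- Let P be a p-subgroup of the finite group G, C its centralizer and N its normalizer. Say that a conjugacy class (of G, or of N) has defect group P when P is a Sylow p-subgroup of the centralizer (in G, respectively in N) of some element of the class. Then: (i) if the class of g in G has defect group P, the elements of that class lying in C form a single N-class, again with defect group P; (ii) every N-class with defect group P arises this way from exactly one G-class with defect group P. -/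
theorem result {G : Type*} [Group G] [Finite G] (p : ℕ) [Fact p.Prime] (P : Subgroup G) (hP : IsPGroup p P) : (∀ g : G, (∃ S : Sylow p (Subgroup.centralizer ({g} : Set G)), (S : Subgroup (Subgroup.centralizer ({g} : Set G))).map (Subgroup.centralizer ({g} : Set G)).subtype = P) → (∃ c : G, IsConj g c ∧ c ∈ Subgroup.centralizer (P : Set G)) ∧ (∀ c₁ c₂ : G, IsConj g c₁ → IsConj g c₂ → c₁ ∈ Subgroup.centralizer (P : Set G) → c₂ ∈ Subgroup.centralizer (P : Set G) → ∃ n ∈ Subgroup.normalizer (P : Set G), n * c₁ * n⁻¹ = c₂)) ∧ (∀ c : G, c ∈ Subgroup.centralizer (P : Set G) → (∃ S : Sylow p (Subgroup.centralizer ({c} : Set G) ⊓ Subgroup.normalizer (P : Set G) : Subgroup G), (S : Subgroup ↥(Subgroup.centralizer ({c} : Set G) ⊓ Subgroup.normalizer (P : Set G))).map (Subgroup.centralizer ({c} : Set G) ⊓ Subgroup.normalizer (P : Set G)).subtype = P) → ∃ S : Sylow p (Subgroup.centralizer ({c} : Set G)), (S : Subgroup (Subgroup.centralizer ({c} : Set G))).map (Subgroup.centralizer ({c} : Set G)).subtype = P) := by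
  constructor
  · intro g hg
    rw [sylowIn_iff] at hg
    refine ⟨⟨g, IsConj.refl g, le_centralizer_singleton_iff.1 hg.le⟩, ?_⟩
    intro c₁ c₂ h₁ h₂ hc₁ hc₂
    exact exists_mem_normalizer_conj (sylowIn_centralizer_of_isConj hg h₁ hc₁) (h₁.symm.trans h₂) hc₂
  · intro c _ h
    rw [sylowIn_iff] at h ⊢
    exact sylowIn_of_inf_normalizer h

end Cfsg.Agent.S0916
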