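import Cfsg.Statements.S0918
import Cfsg.Agent.Lib.Block.Induce

set_option autoImplicit false
open Cfsg

namespace Cfsg.Agent.S0918

open Cfsg.Agent.Block Cfsg.Agent.Char Cfsg.Agent.Tr


/-- Let P be a p-subgroup of the finite group G and H a subgroup with P·C_G(P) ≤ H ≤ N_G(P); let b be a block of H and B a block of G relative to a maximal ideal M of the algebraic integers containing p. Then b induces B if and only if, for every g ∈ G, every ξ ∈ b and every χ ∈ B, the central character of χ at g is congruent modulo the local ideal at M to the sum of ξ h / ξ 1 over the elements h of H conjugate in G to g and centralizing P. -/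
theorem result {G : Type*} [Group G] [Finite G] (p : ℕ) [Fact p.Prime] (M : Ideal Cfsg.AlgInt) (hM : Cfsg.IsPModular p M) (P H : Subgroup G) (hP : IsPGroup p P) (hPH : P ≤ H) (hCH : Subgroup.centralizer (P : Set G) ≤ H) (hHN : H ≤ Subgroup.normalizer (P : Set G)) (b : Set (Cfsg.IrrCharacter H)) (hb : Cfsg.IsPBlock M b) (B : Set (Cfsg.IrrCharacter G)) (hB : Cfsg.IsPBlock M B) : Cfsg.IsInducedBlock M H b B ↔ ∀ ξ ∈ b, ∀ χ ∈ B, ∀ g : G, Cfsg.MemLocalIdeal M (Cfsg.brauerCentralChar P H (ξ : H → ℂ) g - Cfsg.centralChar (χ : G → ℂ) g) := by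
  haveI := hM.2.1
  haveI := charP_res hM
  haveI := normal_subgroupOf_of_le_normalizer hHN
  have key : ∀ (ξ : IrrCharacter H) (χ : IrrCharacter G) (g : G),
      MemLocalIdeal M (inducedCentralChar H ξ.1 g - centralChar χ.1 g) ↔
        MemLocalIdeal M (brauerCentralChar P H ξ.1 g - centralChar χ.1 g) := by
    intro ξ χ g
    have h1 := lam_trunc_cut (M := M) H.subtype_injective (isPGroup_subgroupOf hP H) ξ
      (classSum_mem_cen g)
    have h2 := trunc_cut_mem_cen (R := ℂ) H.subtype_injective (P.subgroupOf H)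
      (classSum_mem_cen g)
    rw [Subgroup.map_subgroupOf_eq_of_le hPH] at h1 h2
    have h3 := trunc_mem_SG (M := M) H.subtype
      (cut_mem_SG (Subgroup.centralizer (P : Set G)) (classSum_mem_SG g))
    rw [lam_trunc_classSum, ← redA_classSum, ← redA_cut, ← redA_trunc, lam_redA ξ h2 h3,
      ← brauerCentralChar_eq] at h1
    have h4 : brauerCentralChar P H ξ.1 g ∈ locRing M := by
      rw [brauerCentralChar_eq]; exact om_mem_locRing ξ h2 h3
    rw [← mem_locIdeal, ← mem_locIdeal, ← red_eq_iff h4 (centralChar_mem_locRing χ g),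
      ← red_eq_iff (inducedCentralChar_mem_locRing H ξ g) (centralChar_mem_locRing χ g), h1]
  constructor
  · intro h ξ hξ χ hχ g
    exact (key ξ χ g).1 (h.2.2 ξ hξ χ hχ g)
  · intro h
    exact ⟨hb, hB, fun ξ hξ χ hχ g => (key ξ χ g).2 (h ξ hξ χ hχ g)⟩

end Cfsg.Agent.S0918
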