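import Cfsg.Statements.S0919
import Cfsg.Agent.Lib.Block.Induce

set_option autoImplicit false
open Cfsg

namespace Cfsg.Agent.S0919

open Cfsg.Agent.Block Cfsg.Agent.Char Cfsg.Agent.Tr


/-- Let P be a p-subgroup of the finite group G and H a subgroup with P·C_G(P) ≤ H ≤ N_G(P). Then for every block b of H relative to a maximal ideal M of the algebraic integers containing p, the induced block of b in G is defined: some block B of G has its central character congruent modulo M, at every element, to the central character of b induced to G. -/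
theorem result {G : Type*} [Group G] [Finite G] (p : ℕ) [Fact p.Prime] (M : Ideal Cfsg.AlgInt) (hM : Cfsg.IsPModular p M) (P H : Subgroup G) (hP : IsPGroup p P) (hPH : P ≤ H) (hCH : Subgroup.centralizer (P : Set G) ≤ H) (hHN : H ≤ Subgroup.normalizer (P : Set G)) (b : Set (Cfsg.IrrCharacter H)) (hb : Cfsg.IsPBlock M b) : Cfsg.InducedBlockDefined M H b := by
  haveI := hM.2.1
  haveI := charP_res hM
  obtain ⟨ξ, hξ⟩ := IsPBlock.nonempty hb
  obtain ⟨χ, hχ⟩ := exists_induces_subtype (M := M) hP hPH hCH hHN ξ
  exact ⟨_, isInducedBlock_of_induces hb (isPBlock_blockOf χ) hξ (mem_blockOf_self χ) hχ⟩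

end Cfsg.Agent.S0919
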