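import Cfsg.Statements.S0920
import Cfsg.Agent.Lib.Block.Induce

set_option autoImplicit false
open Cfsg

namespace Cfsg.Agent.S0920

open Cfsg.Agent.Block Cfsg.Agent.Char Cfsg.Agent.Tr


/-- Brauer's First Main Theorem. Let D be a p-subgroup of the finite group G with normalizer N, and fix a maximal ideal M of the algebraic integers containing p. Then (i) every block b of N having D as a defect group induces some block B of G having D as a defect group; (ii) every block of G with defect group D is induced by exactly one block of N with defect group D. -/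
theorem result {G : Type*} [Group G] [Finite G] (p : ℕ) [Fact p.Prime] (M : Ideal Cfsg.AlgInt) (hM : Cfsg.IsPModular p M) (D : Subgroup G) (hD : IsPGroup p D) : (∀ b : Set (Cfsg.IrrCharacter (Subgroup.normalizer (D : Set G))), Cfsg.IsPBlock M b → Cfsg.IsDefectGroup p M b (D.subgroupOf (Subgroup.normalizer (D : Set G))) → ∃ B : Set (Cfsg.IrrCharacter G), Cfsg.IsPBlock M B ∧ Cfsg.IsDefectGroup p M B D ∧ Cfsg.IsInducedBlock M (Subgroup.normalizer (D : Set G)) b B) ∧ (∀ B : Set (Cfsg.IrrCharacter G), Cfsg.IsPBlock M B → Cfsg.IsDefectGroup p M B D → ∃! b : Set (Cfsg.IrrCharacter (Subgroup.normalizer (D : Set G))), Cfsg.IsPBlock M b ∧ Cfsg.IsDefectGroup p M b (D.subgroupOf (Subgroup.normalizer (D : Set G))) ∧ Cfsg.IsInducedBlock M (Subgroup.normalizer (D : Set G)) b B) := by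
  haveI := hM.2.1
  haveI := charP_res hM
  constructor
  · intro b hb hbD
    obtain ⟨ξ, hξ⟩ := IsPBlock.nonempty hb
    obtain ⟨χ, hχ⟩ := exists_induces_subtype (M := M) hD Subgroup.le_normalizer
      (Subgroup.centralizer_le_normalizer _) le_rfl ξ
    exact ⟨_, isPBlock_blockOf χ,
      hχ.isDefectGroup_of_normalizer hb hξ (isPBlock_blockOf χ) (mem_blockOf_self χ) hbD,
      isInducedBlock_of_induces hb (isPBlock_blockOf χ) hξ (mem_blockOf_self χ) hχ⟩
  · intro B hB hBD
    obtain ⟨χ, hχ⟩ := IsPBlock.nonempty hB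
    obtain ⟨ξ, hξ, hξD⟩ := exists_brauer_correspondent hB hχ hBD
    refine ⟨blockOf M ξ.1, ⟨isPBlock_blockOf ξ, hξD,
      isInducedBlock_of_induces (isPBlock_blockOf ξ) hB (mem_blockOf_self ξ) hχ hξ⟩, ?_⟩
    rintro b ⟨hb, -, hind⟩
    obtain ⟨ξ', hξ'⟩ := IsPBlock.nonempty hb
    exact IsPBlock.eq_of_mem hb (isPBlock_blockOf ξ) hξ'
      (hξ.sameBlock_of_normalizer (IsInducedBlock.induces hind hξ' hχ) hB hχ hBD)

end Cfsg.Agent.S0920
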