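import Cfsg.Statements.S0923
import Cfsg.Agent.Lib.Block.Second

set_option autoImplicit false
open Cfsg

namespace Cfsg.Agent.S0923

open Cfsg.Agent.Block Cfsg.Agent.Char Cfsg.Agent.Tr


/-- Brauer's Second Main Theorem, in terms of ordinary characters. Let x be a p-element of the finite group G with centralizer C, let χ lie in the block B of G and let b be a block of C that does not induce B (relative to a maximal ideal M of the algebraic integers containing p). Form the class function ϑ(c) = χ(x c) on C and its b-part (the sum over ψ ∈ b of the inner product of ϑ with ψ, times ψ). Then the b-part of ϑ vanishes at every p-regular element of C. (Equivalently, the generalized decomposition numbers of χ with respect to b are zero.) -/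
theorem result {G : Type*} [Group G] [Finite G] (p : ℕ) [Fact p.Prime] (M : Ideal Cfsg.AlgInt) (hM : Cfsg.IsPModular p M) (x : G) (hx : ∃ k : ℕ, orderOf x = p ^ k) (B : Set (Cfsg.IrrCharacter G)) (hB : Cfsg.IsPBlock M B) (χ : Cfsg.IrrCharacter G) (hχ : χ ∈ B) (b : Set (Cfsg.IrrCharacter (Subgroup.centralizer ({x} : Set G)))) (hb : Cfsg.IsPBlock M b) (hnot : ¬ Cfsg.IsInducedBlock M (Subgroup.centralizer ({x} : Set G)) b B) (y : Subgroup.centralizer ({x} : Set G)) (hy : ¬ p ∣ orderOf y) : Cfsg.blockPart b (fun c : Subgroup.centralizer ({x} : Set G) => (χ : G → ℂ) (x * (c : G))) y = 0 := by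
  haveI := hM.2.1
  haveI := charP_res hM
  haveI := Fintype.ofFinite (Subgroup.centralizer ({x} : Set G))
  obtain ⟨ξ, hξ⟩ := IsPBlock.nonempty hb
  have hc : Commute x y := (Subgroup.mem_centralizer_singleton_iff.1 y.2).symm
  have h1 := ev_push_idem_eq_zero_of_not_induces hx hb hξ (χ := χ)
    (fun h => hnot (isInducedBlock_of_induces hb hB hξ hχ h))
    (h := ⟨x, self_mem_centralizer_singleton x⟩ * y)
    (isPPart_mul hc hx (by rwa [Subgroup.orderOf_coe]))
  rw [blockPart_eq_ev, ev_mul_single]
  · rw [← Subgroup.coe_subtype, ← push_single, ← map_mul, ev_push, ev_mul_single] at h1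
    rw [← h1]
    refine Finset.sum_congr rfl fun c _ => ?_
    simp only [Subgroup.coe_subtype, Subgroup.coe_mul]
    rw [← mul_assoc, ← mul_assoc, Subgroup.mem_centralizer_singleton_iff.1 c.2]
  · intro g h
    have : x * ((h * g * h⁻¹ : Subgroup.centralizer ({x} : Set G)) : G) =
        h * (x * g) * (h : G)⁻¹ := by
      simp only [Subgroup.coe_mul, Subgroup.coe_inv, ← mul_assoc]
      rw [Subgroup.mem_centralizer_singleton_iff.1 h.2]
    simp only
    rw [this, isClass_irr χ]

end Cfsg.Agent.S0923
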