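import Cfsg.Statements.S0925
import Cfsg.Agent.Lib.Block.Defect

set_option autoImplicit false
open Cfsg

namespace Cfsg.Agent.S0925

open Cfsg.Agent.Block Cfsg.Agent.Char Cfsg.Agent.Tr


/-- (i) Let ϑ be a class function on the finite group G and x a p-element, and suppose ϑ vanishes at every element whose p-part is conjugate to x. Then for every block B (relative to a maximal ideal M of the algebraic integers containing p) the B-part of ϑ — the sum over χ ∈ B of the inner product of ϑ with χ, times χ — also vanishes at every such element. (ii) Block orthogonality, its corollary: if the p-parts of g and h are not conjugate, then the sum over χ ∈ B of χ g * χ h⁻¹ is zero for every block B. -/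
theorem result {G : Type*} [Group G] [Finite G] (p : ℕ) [Fact p.Prime] (M : Ideal Cfsg.AlgInt) (hM : Cfsg.IsPModular p M) : (∀ (ϑ : G → ℂ), Cfsg.IsClassFunction G ϑ → ∀ x : G, (∃ k : ℕ, orderOf x = p ^ k) → (∀ u z : G, Cfsg.IsPPart p u z → IsConj x z → ϑ u = 0) → ∀ B : Set (Cfsg.IrrCharacter G), Cfsg.IsPBlock M B → ∀ u z : G, Cfsg.IsPPart p u z → IsConj x z → Cfsg.blockPart B ϑ u = 0) ∧ (∀ g h x y : G, Cfsg.IsPPart p g x → Cfsg.IsPPart p h y → ¬ IsConj x y → ∀ B : Set (Cfsg.IrrCharacter G), Cfsg.IsPBlock M B → ∑ᶠ χ ∈ B, (χ : G → ℂ) g * (χ : G → ℂ) h⁻¹ = 0) := by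
  haveI := hM.2.1
  haveI := charP_res hM
  classical
  haveI := Fintype.ofFinite G
  constructor
  · intro ϑ hϑ x hx hvan B hB u z hu hz
    rw [blockPart_eq]
    have : ∀ χ : IrrCharacter G, (if χ ∈ B then classInner ϑ χ * χ.1 u else 0) =
        (Nat.card G : ℂ)⁻¹ * ∑ h, ϑ h * (if χ ∈ B then χ.1 u * (starRingEnd ℂ) (χ.1 h) else 0) := by
      intro χ
      split_ifs
      · rw [classInner, mul_assoc, Finset.sum_mul]
        congr 1
        exact Finset.sum_congr rfl fun h _ => by ring
      · simp
    rw [Finset.sum_congr rfl fun χ _ => this χ, ← Finset.mul_sum, Finset.sum_comm]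
    refine mul_eq_zero_of_right _ (Finset.sum_eq_zero fun h _ => ?_)
    rw [← Finset.mul_sum]
    obtain ⟨y, hy⟩ := exists_isPPart (p := p) h
    by_cases hxy : IsConj x y
    · rw [hvan h y hy hxy, zero_mul]
    · rw [block_orthogonality (IsPBlock.idem_mem_SG p hB) hu hy fun h' => hxy (hz.trans h'),
        mul_zero]
  · intro g h x y hg hh hxy B hB
    rw [finsum_mem_irr]
    simp only [irr_apply_inv]
    exact block_orthogonality (IsPBlock.idem_mem_SG p hB) hg hh hxy

end Cfsg.Agent.S0925
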