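import Cfsg.Statements.S0926
import Cfsg.Agent.Lib.Block.Second

set_option autoImplicit false
open Cfsg

namespace Cfsg.Agent.S0926

open Cfsg.Agent.Block Cfsg.Agent.Char Cfsg.Agent.Tr


/-- Let B be a block of the finite group G with defect group D (relative to a maximal ideal M of the algebraic integers containing p), let χ ∈ B have height zero, and let x be a p-element. Then some conjugate of x lies in D if and only if χ does not vanish on the whole p-section of x (the elements whose p-part is conjugate to x). -/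
theorem result {G : Type*} [Group G] [Finite G] (p : ℕ) [Fact p.Prime] (M : Ideal Cfsg.AlgInt) (hM : Cfsg.IsPModular p M) (B : Set (Cfsg.IrrCharacter G)) (hB : Cfsg.IsPBlock M B) (D : Subgroup G) (hD : Cfsg.IsDefectGroup p M B D) (χ : Cfsg.IrrCharacter G) (hχ : χ ∈ B) (h0 : Cfsg.blockHeight p B (χ : G → ℂ) = 0) (x : G) (hx : ∃ k : ℕ, orderOf x = p ^ k) : (∃ g : G, g * x * g⁻¹ ∈ D) ↔ ∃ u : G, (∃ z : G, Cfsg.IsPPart p u z ∧ IsConj x z) ∧ (χ : G → ℂ) u ≠ 0 := by
  haveI := hM.2.1
  haveI := charP_res hM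
  constructor
  · rintro ⟨g, hg⟩
    obtain ⟨y, hy, hs⟩ := isDefectGroup_iff.1 hD
    have hc : Commute (g * x * g⁻¹) y := Subgroup.mem_centralizer_singleton_iff.1 (hs.le hg)
    have hx' := exists_orderOf_of_mem hs.isPGroup hg
    exact ⟨_, ⟨_, isPPart_mul hc hx' (IsDefectClass.not_dvd p hB hy), isConj_iff.2 ⟨g, rfl⟩⟩,
      ne_zero_of_red_ne_zero (red_apply_mul_ne_zero_of_defectClass hB hy hχ h0 hc hx')⟩
  · rintro ⟨u, ⟨z, hz, hxz⟩, hu⟩
    obtain ⟨t, ht⟩ := IsDefectGroup.exists_conj_mem_of_apply_ne_zero hB hD hχ hz hu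
    obtain ⟨c, rfl⟩ := isConj_iff.1 hxz
    exact ⟨t * c, by simpa [mul_assoc] using ht⟩

end Cfsg.Agent.S0926
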