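import Cfsg.Statements.S0935
import Cfsg.Agent.Lib.Block.Induce

set_option autoImplicit false
open Cfsg

namespace Cfsg.Agent.S0935

open Cfsg.Agent.Block Cfsg.Agent.Char Cfsg.Agent.Tr


/-- Let H be a subgroup of the finite group G and χ an irreducible character of G whose restriction to H is irreducible; fix a maximal ideal M of the algebraic integers containing the prime p and suppose χ and its restriction have height zero in their blocks B and b. If e is a block of H whose induced block is defined, then e induces B if and only if e = b. -/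
theorem result {G : Type*} [Group G] [Finite G] (p : ℕ) [Fact p.Prime] (M : Ideal Cfsg.AlgInt) (hM : Cfsg.IsPModular p M) (H : Subgroup G) (χ : Cfsg.IrrCharacter G) (hres : Cfsg.IsIrrCharacter H (fun h : H => (χ : G → ℂ) h)) (hχ0 : Cfsg.blockHeight p (Cfsg.blockOf M (χ : G → ℂ)) (χ : G → ℂ) = 0) (hψ0 : Cfsg.blockHeight p (Cfsg.blockOf M (fun h : H => (χ : G → ℂ) h)) (fun h : H => (χ : G → ℂ) h) = 0) (e : Set (Cfsg.IrrCharacter H)) (he : Cfsg.InducedBlockDefined M H e) : Cfsg.IsInducedBlock M H e (Cfsg.blockOf M (χ : G → ℂ)) ↔ e = Cfsg.blockOf M (fun h : H => (χ : G → ℂ) h) := by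
  haveI := hM.2.1
  haveI := charP_res hM
  obtain ⟨B, hB⟩ := he
  obtain ⟨ξ, hξ⟩ := IsPBlock.nonempty hB.1
  obtain ⟨θ, hθ⟩ := IsPBlock.nonempty hB.2.1
  have h1 := IsInducedBlock.induces hB hξ hθ
  have h2 := h1.sameBlock_iff_of_res H.subtype_injective (ψ := ⟨_, hres⟩) (χ := χ) rfl hχ0 hψ0
  constructor
  · intro h
    rw [IsPBlock.eq_blockOf hB.1 hξ]
    exact blockOf_eq_iff.2
      (h2.1 (h1.sameBlock (IsInducedBlock.induces h hξ (mem_blockOf_self χ))))
  · intro h
    refine isInducedBlock_of_induces hB.1 (isPBlock_blockOf χ) hξ (mem_blockOf_self χ)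
      (h1.of_sameBlock (sameBlock_refl _) (h2.2 (sameBlock_symm ?_)))
    rwa [h] at hξ

end Cfsg.Agent.S0935
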