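import Cfsg.Statements.S0936
import Cfsg.Agent.Lib.Block.Induce

set_option autoImplicit false
open Cfsg

namespace Cfsg.Agent.S0936

open Cfsg.Agent.Block Cfsg.Agent.Char Cfsg.Agent.Tr


/-- Brauer's Third Main Theorem. Let H be a subgroup of the finite group G and b a block of H (relative to a maximal ideal M of the algebraic integers containing the prime p) whose induced block in G is defined. Then b induces the principal block of G if and only if b is the principal block of H. -/
theorem result {G : Type*} [Group G] [Finite G] (p : ℕ) [Fact p.Prime] (M : Ideal Cfsg.AlgInt) (hM : Cfsg.IsPModular p M) (H : Subgroup G) (b : Set (Cfsg.IrrCharacter H)) (hdef : Cfsg.InducedBlockDefined M H b) : Cfsg.IsInducedBlock M H b (Cfsg.principalBlock M G) ↔ b = Cfsg.principalBlock M H := by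
  haveI := hM.2.1
  haveI := charP_res hM
  obtain ⟨B, hB⟩ := hdef
  obtain ⟨ξ, hξ⟩ := IsPBlock.nonempty hB.1
  obtain ⟨θ, hθ⟩ := IsPBlock.nonempty hB.2.1
  have h1 := IsInducedBlock.induces hB hξ hθ
  constructor
  · intro h
    exact IsPBlock.eq_of_mem hB.1 isPBlock_principalBlock hξ
      (((IsInducedBlock.induces h hξ irrOne_mem_principalBlock).mem_principalBlock_iff p
        H.subtype_injective).1 irrOne_mem_principalBlock)
  · intro h
    exact isInducedBlock_of_induces hB.1 isPBlock_principalBlock hξ
      ((h1.mem_principalBlock_iff p H.subtype_injective).2 (h ▸ hξ)) h1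

end Cfsg.Agent.S0936
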