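import Cfsg.Statements.S0946
import Cfsg.Agent.Lib.TwoGrp.Homo

set_option autoImplicit false
open Cfsg

namespace Cfsg.Agent.S0946

open Cfsg.Agent.TwoGrp

/-- Let P be a Sylow 2-subgroup of the finite group G isomorphic to Z/2^m × Z/2^m with m ≥ 1. Then either P has a normal complement in G, or all involutions of G are conjugate. -/
theorem result {G : Type*} [Group G] [Finite G] (P : Sylow 2 G) (m : ℕ) (hm : 1 ≤ m) (e : (P : Subgroup G) ≃* Multiplicative (ZMod (2 ^ m) × ZMod (2 ^ m))) : (∃ N : Subgroup G, N.Normal ∧ Subgroup.IsComplement' N (P : Subgroup G)) ∨ ∀ s t : G, orderOf s = 2 → orderOf t = 2 → IsConj s t := by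
  obtain ⟨hc, T, hT, h⟩ := homocyclic_omega hm e
  obtain ⟨h1 | h1, h2, -⟩ := abelian_sylow_omega_four P hc hT h
  · exact Or.inl ⟨_, inferInstance,
      MonoidHom.ker_transferSylow_isComplement' P (Subgroup.relIndex_eq_one.mp h1)⟩
  · refine Or.inr fun s t hs ht => ?_
    obtain ⟨a, ha, hsa⟩ := exists_isConj_mem_of_orderOf P (k := 1) hs
    obtain ⟨b, hb, htb⟩ := exists_isConj_mem_of_orderOf P (k := 1) ht
    have ha2 := orderOf_eq_two_iff'.mp ((orderOf_eq_of_isConj hsa).symm.trans hs)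
    have hb2 := orderOf_eq_two_iff'.mp ((orderOf_eq_of_isConj htb).symm.trans ht)
    exact (hsa.trans (h2 h1 a ((h a).mpr ⟨ha, ha2.1⟩) ha2.2 b ((h b).mpr ⟨hb, hb2.1⟩)
      hb2.2)).trans htb.symm

end Cfsg.Agent.S0946
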