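import Cfsg.Statements.S0947
import Cfsg.Agent.Lib.ZStar.Sect

set_option autoImplicit false
open Cfsg

namespace Cfsg.Agent.S0947

/-- Let z ≠ 1 be a p-element of the finite group G with centralizer H, and fix a maximal ideal M of the algebraic integers containing p. (i) For every y ∈ H of order prime to p, the sum over ζ in the principal block of G of |ζ (z * y)|² equals the sum over χ in the principal block of H of |χ y|². (ii) If moreover H has a normal p-complement (its largest normal subgroup of order prime to p has p-power index), that common value is the largest power of p dividing the order of H. -/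
theorem result {G : Type*} [Group G] [Finite G] (p : ℕ) [Fact p.Prime] (M : Ideal Cfsg.AlgInt) (hM : Cfsg.IsPModular p M) (z : G) (hz : ∃ k : ℕ, orderOf z = p ^ k) (hz1 : z ≠ 1) (y : Subgroup.centralizer ({z} : Set G)) (hy : ¬ p ∣ orderOf y) : (∑ᶠ ζ ∈ Cfsg.principalBlock M G, ‖(ζ : G → ℂ) (z * (y : G))‖ ^ 2 = ∑ᶠ χ ∈ Cfsg.principalBlock M (Subgroup.centralizer ({z} : Set G)), ‖(χ : Subgroup.centralizer ({z} : Set G) → ℂ) y‖ ^ 2) ∧ ((∃ k : ℕ, (Cfsg.pPrimeCore p (Subgroup.centralizer ({z} : Set G))).index = p ^ k) → ∑ᶠ ζ ∈ Cfsg.principalBlock M G, ‖(ζ : G → ℂ) (z * (y : G))‖ ^ 2 = ((p ^ (Nat.card (Subgroup.centralizer ({z} : Set G))).factorization p : ℕ) : ℝ)) := by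
  haveI := hM.2.1
  haveI := Block.charP_res hM
  have h1 := ZStar.kb_mul_centralizer (M := M) p hz hy hy
  constructor
  · rw [ZStar.kb_self_eq_finsum, ZStar.kb_self_eq_finsum] at h1
    exact_mod_cast h1
  · rintro ⟨k, hk⟩
    have hN := Fit.not_dvd_card_pPrimeCore (G := Subgroup.centralizer ({z} : Set G)) hM.1
    rw [ZStar.kb_principal_self_of_complement p _ hN hk hy, ZStar.kb_self_eq_finsum, hk] at h1
    have h2 : (Nat.card (Subgroup.centralizer ({z} : Set G))).factorization p = k := by
      rw [← Subgroup.card_mul_index (pPrimeCore p (Subgroup.centralizer ({z} : Set G))), hk,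
        Nat.factorization_mul Nat.card_pos.ne' (pow_ne_zero _ hM.1.ne_zero), Finsupp.add_apply,
        Nat.factorization_eq_zero_of_not_dvd hN, hM.1.factorization_pow]
      simp
    rw [h2]
    exact_mod_cast h1

end Cfsg.Agent.S0947
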