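import Cfsg.Statements.S0948
import Cfsg.Agent.Lib.ZStar.Klein

set_option autoImplicit false
open Cfsg

namespace Cfsg.Agent.S0948

/-- Let the finite group G have a Sylow 2-subgroup P that is a Klein four-group, suppose all involutions of G are conjugate, and fix a maximal ideal M of the algebraic integers containing 2. Then the principal block consists of exactly four irreducible characters, the principal character and ζ₂, ζ₃, ζ₄, and there is a sign ε such that for every involution z: ζ₂ z = 1, ζ₃ z = ε, ζ₄ z = -1; moreover ζ₂ 1 ≡ 1, ζ₃ 1 ≡ ε, ζ₄ 1 ≡ -1 (mod 4), and 1 + ζ₂ y + ε ζ₃ y - ζ₄ y = 0 for every y of odd order. -/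
theorem result {G : Type*} [Group G] [Finite G] (M : Ideal Cfsg.AlgInt) (hM : Cfsg.IsPModular 2 M) (P : Sylow 2 G) (hP : IsKleinFour (P : Subgroup G)) (hone : ∀ s t : G, orderOf s = 2 → orderOf t = 2 → IsConj s t) : ∃ ζ₂ ζ₃ ζ₄ : Cfsg.IrrCharacter G, ∃ ε : ℤ, (ε = 1 ∨ ε = -1) ∧ (ζ₂ : G → ℂ) ≠ (fun _ => 1) ∧ (ζ₃ : G → ℂ) ≠ (fun _ => 1) ∧ ζ₂ ≠ ζ₃ ∧ ζ₂ ≠ ζ₄ ∧ ζ₃ ≠ ζ₄ ∧ Cfsg.principalBlock M G = {χ : Cfsg.IrrCharacter G | (χ : G → ℂ) = (fun _ => 1) ∨ χ = ζ₂ ∨ χ = ζ₃ ∨ χ = ζ₄} ∧ (∀ z : G, orderOf z = 2 → (ζ₂ : G → ℂ) z = 1 ∧ (ζ₃ : G → ℂ) z = (ε : ℂ) ∧ (ζ₄ : G → ℂ) z = -1) ∧ (4 : ℤ) ∣ (Cfsg.charDegree (ζ₂ : G → ℂ) : ℤ) - 1 ∧ (4 : ℤ) ∣ (Cfsg.charDegree (ζ₃ : G → ℂ) : ℤ) - ε ∧ (4 : ℤ) ∣ (Cfsg.charDegree (ζ₄ : G → ℂ) : ℤ) + 1 ∧ ∀ y : G, Odd (orderOf y) → 1 + (ζ₂ : G → ℂ) y + (ε : ℂ) * (ζ₃ : G → ℂ) y - (ζ₄ : G → ℂ) y = 0 := by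
  classical
  haveI := hM.2.1
  haveI := Block.charP_res hM
  have hS := Tr.SylowIn.top P
  obtain ⟨e, δ, he, h1, hδ, hB, hv⟩ := ZStar.klein_block (M := M) hS hP hone
  haveI : Nontrivial P := Finite.one_lt_card_iff_nontrivial.1 (by rw [hP.card_four]; norm_num)
  obtain ⟨⟨z, hz⟩, hz1⟩ := exists_ne (1 : P)
  have hz2 : orderOf z = 2 := Tr.orderOf_eq_two (ZStar.klein_mul_self hP hz) 
    (fun h => hz1 (Subtype.ext h))
  have hsum := fun y hy => ZStar.klein_sum_eq_zero he h1 hB hv (z := z) (by rw [hz2]) (y := y) hy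
  have hdvd : ∀ i, (4 : ℤ) ∣ (charDegree (e i).1 : ℤ) - δ i := by
    intro i
    have := ZStar.card_dvd_sub_of_const (Char.isGen_of_isIrr (e i).2) (P : Subgroup G)
      (c := δ i) (d := charDegree (e i).1) (by rw [← Block.cast_charDegree]; simp)
      (fun x hx hx1 => hv i x (by
        rw [Tr.orderOf_eq_two (ZStar.klein_mul_self hP hx) hx1]))
    rwa [hP.card_four] at this
  have hpos : ∀ i, (0 : ℤ) < charDegree (e i).1 := fun i => by
    exact_mod_cast Nat.pos_of_ne_zero (Block.charDegree_ne_zero _)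
  have hs1 : 1 + ∑ i, δ i * (charDegree (e i).1 : ℤ) = 0 := by
    apply Int.cast_injective (α := ℂ)
    have := hsum 1 Block.not_dvd_orderOf_one
    push_cast
    simpa only [Block.cast_charDegree] using this
  rw [Fin.sum_univ_three] at hs1
  have hi : ∃ i, δ i = 1 := by
    by_contra h
    push Not at h
    have h' : ∀ i, δ i = -1 := fun i => (hδ i).resolve_left (h i)
    have a0 := hdvd 0
    have a1 := hdvd 1
    have b0 := hpos 0
    have b1 := hpos 1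
    have b2 := hpos 2
    rw [h'] at a0 a1
    rw [h', h', h'] at hs1
    omega
  have hj : ∃ j, δ j = -1 := by
    by_contra h
    push Not at h
    have h' : ∀ i, δ i = 1 := fun i => (hδ i).resolve_right (h i)
    have b0 := hpos 0
    have b1 := hpos 1
    have b2 := hpos 2
    rw [h', h', h'] at hs1
    omega
  obtain ⟨i, hi⟩ := hi
  obtain ⟨j, hj⟩ := hj
  have hij : i ≠ j := by
    rintro rfl
    omega
  obtain ⟨k, hik, hkj, hall⟩ : ∃ k, i ≠ k ∧ k ≠ j ∧ ∀ l, l = i ∨ l = k ∨ l = j := by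
    clear hi hj
    revert i j
    decide
  have hne : ∀ i, (e i).1 ≠ fun _ => 1 := fun i h => h1 i (Subtype.ext h)
  refine ⟨e i, e k, e j, δ k, hδ k, hne i, hne k, he.ne hik, he.ne hij, he.ne hkj, ?_, ?_, ?_, ?_,
    ?_, ?_⟩
  · ext χ
    rw [hB]
    constructor
    · rintro (rfl | ⟨l, rfl⟩)
      · exact Or.inl rfl
      · rcases hall l with rfl | rfl | rfl <;> simp
    · rintro (h | h | h | h)
      · exact Or.inl (Subtype.ext h)
      all_goals exact Or.inr ⟨_, h⟩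
  · intro t ht
    refine ⟨?_, hv k t (by rw [ht]), ?_⟩
    · rw [hv i t (by rw [ht]), hi, Int.cast_one]
    · rw [hv j t (by rw [ht]), hj]
      simp
  · simpa [hi] using hdvd i
  · exact hdvd k
  · simpa [hj] using hdvd j
  · intro y hy
    have := hsum y (by have := Nat.odd_iff.1 hy; omega)
    have huniv : (Finset.univ : Finset (Fin 3)) = {i, k, j} := by
      ext l
      simpa using hall l
    rw [huniv, Finset.sum_insert (by simp [hik, hij]), Finset.sum_pair hkj, hi, hj] at this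
    rw [← this]
    push_cast
    ring

end Cfsg.Agent.S0948
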