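import Cfsg.Statements.S0951
import Cfsg.Agent.Lib.ZStar.Seven

set_option autoImplicit false
open Cfsg

namespace Cfsg.Agent.S0951

/-- Let S be a Sylow 2-subgroup of the finite group G isomorphic to the quaternion group of order 8. Suppose G has no nontrivial normal subgroup of odd order and G ≠ S. Then, relative to any maximal ideal M of the algebraic integers containing 2, the principal block of G consists of exactly 7 irreducible characters. -/
theorem result {G : Type*} [Group G] [Finite G] (M : Ideal Cfsg.AlgInt) (hM : Cfsg.IsPModular 2 M) (S : Sylow 2 G) (e : (S : Subgroup G) ≃* QuaternionGroup 2) (hO : ∀ N : Subgroup G, N.Normal → Odd (Nat.card N) → N = ⊥) (hG : (S : Subgroup G) ≠ ⊤) : Nat.card (Cfsg.principalBlock M G) = 7 := by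
  classical
  haveI := hM.2.1
  haveI := Cfsg.Agent.Block.charP_res hM
  obtain ⟨t, htS, ht⟩ : ∃ t ∈ (S : Subgroup G), orderOf t = 2 := by
    refine ⟨(e.symm (QuaternionGroup.a 2) : (S : Subgroup G)), Subtype.mem _, ?_⟩
    rw [Subgroup.orderOf_coe, MulEquiv.orderOf_eq]
    exact orderOf_eq_prime (by decide) (by decide)
  have hO' : Cfsg.pPrimeCore 2 G = ⊥ :=
    hO _ inferInstance (Nat.coprime_two_right.1 (Cfsg.Agent.Fit.coprime_card_pPrimeCore 2 G))
  obtain ⟨f1, -⟩ := Cfsg.Agent.ZStar.q8_facts S e htS ht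
  have hc := Cfsg.Agent.ZStar.zstar_center hO' (Cfsg.Agent.ZStar.isolated_of_unique S ht f1).1
  have hnc : ¬ Cfsg.HasNormalPComplement 2 G := by
    rintro ⟨P, N, hN, hcomp⟩
    have h1 : N = ⊥ := by
      refine hO N hN ?_
      rw [← hcomp.index_eq_card, ← Nat.not_even_iff_odd, even_iff_two_dvd]
      exact P.not_dvd_index
    subst h1
    have h2 : (P : Subgroup G) = ⊤ := Subgroup.isComplement'_bot_left.1 hcomp
    apply hG
    rw [← Subgroup.card_eq_iff_eq_top, Nat.card_congr (Sylow.equiv S P).toEquiv, h2,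
      Subgroup.card_top]
  haveI := Cfsg.Agent.ZStar.normal_zpowers_of_centralizer t
  obtain ⟨q, hker, ⟨u, hu⟩, e', δ, k⟩ := Cfsg.Agent.ZStar.q8_data (M := M) S e htS ht hnc _ rfl
    (Cfsg.Agent.Block.self_mem_centralizer_singleton t)
  letI := Fintype.ofFinite (Subgroup.centralizer ({t} : Set G))
  have h7 := Cfsg.Agent.ZStar.card_principalBlock_of_data q (QuotientGroup.mk'_surjective _) hker k hu
  have hsurj : Function.Surjective (Subgroup.centralizer ({t} : Set G)).subtype := by
    intro g
    exact ⟨⟨g, Subgroup.mem_centralizer_singleton_iff.2 (Subgroup.mem_center_iff.1 hc g)⟩, rfl⟩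
  rw [← Cfsg.Agent.ZStar.principalBlock_infl_image 2 _ hsurj (by simp),
    Nat.card_image_of_injective (Cfsg.Agent.Cover.infl_injective _ _)] at h7
  exact h7

end Cfsg.Agent.S0951
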