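import Cfsg.Statements.S0952
import Cfsg.Agent.Lib.Block.Reg

set_option autoImplicit false
open scoped ComplexConjugate
open Cfsg

namespace Cfsg.Agent.S0952

open Cfsg.Agent.Block Cfsg.Agent.Char Cfsg.Agent.Tr


/-- Let χ and ψ be irreducible characters of the finite group G lying in different blocks relative to a maximal ideal M of the algebraic integers containing the prime p. Then the sum of χ x * conj (ψ x) over the elements x of order prime to p is zero. -/
theorem result {G : Type*} [Group G] [Finite G] (p : ℕ) [Fact p.Prime] (M : Ideal Cfsg.AlgInt) (hM : Cfsg.IsPModular p M) (χ ψ : Cfsg.IrrCharacter G) (h : ¬ Cfsg.SameBlock M (χ : G → ℂ) (ψ : G → ℂ)) : ∑ᶠ x ∈ {x : G | ¬ p ∣ orderOf x}, (χ : G → ℂ) x * conj ((ψ : G → ℂ) x) = 0 := by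
  haveI := hM.2.1
  haveI := charP_res hM
  classical
  haveI := Fintype.ofFinite G
  have h1 := (om_eq_zero_iff χ _).1 (om_zreg_eq_zero (p := p) h)
  rw [ev_zreg] at h1
  rw [finsum_mem_eq_finite_toFinset_sum _ (Set.toFinite _), ← h1]
  refine Finset.sum_subset_zero_on_sdiff (Finset.subset_univ _) (fun g hg => ?_) fun g hg => ?_
  · rw [if_pos (by simpa using hg)]
  · rw [if_neg (by simpa using hg)]

end Cfsg.Agent.S0952
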