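import Cfsg.Statements.S0953
import Cfsg.Agent.Lib.Block.Count

set_option autoImplicit false
open Cfsg

namespace Cfsg.Agent.S0953

open Cfsg.Agent.Block Cfsg.Agent.Char Cfsg.Agent.Tr


/-- Let P be a Sylow p-subgroup of the finite group G with normalizer N, and fix a maximal ideal M of the algebraic integers containing p. The number of blocks of G having P as a defect group equals the number of conjugacy classes of N consisting of elements of order prime to p that centralize P. -/
theorem result {G : Type*} [Group G] [Finite G] (p : ℕ) [Fact p.Prime] (M : Ideal Cfsg.AlgInt) (hM : Cfsg.IsPModular p M) (P : Sylow p G) : Nat.card {B : Set (Cfsg.IrrCharacter G) // Cfsg.IsPBlock M B ∧ Cfsg.IsDefectGroup p M B (P : Subgroup G)} = Nat.card {C : ConjClasses (Subgroup.normalizer ((P : Subgroup G) : Set G)) // ∀ n : Subgroup.normalizer ((P : Subgroup G) : Set G), ConjClasses.mk n = C → ¬ p ∣ orderOf n ∧ (n : G) ∈ Subgroup.centralizer ((P : Subgroup G) : Set G)} := by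
  haveI := hM.2.1
  haveI := charP_res hM
  have hP : SylowIn p ((P : Subgroup G).subgroupOf (Subgroup.normalizer ((P : Subgroup G) : Set G)))
      ⊤ := (SylowIn.of_sylow_le P Subgroup.le_normalizer).subgroupOf_top
  rw [← card_blocks_defect_eq P.isPGroup', Nat.card_congr (Equiv.subtypeEquivRight fun b =>
    and_iff_left_of_imp (isDefectGroup_of_normal_sylow hP)), card_blocks_of_normal_sylow hP]
  refine Nat.card_congr (Equiv.subtypeEquivRight fun C => forall_congr' fun n =>
    imp_congr_right fun _ => and_congr_right fun _ => ?_)
  rw [← mem_centralizer_map_iff (Subgroup.subtype_injective _),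
    Subgroup.map_subgroupOf_eq_of_le Subgroup.le_normalizer, Subgroup.coe_subtype]

end Cfsg.Agent.S0953
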