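import Cfsg.Statements.S0957
import Cfsg.Agent.Lib.Block.Grp

set_option autoImplicit false
open Cfsg

namespace Cfsg.Agent.S0957

open Cfsg.Agent.Block Cfsg.Agent.Tr


/-- Let P be a Sylow p-subgroup of the finite group G, let g, h ∈ G and let p ^ d be the order of a Sylow p-subgroup of the centralizer of g. Then the number of pairs (y, z) with y conjugate to g, z conjugate to h and z * y⁻¹ ∈ P is divisible by the order of P divided by p ^ d. -/
theorem result {G : Type*} [Group G] [Finite G] (p : ℕ) [Fact p.Prime] (P : Sylow p G) (g h : G) (S : Sylow p (Subgroup.centralizer ({g} : Set G))) : Nat.card P / Nat.card S ∣ Nat.card {yz : G × G // IsConj g yz.1 ∧ IsConj h yz.2 ∧ yz.2 * yz.1⁻¹ ∈ (P : Subgroup G)} := by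
  classical
  let X := {yz : G × G // IsConj g yz.1 ∧ IsConj h yz.2 ∧ yz.2 * yz.1⁻¹ ∈ (P : Subgroup G)}
  have hconj : ∀ (a u x : G), IsConj a x → IsConj a (u * x * u⁻¹) := fun a u x hx =>
    hx.trans (isConj_iff.2 ⟨u, rfl⟩)
  letI : MulAction (P : Subgroup G) X :=
    { smul := fun u x => ⟨(u * x.1.1 * (u : G)⁻¹, u * x.1.2 * (u : G)⁻¹), hconj _ _ _ x.2.1,
        hconj _ _ _ x.2.2.1, by
          have := mul_mem (mul_mem u.2 x.2.2.2) (inv_mem u.2)
          convert this using 1
          group⟩
      one_smul := fun x => Subtype.ext (Prod.ext (show ((1 : (P : Subgroup G)) : G) * x.1.1 *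
          ((1 : (P : Subgroup G)) : G)⁻¹ = x.1.1 by simp) (show ((1 : (P : Subgroup G)) : G) * x.1.2 *
          ((1 : (P : Subgroup G)) : G)⁻¹ = x.1.2 by simp))
      mul_smul := fun a b x => Subtype.ext (Prod.ext
        (show ((a * b : (P : Subgroup G)) : G) * x.1.1 * ((a * b : (P : Subgroup G)) : G)⁻¹ =
          a * (b * x.1.1 * (b : G)⁻¹) * (a : G)⁻¹ by push_cast; group)
        (show ((a * b : (P : Subgroup G)) : G) * x.1.2 * ((a * b : (P : Subgroup G)) : G)⁻¹ =
          a * (b * x.1.2 * (b : G)⁻¹) * (a : G)⁻¹ by push_cast; group)) }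
  haveI : Fintype (MulAction.orbitRel.Quotient (P : Subgroup G) X) := Fintype.ofFinite _
  show _ ∣ Nat.card X
  rw [Nat.card_congr (MulAction.selfEquivSigmaOrbits (P : Subgroup G) X), Nat.card_sigma]
  refine Finset.dvd_sum fun ω _ => ?_
  generalize ω.out = x
  have h1 := (MulAction.stabilizer (P : Subgroup G) x).card_mul_index
  rw [MulAction.index_stabilizer, ← Nat.card_coe_set_eq] at h1
  have hS := SylowIn.of_sylow S
  obtain ⟨t, ht⟩ := isConj_iff.1 x.2.1
  have hS' := hS.cj t
  rw [← centralizer_singleton_conj, ht] at hS'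
  have h2 : Nat.card (MulAction.stabilizer (P : Subgroup G) x) ∣ Nat.card S := by
    have h3 := hS'.card_dvd (Q := (MulAction.stabilizer (P : Subgroup G) x).map
      (P : Subgroup G).subtype) ((P.isPGroup'.to_subgroup _).map _) (by
        rintro _ ⟨u, hu, rfl⟩
        have h4 : (u : G) * x.1.1 * (u : G)⁻¹ = x.1.1 := congrArg (fun y : X => y.1.1) hu
        rw [Subgroup.mem_centralizer_singleton_iff]
        exact mul_inv_eq_iff_eq_mul.1 h4)
    rwa [card_cj, Subgroup.card_map_of_injective (Subgroup.subtype_injective _),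
      Subgroup.card_map_of_injective (Subgroup.subtype_injective _)] at h3
  have h5 : Nat.card S ∣ Nat.card P := by
    have h3 := (SylowIn.top P).card_dvd hS.isPGroup le_top
    rwa [Subgroup.card_map_of_injective (Subgroup.subtype_injective _)] at h3
  obtain ⟨m, hm⟩ := h2
  obtain ⟨q, hq⟩ := h5
  have hpos : 0 < Nat.card (MulAction.stabilizer (P : Subgroup G) x) := Nat.card_pos
  have hq' : Nat.card P / Nat.card S = q := by
    rw [hq, Nat.mul_div_cancel_left _ Nat.card_pos]
  rw [hq']
  refine ⟨m, Nat.eq_of_mul_eq_mul_left hpos ?_⟩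
  rw [h1]
  show Nat.card P = _
  rw [hq, hm]; ring

end Cfsg.Agent.S0957
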