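import Cfsg.Statements.S0958
import Cfsg.Agent.Lib.Block.Induce

set_option autoImplicit false
open Cfsg

namespace Cfsg.Agent.S0958

open Cfsg.Agent.Block Cfsg.Agent.Char Cfsg.Agent.Tr


/-- Let P be a p-subgroup of the finite group G and H a subgroup with P ⊔ C_G(P) ≤ H ≤ N_G(P); fix a maximal ideal M of the algebraic integers containing p. Then a block B of G is induced by some block of H if and only if some conjugate of P is contained in a defect group of B. -/
theorem result {G : Type*} [Group G] [Finite G] (p : ℕ) [Fact p.Prime] (M : Ideal Cfsg.AlgInt) (hM : Cfsg.IsPModular p M) (P H : Subgroup G) (hP : IsPGroup p P) (hPH : P ⊔ Subgroup.centralizer (P : Set G) ≤ H) (hHN : H ≤ Subgroup.normalizer (P : Set G)) (B : Set (Cfsg.IrrCharacter G)) (hB : Cfsg.IsPBlock M B) : (∃ b : Set (Cfsg.IrrCharacter H), Cfsg.IsInducedBlock M H b B) ↔ ∃ D : Subgroup G, Cfsg.IsDefectGroup p M B D ∧ ∃ x : G, P.map (MulAut.conj x).toMonoidHom ≤ D := by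
  haveI := hM.2.1
  haveI := charP_res hM
  obtain ⟨χ, hχ⟩ := IsPBlock.nonempty hB
  obtain ⟨D, hD⟩ := exists_defectGroup p hB
  have h1 := exists_induces_subtype_iff hP (le_sup_left.trans hPH) (le_sup_right.trans hPH) hHN
    hB hχ
  constructor
  · rintro ⟨b, hb⟩
    obtain ⟨ξ, hξ⟩ := IsPBlock.nonempty hb.1
    exact ⟨D, hD, (IsDefectGroup.exists_coeff_iff hB hD hP).1
      (h1.1 ⟨ξ, IsInducedBlock.induces hb hξ hχ⟩)⟩
  · rintro ⟨E, hE, h⟩
    obtain ⟨ξ, hξ⟩ := h1.2 ((IsDefectGroup.exists_coeff_iff hB hE hP).2 h)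
    exact ⟨_, isInducedBlock_of_induces (isPBlock_blockOf ξ) hB (mem_blockOf_self ξ) hχ hξ⟩

end Cfsg.Agent.S0958
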