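import Cfsg.Statements.S0959
import Cfsg.Agent.Lib.Block.Defect

set_option autoImplicit false
open Cfsg

namespace Cfsg.Agent.S0959

open Cfsg.Agent.Block Cfsg.Agent.Char Cfsg.Agent.Tr


/-- Let B be a block of the finite group G with defect group D (relative to a maximal ideal M of the algebraic integers containing the prime p), and let P be a p-subgroup. Then there is an element g whose idempotent coefficient for B is a local integer outside the local ideal at M and which has a conjugate centralizing P, if and only if some conjugate of P is contained in D. -/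
theorem result {G : Type*} [Group G] [Finite G] (p : ℕ) [Fact p.Prime] (M : Ideal Cfsg.AlgInt) (hM : Cfsg.IsPModular p M) (B : Set (Cfsg.IrrCharacter G)) (hB : Cfsg.IsPBlock M B) (D : Subgroup G) (hD : Cfsg.IsDefectGroup p M B D) (P : Subgroup G) (hP : IsPGroup p P) : (∃ g : G, Cfsg.MemLocalRing M (Cfsg.blockCoeff B g) ∧ ¬ Cfsg.MemLocalIdeal M (Cfsg.blockCoeff B g) ∧ ∃ c : G, IsConj g c ∧ c ∈ Subgroup.centralizer (P : Set G)) ↔ ∃ x : G, P.map (MulAut.conj x).toMonoidHom ≤ D := by
  haveI := hM.2.1
  haveI := charP_res hM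
  rw [← IsDefectGroup.exists_coeff_iff hB hD hP]
  constructor
  · rintro ⟨g, h1, h2, c, hc, hcP⟩
    refine ⟨c, hcP, ?_⟩
    rw [← coeff_eq_of_isConj (eb_mem_cen B) hc]
    exact coeff_eb_ne_zero_iff.2 ⟨h1, h2⟩
  · rintro ⟨k, hk, hk0⟩
    exact ⟨k, (coeff_eb_ne_zero_iff.1 hk0).1, (coeff_eb_ne_zero_iff.1 hk0).2, k, IsConj.refl k, hk⟩

end Cfsg.Agent.S0959
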