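import Cfsg.Statements.S0960
import Cfsg.Agent.Lib.Block.OrdP2

set_option autoImplicit false
open Cfsg

namespace Cfsg.Agent.S0960

open Cfsg.Agent.Block Cfsg.Agent.Char Cfsg.Agent.Tr Subgroup


/-- Let p be an odd prime and G a finite group whose Sylow p-subgroup P has order p; let e be the index of C_G(P) in N_G(P) (a divisor of p − 1) and fix a maximal ideal M of the algebraic integers containing p. Then the principal block of G consists of exactly e + (p - 1) / e irreducible characters, and the degree d of each of them satisfies d ≡ 1, d ≡ -1, d ≡ e or d ≡ -e modulo p. -/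
theorem result {G : Type*} [Group G] [Finite G] (p : ℕ) [Fact p.Prime] (M : Ideal Cfsg.AlgInt) (hM : Cfsg.IsPModular p M) (hodd : p ≠ 2) (P : Sylow p G) (hP : Nat.card P = p) (e : ℕ) (he : (Subgroup.centralizer ((P : Subgroup G) : Set G)).relIndex (Subgroup.normalizer ((P : Subgroup G) : Set G)) = e) : Nat.card (Cfsg.principalBlock M G) = e + (p - 1) / e ∧ ∀ χ ∈ Cfsg.principalBlock M G, ((Cfsg.charDegree (χ : G → ℂ) : ℤ) ≡ 1 [ZMOD p] ∨ (Cfsg.charDegree (χ : G → ℂ) : ℤ) ≡ -1 [ZMOD p] ∨ (Cfsg.charDegree (χ : G → ℂ) : ℤ) ≡ (e : ℤ) [ZMOD p] ∨ (Cfsg.charDegree (χ : G → ℂ) : ℤ) ≡ -(e : ℤ) [ZMOD p]) := by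
  haveI := hM.2.1
  haveI := charP_res hM
  obtain ⟨X, u, y, h⟩ := exists_ordP (P := (P : Subgroup G))
    ⟨le_top, P.isPGroup', by rw [relIndex_top_right]; exact P.not_dvd_index⟩ hP
  have h1 : Nat.card (P : Subgroup G).normalizerMonoidHom.range = e := by
    rw [← index_ker, normalizerMonoidHom_ker, ← he, relIndex]
  obtain ⟨h2, h3⟩ := h.brauer (M := M) hodd
  rw [h1] at h2 h3
  refine ⟨h2, fun χ hχ => ?_⟩
  obtain ⟨ε, rfl | rfl, h4 | h4⟩ := h3 χ hχ
  · exact Or.inl h4
  · exact Or.inr (Or.inr (Or.inl (by simpa using h4)))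
  · exact Or.inr (Or.inl h4)
  · exact Or.inr (Or.inr (Or.inr (by simpa using h4)))

end Cfsg.Agent.S0960
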