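import Cfsg.Statements.S0965
import Cfsg.Agent.Lib.Cover.Basic

set_option autoImplicit false
open Cfsg

namespace Cfsg.Agent.S0965

/-- Let N be a normal subgroup of the finite group G and let B, b be blocks of G and of N relative to a maximal ideal M of the algebraic integers containing the prime p. Then some χ ∈ B has a constituent in b on restriction to N if and only if, for all χ ∈ B, θ ∈ b and n ∈ N, the central character of χ at n is congruent modulo the local ideal at M to the sum of θ m / θ 1 over the elements m ∈ N conjugate in G to n. -/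
theorem result {G : Type*} [Group G] [Fintype G] (p : ℕ) [Fact p.Prime] (M : Ideal Cfsg.AlgInt) (hM : Cfsg.IsPModular p M) (N : Subgroup G) [N.Normal] [Fintype N] (B : Set (Cfsg.IrrCharacter G)) (hB : Cfsg.IsPBlock M B) (b : Set (Cfsg.IrrCharacter N)) (hb : Cfsg.IsPBlock M b) : (∃ χ ∈ B, ∃ θ ∈ b, Cfsg.classInner (fun n : N => (χ : G → ℂ) n) (θ : N → ℂ) ≠ 0) ↔ ∀ χ ∈ B, ∀ θ ∈ b, ∀ n : N, Cfsg.MemLocalIdeal M (Cfsg.centralChar (χ : G → ℂ) (n : G) - Cfsg.inducedCentralChar N (θ : N → ℂ) (n : G)) := by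
  haveI := hM.2.1
  haveI := Block.charP_res hM
  constructor
  · rintro ⟨χ, hχ, θ, hθ, h⟩ χ' hχ' θ' hθ' n
    rw [← Block.mem_locIdeal, ← Block.red_eq_iff (Block.centralChar_mem_locRing _ _)
      (Cover.inducedCentralChar_mem_locRing N _ _),
      ← Cover.red_inducedCentralChar_eq N (Block.IsPBlock.sameBlock hb hθ hθ'),
      ← ((Cover.over_iff N).2 h).centralChar_eq n]
    exact Block.sameBlock_iff_red.1 (Block.IsPBlock.sameBlock hB hχ' hχ) _
  · intro h
    obtain ⟨χ, hχ⟩ := Block.IsPBlock.nonempty hB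
    obtain ⟨θ, hθ⟩ := Block.IsPBlock.nonempty hb
    obtain ⟨θ', h1, h2⟩ := Cover.mem_overSet_of_red N p hb hθ (χ := χ) fun n =>
      Block.red_eq_of_sub_mem (Block.mem_locIdeal.2 (h χ hχ θ hθ n))
    exact ⟨χ, hχ, θ', h1, (Cover.over_iff N).1 h2⟩

end Cfsg.Agent.S0965
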