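import Cfsg.Statements.S0966
import Cfsg.Agent.Lib.Cover.Basic

set_option autoImplicit false
open Cfsg

namespace Cfsg.Agent.S0966

/-- Let N be a normal subgroup of p-power index in the finite group G and b a block of N relative to a maximal ideal M of the algebraic integers containing p. Then there is exactly one block B of G containing a character whose restriction to N has a constituent in b. -/
theorem result {G : Type*} [Group G] [Fintype G] (p : ℕ) [Fact p.Prime] (M : Ideal Cfsg.AlgInt) (hM : Cfsg.IsPModular p M) (N : Subgroup G) [N.Normal] [Fintype N] (hidx : ∃ k : ℕ, N.index = p ^ k) (b : Set (Cfsg.IrrCharacter N)) (hb : Cfsg.IsPBlock M b) : ∃! B : Set (Cfsg.IrrCharacter G), Cfsg.IsPBlock M B ∧ ∃ χ ∈ B, ∃ θ ∈ b, Cfsg.classInner (fun n : N => (χ : G → ℂ) n) (θ : N → ℂ) ≠ 0 := by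
  haveI := hM.2.1
  haveI := Block.charP_res hM
  obtain ⟨k, hk⟩ := hidx
  obtain ⟨θ, hθ⟩ := Block.IsPBlock.nonempty hb
  obtain ⟨χ, hχ⟩ := Cover.exists_over N θ
  refine ⟨blockOf M χ.1, ⟨Block.isPBlock_blockOf χ, χ, Block.mem_blockOf_self χ, θ, hθ,
    (Cover.over_iff N).1 hχ⟩, ?_⟩
  rintro B ⟨hB, χ', hχ', θ', hθ', h⟩
  refine Block.IsPBlock.eq_of_mem hB (Block.isPBlock_blockOf χ) hχ' (Block.mem_blockOf.2 ?_)
  exact Cover.sameBlock_of_over_of_index N p hk hχ ((Cover.over_iff N).2 h)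
    (Block.IsPBlock.sameBlock hb hθ hθ')

end Cfsg.Agent.S0966
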