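import Cfsg.Statements.S0968
import Cfsg.Agent.Lib.Block.Cent
import Cfsg.Agent.S0941

set_option autoImplicit false
open Cfsg

namespace Cfsg.Agent.S0968

open Cfsg.Agent.Block Cfsg.Agent.Char Cfsg.Agent.Tr Subgroup


/-- Let P be a p-subgroup of the finite group G with P ⊔ C_G(P) = G, and let B be a block with defect group P relative to a maximal ideal M of the algebraic integers containing p. Then there is exactly one θ ∈ B with θ x = θ 1 for all x ∈ P; for this θ the exponent of p in θ(1) equals the exponent of p in the index of P; and the number of members of B equals the number of conjugacy classes of P. -/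
theorem result {G : Type*} [Group G] [Finite G] (p : ℕ) [Fact p.Prime] (M : Ideal Cfsg.AlgInt) (hM : Cfsg.IsPModular p M) (P : Subgroup G) (hP : IsPGroup p P) (hG : P ⊔ Subgroup.centralizer (P : Set G) = ⊤) (B : Set (Cfsg.IrrCharacter G)) (hB : Cfsg.IsPBlock M B) (hD : Cfsg.IsDefectGroup p M B P) : (∃! θ : Cfsg.IrrCharacter G, θ ∈ B ∧ ∀ x ∈ P, (θ : G → ℂ) x = (θ : G → ℂ) 1) ∧ (∀ θ ∈ B, (∀ x ∈ P, (θ : G → ℂ) x = (θ : G → ℂ) 1) → (Cfsg.charDegree (θ : G → ℂ)).factorization p = P.index.factorization p) ∧ Nat.card B = Nat.card (ConjClasses P) := by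
  haveI := hM.2.1
  haveI := charP_res hM
  have hn : centralizer (P : Set G) ≤ normalizer (P : Set G) := centralizer_le_normalizer _
  haveI hPn : P.Normal := normalizer_eq_top_iff.1 (top_le_iff.1 (hG ▸ sup_le le_normalizer hn))
  have hC : ∃ k : ℕ, (centralizer (P : Set G)).index = p ^ k := by
    have h1 : (centralizer (P : Set G)).index = (centralizer (P : Set G)).relIndex P := by
      rw [← relIndex_top_right, ← hG, relIndex_sup_right]
    obtain ⟨n, hn⟩ := (IsPGroup.iff_card (p := p) (G := P)).1 hP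
    have h2 : (centralizer (P : Set G)).index ∣ p ^ n := by
      rw [h1, ← hn]; exact relIndex_dvd_card _ _
    obtain ⟨k, -, hk⟩ := (Nat.dvd_prime_pow Fact.out).1 h2
    exact ⟨k, hk⟩
  obtain ⟨k, hk⟩ := hC
  have hreg : ∀ y : G, ¬ p ∣ orderOf y → y ∈ centralizer (P : Set G) := fun y hy =>
    Cover.mem_of_not_dvd_orderOf _ p hk hy
  have hf := QuotientGroup.mk'_surjective P
  have hker : (QuotientGroup.mk' P).ker = P := QuotientGroup.ker_mk' P
  have hkp : IsPGroup p (QuotientGroup.mk' P).ker := by rwa [hker]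
  have hinj : Set.InjOn (QuotientGroup.mk' P) {g | ¬ p ∣ orderOf g} := fun x hx y hy hxy =>
    Cover.eq_of_regular_of_centralizer _ hkp hx hy (by rw [hker]; exact hreg y hy) hxy
  have hdeg : ∀ ψ, Cover.infl _ hf ψ ∈ B →
      (charDegree ψ.1).factorization p = (Nat.card (G ⧸ P)).factorization p := by
    intro ψ hψ
    refine le_antisymm (factorization_charDegree_le ψ) ?_
    have h1 := le_blockDefect_add (p := p) hψ
    have h2 := factorization_card_eq_add (p := p) P
    have h3 : charDegree (Cover.infl _ hf ψ).1 = charDegree ψ.1 := rfl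
    rw [IsDefectGroup.card_eq hB hD, Nat.Prime.factorization_pow Fact.out,
      Finsupp.single_eq_same] at h2
    rw [h3] at h1
    change P.index.factorization p ≤ _
    omega
  obtain ⟨θ, hθ⟩ := Cover.exists_infl_mem p _ hf hkp hB
  have hu : ∀ ψ, Cover.infl _ hf ψ ∈ B → ψ = θ := by
    intro ψ hψ
    have h1 : SameBlock M θ.1 ψ.1 :=
      ((S0941.result p M hM P hP ⟨k, hk⟩).1 θ ψ).2 (IsPBlock.sameBlock hB hθ hψ)
    have h2 : ψ ∈ blockOf M θ.1 := h1
    rwa [blockOf_eq_singleton (p := p) (hdeg θ hθ).ge] at h2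
  have hval : ∀ χ ∈ B, ∀ y, ¬ p ∣ orderOf y →
      χ.1 y / χ.1 1 = θ.1 (QuotientGroup.mk' P y) / θ.1 1 := fun χ hχ y hy =>
    apply_div_eq_of_unique_infl _ hf hinj hB hθ hu hχ hy
  refine ⟨⟨Cover.infl _ hf θ, ⟨hθ, fun x hx => ?_⟩, fun ψ hψ => ?_⟩, fun ψ hψ hψ' => ?_, ?_⟩
  · rw [Cover.infl_apply, Cover.infl_apply, map_one, (MonoidHom.mem_ker).1 (hker.symm ▸ hx)]
  · obtain ⟨ψ', rfl⟩ := Cover.exists_infl _ hf (ψ := ψ) (by rw [hker]; exact hψ.2)
    rw [hu ψ' hψ.1]
  · obtain ⟨ψ', rfl⟩ := Cover.exists_infl _ hf (ψ := ψ) (by rw [hker]; exact hψ')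
    exact hdeg ψ' hψ
  · rw [← card_irr_eq_card_conjClasses]
    refine le_antisymm ?_ ?_
    · choose ζ hζ using Cover.exists_under P
      refine Nat.card_le_card_of_injective (fun χ : B => ζ χ.1) fun χ ψ h => Subtype.ext ?_
      have h1 : Cover.Over P ψ.1 (ζ χ.1) := by
        have h' : ζ χ.1 = ζ ψ.1 := h
        rw [h']; exact hζ _
      have h2 : ∀ u ∈ P, χ.1.1 u / χ.1.1 1 = ψ.1.1 u / ψ.1.1 1 := by
        intro u hu
        have := ((hζ χ.1).centralChar_eq ⟨u, hu⟩).trans (h1.centralChar_eq ⟨u, hu⟩).symm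
        simp only [centralChar, mul_div_assoc] at this
        exact mul_left_cancel₀ (Nat.cast_ne_zero.2 index_ne_zero_of_finite) this
      refine irr_eq_of_div_eq fun g => ?_
      obtain ⟨x, hx⟩ := exists_isPPart (p := p) g
      by_cases hxP : x ∈ P
      · obtain ⟨y, rfl, -, -, hy⟩ := hx
        rw [apply_mul_of_sup_centralizer hG _ hxP (hreg y hy),
          apply_mul_of_sup_centralizer hG _ hxP (hreg y hy)]
        have e : ∀ a b c : ℂ, a * b / c / c = (a / c) * (b / c) := fun a b c => by ring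
        rw [e, e, h2 x hxP, hval _ χ.2 y hy, hval _ ψ.2 y hy]
      · have h3 : ∀ φ ∈ B, φ.1 g = 0 := fun φ hφ => by
          by_contra h0
          exact hxP (IsDefectGroup.mem_of_apply_ne_zero hB hD hφ hx h0)
        rw [h3 _ χ.2, h3 _ ψ.2, zero_div, zero_div]
    · choose χ hχ hχ' using exists_over_mem_of_isPGroup hP hB
      refine Nat.card_le_card_of_injective (fun ζ => (⟨χ ζ, hχ ζ⟩ : B)) fun ζ ζ' h => ?_
      have h1 : χ ζ = χ ζ' := congrArg Subtype.val h
      obtain ⟨g, rfl⟩ := (hχ' ζ).exists_irrCj (h1 ▸ hχ' ζ')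
      refine Subtype.ext (funext fun n => ?_)
      rw [Cover.irrCj_apply]
      have hg : g ∈ ((P ⊔ centralizer (P : Set G) : Subgroup G) : Set G) := by rw [hG]; trivial
      rw [normal_mul] at hg
      obtain ⟨v, hv, c, hc, rfl⟩ := hg
      rw [← isClass_irr ζ n ⟨v, hv⟩]
      refine congrArg ζ.1 (Subtype.ext ?_)
      have e1 : (n : G) * c = c * n := hc n n.2
      change v * n * v⁻¹ = v * c * n * (v * c)⁻¹
      rw [mul_assoc v c, ← e1]
      group

end Cfsg.Agent.S0968
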