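import Cfsg.Statements.S0969
import Cfsg.Agent.Lib.Block.Lin
import Cfsg.Agent.S0961

set_option autoImplicit false
open Cfsg

namespace Cfsg.Agent.S0969

open Cfsg.Agent.Block Cfsg.Agent.Char Cfsg.Agent.Tr Subgroup


/-- Let D be a central p-subgroup of the finite group G and χ an irreducible character with the exponent of p in χ(1) equal to the exponent of p in the index of D; fix a maximal ideal M of the algebraic integers containing p. Then D is a defect group of the block of χ, and χ g = 0 whenever the p-part of g does not lie in D. -/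
theorem result {G : Type*} [Group G] [Finite G] (p : ℕ) [Fact p.Prime] (M : Ideal Cfsg.AlgInt) (hM : Cfsg.IsPModular p M) (D : Subgroup G) (hD : IsPGroup p D) (hDZ : D ≤ Subgroup.center G) (χ : Cfsg.IrrCharacter G) (hdeg : (Cfsg.charDegree (χ : G → ℂ)).factorization p = D.index.factorization p) : Cfsg.IsDefectGroup p M (Cfsg.blockOf M (χ : G → ℂ)) D ∧ ∀ g x : G, Cfsg.IsPPart p g x → x ∉ D → (χ : G → ℂ) g = 0 := by
  haveI := hM.2.1
  haveI := charP_res hM
  classical
  haveI := Fintype.ofFinite G
  haveI := Fintype.ofFinite D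
  have hp : p.Prime := Fact.out
  have hG0 := card_ne_zero_complex G
  have hD0 := card_ne_zero_complex D
  have hχ0 := irr_apply_one_ne_zero χ
  -- the sum of `|χ|²` over the `p`-regular elements
  set σ : ℝ := ∑ y : G, if p ∣ orderOf y then 0 else ‖χ.1 y‖ ^ 2 with hσ
  have hσ1 : ev χ.1 (zreg p χ.1) = σ := by
    rw [ev_zreg, hσ]
    push_cast
    refine Finset.sum_congr rfl fun y _ => ?_
    split_ifs
    · simp
    · rw [Complex.mul_conj, Complex.normSq_eq_norm_sq]
  have hσ0 : 0 < σ := Finset.sum_pos' (fun y _ => by split_ifs <;> positivity)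
    ⟨1, Finset.mem_univ _, by rw [if_neg not_dvd_orderOf_one]; positivity⟩
  have htot : ∑ g, ‖χ.1 g‖ ^ 2 = Nat.card G := by
    have := sum_mul_conj_of_isIrr χ.2
    simp only [Complex.mul_conj, Complex.normSq_eq_norm_sq] at this
    exact_mod_cast this
  have hX : ∑ g, (if ∃ u ∈ D, IsPPart p g u then ‖χ.1 g‖ ^ 2 else 0) = Nat.card D * σ := by
    rw [sum_pPart_mem hD fun y _ d hd => (mem_center_iff.1 (hDZ hd) y).symm]
    rw [Nat.card_eq_fintype_card, ← nsmul_eq_mul, ← Finset.card_univ, ← Finset.sum_const]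
    refine Finset.sum_congr rfl fun u _ => Finset.sum_congr rfl fun y _ => ?_
    rw [irr_apply_central_mul χ (hDZ u.2), norm_mul, norm_eq_one_of_pow_eq_one
      (orderOf_pos (u : G)).ne' (om_single_pow_eq_one χ (hDZ u.2) (pow_orderOf_eq_one _)),
      one_mul]
  have hle : Nat.card D * σ ≤ Nat.card G := by
    rw [← hX, ← htot]
    exact Finset.sum_le_sum fun g _ => by split_ifs <;> first | exact le_rfl | positivity
  obtain ⟨e, he⟩ := hD.exists_card_eq
  have hfac := factorization_card_eq_add (p := p) D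
  rw [he, hp.factorization_pow, Finsupp.single_eq_same] at hfac
  set a := (Nat.card G).factorization p with ha
  obtain ⟨j, hj⟩ := exists_int_inner (isGen_of_isIrr χ.2) (S0961.result p χ)
  have hj1 : (j : ℂ) = p ^ a * σ / Nat.card G := by
    rw [← hj, ← hσ1, ev_zreg, classInner, div_eq_inv_mul, Finset.mul_sum (a := (p : ℂ) ^ a)]
    congr 1
    refine Finset.sum_congr rfl fun g _ => ?_
    split_ifs
    · simp
    · simp only [map_mul, map_natCast, ← ha]
      push_cast
      ring
  have hj2 : (j : ℝ) = p ^ a * σ / Nat.card G := by exact_mod_cast hj1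
  have hGpos : (0 : ℝ) < Nat.card G := by exact_mod_cast Nat.card_pos
  have hppos : (0 : ℝ) < p := by exact_mod_cast hp.pos
  have hj3 : 0 < j := by
    have : (0 : ℝ) < j := by rw [hj2]; positivity
    exact_mod_cast this
  obtain ⟨n, rfl⟩ := Int.eq_ofNat_of_zero_le hj3.le
  have hn0 : n ≠ 0 := by omega
  have hu : red M ((Nat.card G : ℂ) / (Nat.card D * charDegree χ.1 : ℕ)) ≠ 0 := by
    rw [red_natCast_div_ne_zero_iff p Nat.card_pos.ne'
      (mul_ne_zero Nat.card_pos.ne' (charDegree_ne_zero χ)),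
      Nat.factorization_mul Nat.card_pos.ne' (charDegree_ne_zero χ), Finsupp.add_apply, hdeg, he,
      hp.factorization_pow, Finsupp.single_eq_same, ← ha, hfac]
  have hS : (n : ℂ) / (p ^ (a - e) : ℕ) ∈ locRing M := by
    have h1 := mul_mem (om_zreg_mem_locRing (M := M) (p := p) χ (isChar_irr χ))
      (inv_mem_locRing_of_red hu)
    convert h1 using 1
    have h2 : (p : ℂ) ^ a = p ^ (a - e) * p ^ e := by
      rw [← pow_add, Nat.sub_add_cancel (by omega)]
    have h3 : (p : ℂ) ≠ 0 := by exact_mod_cast hp.ne_zero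
    rw [Int.cast_natCast] at hj1
    rw [om_apply, hσ1, hj1, Nat.cast_mul, cast_charDegree, he, h2]
    push_cast
    field_simp
  rw [natCast_div_mem_locRing_iff p hn0 (pow_ne_zero _ hp.ne_zero), hp.factorization_pow,
    Finsupp.single_eq_same, ← hp.pow_dvd_iff_le_factorization hn0] at hS
  have hge : (Nat.card G : ℝ) ≤ Nat.card D * σ := by
    have h1 : ((p ^ (a - e) : ℕ) : ℝ) ≤ n := by
      exact_mod_cast Nat.le_of_dvd (Nat.pos_of_ne_zero hn0) hS
    have h2 : (p : ℝ) ^ a = p ^ (a - e) * p ^ e := by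
      rw [← pow_add, Nat.sub_add_cancel (by omega)]
    rw [Int.cast_natCast] at hj2
    rw [hj2, h2, le_div_iff₀ hGpos, mul_assoc] at h1
    push_cast at h1
    rw [he]
    push_cast
    exact le_of_mul_le_mul_left h1 (by positivity)
  have heq : Nat.card D * σ = Nat.card G := le_antisymm hle hge
  have h0 : blockHeight p (blockOf M χ.1) χ.1 = 0 := by
    refine ((lam_zreg_ne_zero_iff (isPBlock_blockOf χ) (mem_blockOf_self χ) χ).1 ?_).2
    rw [lam_zreg χ (isChar_irr χ), om_apply, hσ1]
    convert hu using 2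
    have : (Nat.card D * σ : ℂ) = Nat.card G := by exact_mod_cast heq
    rw [← this, Nat.cast_mul, cast_charDegree]
    field_simp
  constructor
  · haveI : D.Normal := ⟨fun d hd g => by
      rwa [mem_center_iff.1 (hDZ hd) g, mul_inv_cancel_right]⟩
    obtain ⟨E, hE⟩ := exists_defectGroup p (isPBlock_blockOf (M := M) χ)
    have h1 := blockDefect_add (mem_blockOf_self (M := M) χ) h0
    rwa [eq_of_le_of_card_ge (IsDefectGroup.normal_le (isPBlock_blockOf χ) hE hD) (by
      rw [IsDefectGroup.card_eq (isPBlock_blockOf χ) hE, he]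
      exact (congrArg (p ^ ·) (by omega)).le)]
  · intro g x hx hxD
    have h1 : ∑ g, (‖χ.1 g‖ ^ 2 - if ∃ u ∈ D, IsPPart p g u then ‖χ.1 g‖ ^ 2 else 0) = 0 := by
      rw [Finset.sum_sub_distrib, hX, htot, heq, sub_self]
    have h2 := (Finset.sum_eq_zero_iff_of_nonneg fun g _ => by
      split_ifs
      · rw [sub_self]
      · rw [sub_zero]; positivity).1 h1 g (Finset.mem_univ _)
    rw [if_neg, sub_zero] at h2
    · simpa using h2
    · rintro ⟨u, hu, h⟩
      exact hxD (IsPPart.unique h hx ▸ hu)

end Cfsg.Agent.S0969
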