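import Cfsg.Statements.S0971
import Cfsg.Agent.Lib.Cover.Quot

set_option autoImplicit false
open Cfsg

namespace Cfsg.Agent.S0971

/-- Let Q be a normal p-subgroup of the finite group G, let N = Q ⊔ C_G(Q) (a normal subgroup) and let b be a block of N relative to a maximal ideal M of the algebraic integers containing p. Then b induces some block of G, and every block B of G containing a character whose restriction to N has a constituent in b is induced by b. -/
theorem result {G : Type*} [Group G] [Fintype G] (p : ℕ) [Fact p.Prime] (M : Ideal Cfsg.AlgInt) (hM : Cfsg.IsPModular p M) (Q : Subgroup G) [Q.Normal] (hQ : IsPGroup p Q) [Fintype ↥(Q ⊔ Subgroup.centralizer (Q : Set G))] (b : Set (Cfsg.IrrCharacter ↥(Q ⊔ Subgroup.centralizer (Q : Set G)))) (hb : Cfsg.IsPBlock M b) : Cfsg.InducedBlockDefined M (Q ⊔ Subgroup.centralizer (Q : Set G)) b ∧ ∀ B : Set (Cfsg.IrrCharacter G), Cfsg.IsPBlock M B → (∃ χ ∈ B, ∃ θ ∈ b, Cfsg.classInner (fun n : ↥(Q ⊔ Subgroup.centralizer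 (Q : Set G)) => (χ : G → ℂ) n) (θ : ↥(Q ⊔ Subgroup.centralizer (Q : Set G)) → ℂ) ≠ 0) → Cfsg.IsInducedBlock M (Q ⊔ Subgroup.centralizer (Q : Set G)) b B := by
  haveI := hM.2.1
  haveI := Block.charP_res hM
  have key : ∀ B : Set (Cfsg.IrrCharacter G), Cfsg.IsPBlock M B →
      (∃ χ ∈ B, ∃ θ ∈ b, Cover.Over (Q ⊔ Subgroup.centralizer (Q : Set G)) χ θ) →
      Cfsg.IsInducedBlock M (Q ⊔ Subgroup.centralizer (Q : Set G)) b B := by
    rintro B hB ⟨χ, hχ, θ, hθ, h⟩
    refine ⟨hb, hB, fun ξ hξ χ' hχ' g => ?_⟩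
    rw [← Block.mem_locIdeal, ← Block.red_eq_iff (Cover.inducedCentralChar_mem_locRing _ _ _)
      (Block.centralChar_mem_locRing _ _),
      ← Cover.red_inducedCentralChar_eq _ (Block.IsPBlock.sameBlock hb hθ hξ),
      ← Block.sameBlock_iff_red.1 (Block.IsPBlock.sameBlock hB hχ hχ') g,
      ← Cover.om_trunc_classSum, ← h.om_trunc (Block.classSum_mem_cen g), ← Block.irr_om_classSum,
      Cover.push_trunc_eq_cut]
    apply Block.red_eq_of_sub_mem
    rw [← map_sub]
    have hc : Block.cut ℂ ((Q ⊔ Subgroup.centralizer (Q : Set G) : Subgroup G) : Set G)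
        (Block.classSum ℂ g) ∈ Block.cen ℂ G := by
      refine Block.cut_mem_cen (fun h g => ?_) (Block.classSum_mem_cen g)
      have hN : (Q ⊔ Subgroup.centralizer (Q : Set G) : Subgroup G).Normal := inferInstance
      constructor
      · intro h'
        simpa [mul_assoc] using hN.conj_mem _ h' h⁻¹
      · intro h'
        exact hN.conj_mem _ h' h
    refine Cover.om_mem_locIdeal_of_supp_off p hQ χ
      ((Block.cen ℂ G).sub_mem hc (Block.classSum_mem_cen g))
      ((Block.SG G M).sub_mem (Block.cut_mem_SG _ (Block.classSum_mem_SG g))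
        (Block.classSum_mem_SG g)) fun x hx => ?_
    rw [MonoidAlgebra.coeff_sub, Finsupp.sub_apply,
      Block.coeff_cut_of_mem _ (Subgroup.mem_sup_right hx), sub_self]
    exact (Block.locIdeal M).zero_mem
  constructor
  · obtain ⟨θ, hθ⟩ := Block.IsPBlock.nonempty hb
    obtain ⟨χ, hχ⟩ := Cover.exists_over _ θ
    exact ⟨_, key _ (Block.isPBlock_blockOf χ) ⟨χ, Block.mem_blockOf_self χ, θ, hθ, hχ⟩⟩
  · rintro B hB ⟨χ, hχ, θ, hθ, h⟩
    exact key B hB ⟨χ, hχ, θ, hθ, (Cover.over_iff _).2 h⟩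

end Cfsg.Agent.S0971
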