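import Cfsg.Statements.S0972
import Cfsg.Agent.Lib.Block.Lin
import Cfsg.Agent.Lib.Ind.PermLemma

set_option autoImplicit false
open Cfsg

namespace Cfsg.Agent.S0972

open Cfsg.Agent.Block Cfsg.Agent.Char Cfsg.Agent.Tr Subgroup


/-- Let B be a block of the finite group G (relative to a maximal ideal M of the algebraic integers containing the prime p) with a defect group P that is normal in G. Then P is commutative if and only if every member of B has height zero. -/
theorem result {G : Type*} [Group G] [Finite G] (p : ℕ) [Fact p.Prime] (M : Ideal Cfsg.AlgInt) (hM : Cfsg.IsPModular p M) (B : Set (Cfsg.IrrCharacter G)) (hB : Cfsg.IsPBlock M B) (P : Subgroup G) [P.Normal] (hP : Cfsg.IsDefectGroup p M B P) : (∀ a ∈ P, ∀ c ∈ P, a * c = c * a) ↔ ∀ χ ∈ B, Cfsg.blockHeight p B (χ : G → ℂ) = 0 := by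
  haveI := hM.2.1
  haveI := charP_res hM
  haveI := Fintype.ofFinite P
  constructor
  · intro hab χ hχ
    have h1 := (Nat.factorization_le_iff_dvd (charDegree_ne_zero χ) index_ne_zero_of_finite).2
      (Ind.ito χ.2 P hab (cast_charDegree χ).symm) p
    have h2 := factorization_charDegree_eq (p := p) hχ
    have h3 := factorization_card_eq_add (p := p) P
    rw [IsDefectGroup.card_eq hB hP, Nat.Prime.factorization_pow Fact.out,
      Finsupp.single_eq_same] at h3
    omega
  · intro h a ha c hc
    have h1 := Cover.not_dvd_orderOf_of_ker p (IsPBlock.idem_mem_SG p hB) (IsPBlock.nonempty hB)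
      (x := a * c * a⁻¹ * c⁻¹) fun χ hχ => by
        obtain ⟨μ, hμ⟩ := IsDefectGroup.exists_linear hB hP hχ (h χ hχ)
        exact apply_commutator_of_linear χ μ hμ ha hc
    by_contra hne
    refine h1 (dvd_orderOf_of_ne_one (fun e => hne ?_) (exists_orderOf_of_mem
      (IsDefectGroup.isPGroup hP) (mul_mem (mul_mem (mul_mem ha hc) (inv_mem ha)) (inv_mem hc))))
    rwa [mul_inv_eq_one, mul_inv_eq_iff_eq_mul] at e

end Cfsg.Agent.S0972
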