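import Cfsg.Statements.S0973
import Cfsg.Agent.Lib.Block.Iso

set_option autoImplicit false
open Cfsg

namespace Cfsg.Agent.S0973

open Cfsg.Agent.Block Cfsg.Agent.Char Cfsg.Agent.Tr Subgroup


/-- Let B be a block of the finite group G with defect group P (relative to a maximal ideal M of the algebraic integers containing p), and let L = P ⊔ C_G(P). Then (i) some block b of L with defect group P (viewed in L) induces B, and (ii) if b and b' are blocks of L both inducing B, there is n ∈ N_G(P) carrying b to b': for every θ ∈ b there is θ' ∈ b' with θ' x = θ (n x n⁻¹) for all x ∈ L. -/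
theorem result {G : Type*} [Group G] [Finite G] (p : ℕ) [Fact p.Prime] (M : Ideal Cfsg.AlgInt) (hM : Cfsg.IsPModular p M) (B : Set (Cfsg.IrrCharacter G)) (hB : Cfsg.IsPBlock M B) (P : Subgroup G) (hP : Cfsg.IsDefectGroup p M B P) : (∃ b : Set (Cfsg.IrrCharacter ↥(P ⊔ Subgroup.centralizer (P : Set G))), Cfsg.IsDefectGroup p M b (P.subgroupOf (P ⊔ Subgroup.centralizer (P : Set G))) ∧ Cfsg.IsInducedBlock M (P ⊔ Subgroup.centralizer (P : Set G)) b B) ∧ ∀ b b' : Set (Cfsg.IrrCharacter ↥(P ⊔ Subgroup.centralizer (P : Set G))), Cfsg.IsInducedBlock M (P ⊔ Subgroup.centralizer (P : Set G)) b B → Cfsg.IsInducedBlock M (P ⊔ Subgroup.centralizer (P : Set G)) b' B → ∃ n ∈ Subgroup.normalizer (P : Set G), ∀ θ ∈ b, ∃ θ' ∈ b', ∀ x : ↥(P ⊔ Subgroup.centralizer (P : Set G)), ∀ hx : n * (x : G) * n⁻¹ ∈ P ⊔ Subgroup.centralizer (P : Set G), (θ' : ↥(P ⊔ Subgroup.centralizer (P : Set G)) → ℂ) x = (θ : ↥(P ⊔ Subgroup.centralizer (P : Set G)) → ℂ) ⟨n * (x : G) * n⁻¹, hx⟩ := by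
  haveI := hM.2.1
  haveI := charP_res hM
  obtain ⟨χ, hχ⟩ := IsPBlock.nonempty hB
  have hPp := IsDefectGroup.isPGroup hP
  have hKN : P ⊔ centralizer (P : Set G) ≤ normalizer (P : Set G) :=
    sup_le le_normalizer (centralizer_le_normalizer _)
  haveI := Subgroup.normal_subgroupOf_of_le_normalizer hKN
  constructor
  · obtain ⟨ξ, hξ⟩ := exists_induces_of_le_defectGroup le_sup_left le_sup_right hKN hB hχ hP le_rfl
    exact ⟨_, hξ.isDefectGroup_of_normal (subtype_injective _) (isPBlock_blockOf ξ)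
      (mem_blockOf_self ξ) hB hχ (by rwa [map_subgroupOf_eq_of_le le_sup_left]),
      isInducedBlock_of_induces (isPBlock_blockOf ξ) hB (mem_blockOf_self ξ) hχ hξ⟩
  · intro b b' hb hb'
    obtain ⟨ξ, hξ⟩ := IsPBlock.nonempty hb.1
    obtain ⟨ξ', hξ'⟩ := IsPBlock.nonempty hb'.1
    have hι := inclusion_injective hKN
    haveI : (inclusion hKN).range.Normal := by
      rw [inclusion_range]
      refine Subgroup.normal_subgroupOf_of_le_normalizer fun n hn => cj_eq_iff.1 ?_
      rw [cj_sup, ← centralizer_cj, cj_eq_of_mem_normalizer hn]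
    have hC : centralizer ((P.subgroupOf (P ⊔ centralizer (P : Set G))).map (inclusion hKN) :
        Set (normalizer (P : Set G))) ≤ (inclusion hKN).range := by
      intro n hn
      rw [inclusion_range, mem_subgroupOf]
      refine mem_sup_right fun x hx => ?_
      exact congrArg Subtype.val (hn _ (mem_map_of_mem (inclusion hKN)
        (show (⟨x, mem_sup_left hx⟩ : ↥(P ⊔ centralizer (P : Set G))) ∈ _ from hx)))
    obtain ⟨β, hβ⟩ := exists_induces (M := M) hι (isPGroup_subgroupOf hPp _) hC ξ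
    obtain ⟨β', hβ'⟩ := exists_induces (M := M) hι (isPGroup_subgroupOf hPp _) hC ξ'
    have h2 : Induces M (normalizer (P : Set G)).subtype β χ :=
      hβ.of_comp (by rw [subtype_comp_inclusion]; exact IsInducedBlock.induces hb hξ hχ)
    have h3 : Induces M (normalizer (P : Set G)).subtype β' χ :=
      hβ'.of_comp (by rw [subtype_comp_inclusion]; exact IsInducedBlock.induces hb' hξ' hχ)
    have h1 := h2.sameBlock_of_normalizer h3 hB hχ hP
    obtain ⟨n, hn⟩ := Induces.mem_orb hι p hβ'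
      (hβ.of_sameBlock (sameBlock_refl _) h1) hb'.1 hξ'
    refine ⟨n, n.2, fun θ hθ => ⟨irrComp (conjAut hι n) θ, IsPBlock.mem_of_sameBlock hb'.1 hn
      ((sameBlock_irrComp _).2 (IsPBlock.sameBlock hb.1 hξ hθ)), fun x hx => ?_⟩⟩
    rw [irrComp_apply]
    exact congrArg θ.1 <| Subtype.ext (congrArg (fun y : normalizer (P : Set G) => (y : G))
      (map_conjAut hι n x))

end Cfsg.Agent.S0973
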