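import Cfsg.Statements.S1174
import Cfsg.Agent.Lib.ZD.Main

set_option autoImplicit false
open Cfsg

namespace Cfsg.Agent.S1174

/-- Let X be a finite simple group, S a Sylow 2-subgroup and T ≠ 1 a subgroup strongly closed in S. If the subgroup generated by the centralizers C_X(t) of the involutions t of T is proper in X, then X has a strongly embedded subgroup. -/
theorem result {X : Type*} [Group X] [Finite X] [IsSimpleGroup X] (S : Sylow 2 X) (T : Subgroup X) (hT1 : T ≠ ⊥) (hT : Cfsg.IsStronglyClosed T (S : Subgroup X)) (hprop : (⨆ t : {t : X // t ∈ T ∧ orderOf t = 2}, Subgroup.centralizer ({(t : X)} : Set X)) ≠ ⊤) : ∃ H : Subgroup X, Cfsg.IsStronglyEmbedded H := by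
  exact ZD.s1174 X S T hT1 hT hprop

end Cfsg.Agent.S1174
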