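import Cfsg.Statements.S1176
import Cfsg.Agent.Lib.Transfer.Invol

set_option autoImplicit false
open Cfsg

namespace Cfsg.Agent.S1176



/-- Let x₀ be an involution of the finite group G and D its conjugacy class. Assume (a) for each x ∈ D the subgroup W(x) generated by the members of D commuting with x is a 2-group of nilpotency class at most 2, and (b) the product of two distinct commuting members of D again lies in D. Then for all x, y ∈ D, if xy has even order greater than 2, its order is 4. -/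
theorem result {G : Type*} [Group G] [Finite G] (x₀ : G) (hx₀ : orderOf x₀ = 2) (ha : ∀ x : G, IsConj x₀ x → IsPGroup 2 ↥(Subgroup.closure {y : G | IsConj x₀ y ∧ Commute y x}) ∧ ⁅⁅Subgroup.closure {y : G | IsConj x₀ y ∧ Commute y x}, Subgroup.closure {y : G | IsConj x₀ y ∧ Commute y x}⁆, Subgroup.closure {y : G | IsConj x₀ y ∧ Commute y x}⁆ = ⊥) (hb : ∀ x y : G, IsConj x₀ x → IsConj x₀ y → x ≠ y → Commute x y → IsConj x₀ (x * y)) (x y : G) (hx : IsConj x₀ x) (hy : IsConj x₀ y) (heven : Even (orderOf (x * y))) (hgt : 2 < orderOf (x * y)) : orderOf (x * y) = 4 := by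
  have hx2 : x * x = 1 := by
    obtain ⟨g, rfl⟩ := isConj_iff.1 hx
    exact Tr.conj_mul_self (Tr.mul_self_of_orderOf_two hx₀) g
  have hy2 : y * y = 1 := by
    obtain ⟨g, rfl⟩ := isConj_iff.1 hy
    exact Tr.conj_mul_self (Tr.mul_self_of_orderOf_two hx₀) g
  obtain ⟨m, -, h2, h3, h4⟩ := Tr.exists_central_of_even hx2 hy2 heven
  have h5 : IsConj x₀ ((x * y) ^ m * y) := by
    rcases Tr.exists_conj_pow_mul hx2 hy2 m with ⟨-, k, -, hk⟩ | ⟨-, k, -, hk⟩
    · exact hy.trans (isConj_iff.2 ⟨k, hk⟩)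
    · exact hx.trans (isConj_iff.2 ⟨k, hk⟩)
  have h6 : IsConj x₀ ((x * y) ^ m) := by
    have := hb _ _ h5 hy (fun h => Tr.ne_one_of_orderOf_two h2 (mul_eq_right.1 h))
      (h4.mul_left (Commute.refl y))
    rwa [mul_assoc, hy2, mul_one] at this
  obtain ⟨-, h7⟩ := ha _ h6
  have hxW : x ∈ Subgroup.closure {w : G | IsConj x₀ w ∧ Commute w ((x * y) ^ m)} :=
    Subgroup.subset_closure ⟨hx, h3.symm⟩
  have hyW : y ∈ Subgroup.closure {w : G | IsConj x₀ w ∧ Commute w ((x * y) ^ m)} :=
    Subgroup.subset_closure ⟨hy, h4.symm⟩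
  have h8 := Subgroup.commutator_mem_commutator (Subgroup.commutator_mem_commutator hxW hyW) hxW
  rw [h7, Subgroup.mem_bot, commutatorElement_eq_one_iff_commute, commutatorElement_def,
    Tr.inv_eq_of_mul_self hx2, Tr.inv_eq_of_mul_self hy2] at h8
  have h9 : x * (x * y * x * y) * x⁻¹ = (x * y * x * y)⁻¹ :=
    Tr.conj_eq_inv_of_mem_zpowers (Tr.conj_mul_eq_inv_left hx2 hy2)
      (by rw [mul_assoc (x * y)]; exact mul_mem (Subgroup.mem_zpowers _) (Subgroup.mem_zpowers _))
  rw [← h8.eq, mul_inv_cancel_right, eq_inv_iff_mul_eq_one] at h9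
  have h10 : orderOf (x * y) ∣ 4 := orderOf_dvd_of_pow_eq_one (by
    rw [← h9]; simp only [pow_succ, pow_zero, one_mul, mul_assoc])
  have h11 := Nat.le_of_dvd (by norm_num) h10
  interval_cases h : orderOf (x * y)
  · exact absurd h10 (by norm_num)
  · rfl

end Cfsg.Agent.S1176
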