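import Cfsg.Statements.S1177
import Cfsg.Agent.Lib.Transfer.Invol

set_option autoImplicit false
open Cfsg

namespace Cfsg.Agent.S1177



/-- Let A be a nontrivial elementary abelian 2-subgroup of a finite group G which is a T.I. set (each conjugate of A meets A trivially or equals A) and which does not commute elementwise with any conjugate of A other than A itself. Then for every a ∈ A, a ≠ 1, every conjugate of A contained in C_G(a) is equal to A (A is weakly closed in C_G(a)). -/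
theorem result {G : Type*} [Group G] [Finite G] (A : Subgroup G) (hA : Cfsg.IsElementaryAbelian 2 A) (hA1 : A ≠ ⊥) (hTI : ∀ g : G, A.map (MulAut.conj g).toMonoidHom ⊓ A = ⊥ ∨ A.map (MulAut.conj g).toMonoidHom = A) (hb : ∀ g : G, (∀ a ∈ A, ∀ b ∈ A.map (MulAut.conj g).toMonoidHom, a * b = b * a) → A.map (MulAut.conj g).toMonoidHom = A) (a : G) (ha : a ∈ A) (ha1 : a ≠ 1) (g : G) (hg : A.map (MulAut.conj g).toMonoidHom ≤ Subgroup.centralizer ({a} : Set G)) : A.map (MulAut.conj g).toMonoidHom = A := by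
  by_contra hne
  change Tr.cj g A ≤ _ at hg
  change ∀ g, Tr.cj g A ⊓ A = ⊥ ∨ Tr.cj g A = A at hTI
  change ∀ g, (∀ a ∈ A, ∀ b ∈ Tr.cj g A, a * b = b * a) → Tr.cj g A = A at hb
  change ¬ Tr.cj g A = A at hne
  have hcomm : ∀ x ∈ A, ∀ y ∈ A, x * y = y * x := fun x hx y hy =>
    congrArg Subtype.val (hA.1.is_comm.comm (⟨x, hx⟩ : A) ⟨y, hy⟩)
  have hsq : ∀ x ∈ A, x * x = 1 := fun x hx => by rw [← pow_two]; exact hA.2 x hx
  -- centralizing a nontrivial element of `A` forces normalizing `A`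
  have hN : ∀ x ∈ A, x ≠ 1 → ∀ c : G, c * x = x * c → c ∈ Subgroup.normalizer (A : Set G) := by
    intro x hx hx1 c hc
    rw [← Tr.cj_eq_iff]
    refine (hTI c).resolve_left fun h => hx1 ?_
    have : x ∈ Tr.cj c A ⊓ A := ⟨Tr.mem_cj'.2 ⟨x, hx, by rw [hc]; group⟩, hx⟩
    rwa [h, Subgroup.mem_bot] at this
  have hBN : Tr.cj g A ≤ Subgroup.normalizer (A : Set G) := fun b hb' =>
    hN a ha ha1 b (Subgroup.mem_centralizer_singleton_iff.1 (hg hb'))
  have hdisj := (hTI g).resolve_right hne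
  -- an element of `A` commuting with a nontrivial element of `B` centralizes `B`
  have hC : ∀ x ∈ A, ∀ b ∈ Tr.cj g A, b ≠ 1 → x * b = b * x →
      x ∈ Subgroup.centralizer (Tr.cj g A : Set G) := by
    intro x hx b hb' hb1 hc
    have h1 : x ∈ Subgroup.normalizer (Tr.cj g A : Set G) := by
      rw [Tr.normalizer_cj, Tr.mem_cj]
      refine hN _ (Tr.mem_cj.1 hb') (fun h => hb1 ?_) _ ?_
      · calc b = g * (g⁻¹ * b * g) * g⁻¹ := by group
          _ = 1 := by rw [h]; group
      · calc g⁻¹ * x * g * (g⁻¹ * b * g) = g⁻¹ * (x * b) * g := by group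
          _ = _ := by rw [hc]; group
    rw [Subgroup.mem_centralizer_iff]
    intro y hy
    have h2 : x * y * x⁻¹ * y⁻¹ ∈ Tr.cj g A ⊓ A := by
      refine ⟨(Tr.cj g A).mul_mem (Tr.conj_mem_of_mem_normalizer h1 hy) (inv_mem hy), ?_⟩
      have := mul_mem hx (Tr.conj_mem_of_mem_normalizer (hBN hy) (inv_mem hx))
      simpa [mul_assoc] using this
    rw [hdisj, Subgroup.mem_bot] at h2
    calc y * x = (x * y * x⁻¹ * y⁻¹) * (y * x) := by rw [h2, one_mul]
      _ = x * y := by group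
  have hex : ∃ x ∈ A, x ∉ Subgroup.centralizer (Tr.cj g A : Set G) := by
    by_contra h
    push Not at h
    exact hne (hb g fun a ha b hb' => (Subgroup.mem_centralizer_iff.1 (h a ha) b hb').symm)
  obtain ⟨x, hx, hxC⟩ := hex
  have hmem : ∀ b ∈ Tr.cj g A, x * b * x⁻¹ * b⁻¹ ∈ A ⊓ Subgroup.centralizer (Tr.cj g A : Set G) := by
    intro b hb'
    have h1 : x * b * x⁻¹ * b⁻¹ ∈ A := by
      have := mul_mem hx (Tr.conj_mem_of_mem_normalizer (hBN hb') (inv_mem hx))
      simpa [mul_assoc] using this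
    refine ⟨h1, ?_⟩
    by_cases hb1 : b = 1
    · subst hb1; simpa using one_mem _
    refine hC _ h1 b hb' hb1 ?_
    have hb2 : b * b = 1 := by
      obtain ⟨a', ha', rfl⟩ := Tr.mem_cj'.1 hb'
      exact Tr.conj_mul_self (hsq a' ha') g
    have h2 := Tr.inv_eq_of_mul_self (hsq _ h1)
    rw [Tr.inv_eq_of_mul_self hb2, Tr.inv_eq_of_mul_self (hsq x hx)] at h2 ⊢
    simp only [mul_inv_rev, Tr.inv_eq_of_mul_self hb2, Tr.inv_eq_of_mul_self (hsq x hx)] at h2
    calc x * b * x * b * b = b * (b * (x * (b * x))) := by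
          rw [mul_assoc, hb2, mul_one, ← mul_assoc b b, hb2, one_mul, mul_assoc]
      _ = _ := by rw [h2]
  let f : Tr.cj g A → (A ⊓ Subgroup.centralizer (Tr.cj g A : Set G) : Subgroup G) :=
    fun b => ⟨_, hmem b b.2⟩
  have hf : Function.Injective f := by
    intro b c h
    have h1 : x * b * x⁻¹ * (b : G)⁻¹ = x * c * x⁻¹ * (c : G)⁻¹ := congrArg Subtype.val h
    by_contra hbc
    refine hxC (hC x hx ((c : G)⁻¹ * b) (mul_mem (inv_mem c.2) b.2) (fun h2 => hbc ?_) ?_)
    · exact Subtype.ext (inv_mul_eq_one.1 h2).symm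
    · have h3 : (b : G) * x⁻¹ * (b : G)⁻¹ = c * x⁻¹ * (c : G)⁻¹ := by
        apply mul_left_cancel (a := x)
        simpa [mul_assoc] using h1
      calc x * ((c : G)⁻¹ * b) = (c : G)⁻¹ * ((c : G) * x⁻¹ * (c : G)⁻¹)⁻¹ * b := by group
        _ = _ := by rw [← h3]; group
  have h1 := Nat.card_le_card_of_injective f hf
  rw [Tr.card_cj] at h1
  have h2 := Subgroup.eq_of_le_of_card_ge (inf_le_left (b := Subgroup.centralizer (Tr.cj g A : Set G))) h1
  rw [← h2] at hx
  exact hxC hx.2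

end Cfsg.Agent.S1177
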