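import Cfsg.Statements.S1178
import Cfsg.Agent.Lib.Transfer.Invol

set_option autoImplicit false
open Cfsg

namespace Cfsg.Agent.S1178



/-- Let A be a subgroup of a Sylow 2-subgroup S of the finite group G which is weakly closed in S. If a conjugate g A g⁻¹ commutes elementwise with A, then g A g⁻¹ = A. -/
theorem result {G : Type*} [Group G] [Finite G] (S : Sylow 2 G) (A : Subgroup G) (hW : Cfsg.IsWeaklyClosed A (S : Subgroup G)) (g : G) (hc : ∀ a ∈ A, ∀ b ∈ A.map (MulAut.conj g).toMonoidHom, a * b = b * a) : A.map (MulAut.conj g).toMonoidHom = A := by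
  have hA : IsPGroup 2 A := S.isPGroup'.to_le hW.1
  have h1 : IsPGroup 2 (A ⊔ Tr.cj g A : Subgroup G) :=
    Tr.isPGroup_sup_of_le_normalizer hA (Tr.isPGroup_cj g hA) fun a ha =>
      Subgroup.centralizer_le_normalizer _ fun b hb => (hc a ha b hb).symm
  obtain ⟨x, -, hx⟩ := (Tr.SylowIn.top S).exists_cj_le h1 le_top
  have h2 : Tr.cj x A = A := hW.2 x ((Tr.cj_mono x le_sup_left).trans hx)
  have h3 : Tr.cj (x * g) A = A := hW.2 (x * g) (by
    have := (Tr.cj_mono x le_sup_right).trans hx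
    rwa [← Tr.cj_mul] at this)
  rw [Tr.cj_mul] at h3
  exact Tr.cj_inj.1 (h3.trans h2.symm)

end Cfsg.Agent.S1178
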