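import Cfsg.Statements.S1181
import Cfsg.Agent.Lib.Transfer.Invol

set_option autoImplicit false
open Cfsg

namespace Cfsg.Agent.S1181



/-- Let z be an isolated involution of the finite group G and N a normal subgroup with z ∉ N. Then the centralizer of zN in G/N is the image of C_G(z), and zN is an isolated involution of G/N. -/
theorem result {G : Type*} [Group G] [Finite G] (z : G) (hz : Cfsg.IsIsolatedInvolution z) (N : Subgroup G) [N.Normal] (hzN : z ∉ N) : Subgroup.centralizer ({(QuotientGroup.mk z : G ⧸ N)} : Set (G ⧸ N)) = (Subgroup.centralizer ({z} : Set G)).map (QuotientGroup.mk' N) ∧ Cfsg.IsIsolatedInvolution (QuotientGroup.mk z : G ⧸ N) := by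
  have h1 : (QuotientGroup.mk' N) z ≠ 1 := by
    rw [QuotientGroup.mk'_apply, Ne, QuotientGroup.eq_one_iff]; exact hzN
  refine ⟨?_, Tr.Iso.map hz (QuotientGroup.mk'_surjective N) h1⟩
  ext y
  obtain ⟨g, rfl⟩ := QuotientGroup.mk_surjective y
  rw [Subgroup.mem_centralizer_singleton_iff]
  constructor
  · intro h
    obtain ⟨k, hk, hc, -, -⟩ := Tr.Iso.exists_mul_centralizer hz g
    have h2 : g * z * g⁻¹ * z ∈ N := by
      rw [← QuotientGroup.eq_one_iff, QuotientGroup.mk_mul, QuotientGroup.mk_mul,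
        QuotientGroup.mk_mul, h, QuotientGroup.mk_inv, mul_inv_cancel_right,
        ← QuotientGroup.mk_mul, Tr.Iso.mul_self hz, QuotientGroup.mk_one]
    refine ⟨k⁻¹ * g, Subgroup.mem_centralizer_singleton_iff.2 hc, ?_⟩
    rw [QuotientGroup.mk'_apply, QuotientGroup.mk_mul,
      (QuotientGroup.eq_one_iff _).2 (inv_mem (Subgroup.zpowers_le.2 h2 hk)), one_mul]
  · rintro ⟨c, hc, e⟩
    rw [← e, QuotientGroup.mk'_apply, ← QuotientGroup.mk_mul, ← QuotientGroup.mk_mul,
      Subgroup.mem_centralizer_singleton_iff.1 hc]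

end Cfsg.Agent.S1181
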