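import Cfsg.Statements.S1183
import Cfsg.Agent.Lib.Transfer.Invol
import Cfsg.Agent.Lib.Transfer.Focal

set_option autoImplicit false
open Cfsg

namespace Cfsg.Agent.S1183



/-- Let z be an isolated involution of the finite group G and C = C_G(z). Then the subgroup of G generated by its elements of odd order is all of G if and only if the subgroup of C generated by its elements of odd order is all of C. -/
theorem result {G : Type*} [Group G] [Finite G] (z : G) (hz : Cfsg.IsIsolatedInvolution z) : Cfsg.pResidual 2 G = ⊤ ↔ Cfsg.pResidual 2 ↥(Subgroup.centralizer ({z} : Set G)) = ⊤ := by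
  obtain ⟨S, hS, hzS, hSC⟩ := Tr.Iso.exists_sylow_le_centralizer hz
  rw [← Tr.pResIn_eq_self_iff]
  constructor
  · intro h
    have h1 : S ≤ ⁅Subgroup.centralizer ({z} : Set G), Subgroup.centralizer ({z} : Set G)⁆ := by
      refine Tr.le_of_fusion_of_pResidual_eq_top hS h fun x hx g hg => ?_
      obtain ⟨c, -, hc, e⟩ := Tr.Iso.exists_centralizer_conj hz (H := ⊤)
        (Subgroup.le_normalizer (Subgroup.mem_top z)) (Subgroup.mem_top g)
      rw [← e x (Subgroup.mem_centralizer_singleton_iff.1 (hSC hx))
        (Subgroup.mem_centralizer_singleton_iff.1 (hSC hg))]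
      exact Subgroup.commutator_mem_commutator (Subgroup.mem_centralizer_singleton_iff.2 hc)
        (hSC hx)
    rw [Tr.pResIn_eq_self_iff, Tr.pResidual_two_eq_top_iff]
    intro N hN
    have hn := Subgroup.normal_of_index_eq_two hN
    have h2 : commutator _ ≤ N := by
      rw [← Subgroup.Normal.quotient_commutative_iff_commutator_le]
      have : IsCyclic (_ ⧸ N) := isCyclic_of_prime_card (p := 2) hN
      infer_instance
    have h3 : S.subgroupOf (Subgroup.centralizer ({z} : Set G)) ≤ N := by
      intro x hx
      have := h1 hx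
      rw [← Subgroup.map_subtype_commutator] at this
      obtain ⟨y, hy, e⟩ := this
      rw [← Subtype.ext e]
      exact h2 hy
    have h4 := (hS.mono hSC le_top).subgroupOf_top.not_dvd_relIndex_of_le h3 le_top
    rw [Subgroup.relIndex_top_right, hN] at h4
    exact h4 dvd_rfl
  · intro h
    rw [eq_top_iff, ← Tr.pResidual_sup_sylow hS, sup_le_iff]
    exact ⟨le_rfl, hSC.trans (h ▸ Tr.pResIn_le_pResidual _)⟩

end Cfsg.Agent.S1183
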