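import Cfsg.Statements.S1184
import Cfsg.Agent.Lib.Transfer.Invol

set_option autoImplicit false
open Cfsg

namespace Cfsg.Agent.S1184



/-- Let z be an isolated involution of the finite group G. If s and t are distinct conjugates of z, then st does not commute with z. -/
theorem result {G : Type*} [Group G] [Finite G] (z : G) (hz : Cfsg.IsIsolatedInvolution z) (g h : G) (hne : g * z * g⁻¹ ≠ h * z * h⁻¹) : ¬ Commute (g * z * g⁻¹ * (h * z * h⁻¹)) z := by
  intro hc
  have hs := Tr.Iso.isConj_conj z g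
  have ht := Tr.Iso.isConj_conj z h
  generalize g * z * g⁻¹ = s at *
  generalize h * z * h⁻¹ = t at *
  have hs2 := Tr.Iso.mul_self (Tr.Iso.of_isConj hz hs)
  have ht2 := Tr.Iso.mul_self (Tr.Iso.of_isConj hz ht)
  have hodd := Tr.Iso.odd_orderOf_mul hz hs ht
  -- `s z` has odd order and inverts `s t`
  have h1 := Tr.Iso.odd_orderOf_mul hz hs (IsConj.refl z)
  have h2 : s * z * (s * t) * (s * z)⁻¹ = (s * t)⁻¹ := by
    rw [← Tr.conj_mul_eq_inv_left hs2 ht2]
    calc s * z * (s * t) * (s * z)⁻¹ = s * (z * (s * t)) * (s * z)⁻¹ := by group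
      _ = _ := by rw [← hc.eq]; group
  have h3 : Commute (s * z * (s * z)) (s * t) := by
    have h4 : s * z * (s * t)⁻¹ * (s * z)⁻¹ = s * t := by rw [← conj_inv, h2, inv_inv]
    calc s * z * (s * z) * (s * t) = s * z * (s * z * (s * t) * (s * z)⁻¹) * (s * z) := by group
      _ = (s * z * (s * t)⁻¹ * (s * z)⁻¹) * (s * z * (s * z)) := by rw [h2]; group
      _ = _ := by rw [h4]
  have h5 := Tr.commute_of_commute_mul_self_of_odd h1 h3
  rw [h5.eq, mul_inv_cancel_right] at h2
  have h6 : s * t = 1 := Tr.eq_one_of_odd_of_mul_self (by nth_rw 1 [h2]; exact inv_mul_cancel _) hodd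
  exact hne (by rw [mul_eq_one_iff_eq_inv, Tr.inv_eq_of_mul_self ht2] at h6; exact h6)

end Cfsg.Agent.S1184
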