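import Cfsg.Statements.S1185
import Cfsg.Agent.Lib.Transfer.Invol

set_option autoImplicit false
open Cfsg

namespace Cfsg.Agent.S1185



/-- Let z be an isolated involution of the finite group G with centralizer C. Then for every g ∈ G there is exactly one element k in the coset gC that has odd order and is inverted by z. -/
theorem result {G : Type*} [Group G] [Finite G] (z : G) (hz : Cfsg.IsIsolatedInvolution z) (g : G) : ∃! k : G, (Odd (orderOf k) ∧ z * k * z⁻¹ = k⁻¹) ∧ g⁻¹ * k ∈ Subgroup.centralizer ({z} : Set G) := by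
  obtain ⟨k, -, hc, ho, hi⟩ := Tr.Iso.exists_mul_centralizer hz g
  have key : ∀ k : G, z * k * z⁻¹ = k⁻¹ → g⁻¹ * k ∈ Subgroup.centralizer ({z} : Set G) →
      k * k * z = g * z * g⁻¹ := by
    intro k hi hc
    rw [← Tr.conj_eq_of_inverts hi]
    rw [Subgroup.mem_centralizer_singleton_iff] at hc
    calc k * z * k⁻¹ = g * (g⁻¹ * k * z) * k⁻¹ := by group
      _ = _ := by rw [hc]; group
  have hk : g⁻¹ * k ∈ Subgroup.centralizer ({z} : Set G) := by
    have := inv_mem (Subgroup.mem_centralizer_singleton_iff.2 hc)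
    simpa using this
  refine ⟨k, ⟨⟨ho, hi⟩, hk⟩, ?_⟩
  rintro k' ⟨⟨ho', hi'⟩, hk'⟩
  exact Tr.eq_of_sq_eq_of_odd ho' ho (mul_right_cancel ((key k' hi' hk').trans (key k hi hk).symm))

end Cfsg.Agent.S1185
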