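import Cfsg.Statements.S1186
import Cfsg.Agent.Lib.Transfer.Invol

set_option autoImplicit false
open Cfsg

namespace Cfsg.Agent.S1186

open Subgroup

theorem card_eq {G : Type*} [Group G] [Finite G] {z : G} (hz : Cfsg.IsIsolatedInvolution z)
    (a : G) (ha : Commute a z) :
    Nat.card {k : G // Odd (orderOf k) ∧ z * k * z⁻¹ = k⁻¹ ∧ Commute k a} =
      Nat.card {t : G // IsConj z t ∧ Commute t a} := by
  refine Nat.card_eq_of_bijective (fun k => ⟨k.1 * z * k.1⁻¹, Tr.Iso.isConj_conj z k.1,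
    (k.2.2.2.mul_left ha.symm).mul_left k.2.2.2.inv_left⟩) ⟨?_, ?_⟩
  · rintro ⟨k, ho, hi, hc⟩ ⟨k', ho', hi', hc'⟩ h
    have h1 : k * z * k⁻¹ = k' * z * k'⁻¹ := congrArg Subtype.val h
    rw [Tr.conj_eq_of_inverts hi, Tr.conj_eq_of_inverts hi'] at h1
    exact Subtype.ext (Tr.eq_of_sq_eq_of_odd ho ho' (mul_right_cancel h1))
  · rintro ⟨t, ht, hc⟩
    obtain ⟨k, hk, e⟩ := Tr.Iso.exists_conj hz ht (IsConj.refl z)
    refine ⟨⟨k, Tr.odd_orderOf_of_mem_zpowers (Tr.Iso.odd_orderOf_mul hz ht (IsConj.refl z)) hk,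
      Tr.conj_eq_inv_of_mem_zpowers (Tr.conj_mul_eq_inv_right
        (Tr.Iso.mul_self (Tr.Iso.of_isConj hz ht)) (Tr.Iso.mul_self hz)) hk, ?_⟩, Subtype.ext e⟩
    exact mem_centralizer_singleton_iff.1
      (zpowers_le.2 (mem_centralizer_singleton_iff.2 (hc.mul_left ha.symm)) hk)

theorem card_class {G : Type*} [Group G] [Finite G] (z : G) :
    Nat.card G = Nat.card (centralizer ({z} : Set G)) * Nat.card {t : G // IsConj z t} := by
  rw [← card_mul_index (centralizer ({z} : Set G)), index_eq_card]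
  congr 1
  refine Nat.card_eq_of_bijective (fun q => Quotient.liftOn' q
    (fun g => ⟨g * z * g⁻¹, Tr.Iso.isConj_conj z g⟩) ?_) ⟨?_, ?_⟩
  · intro a b hab
    rw [QuotientGroup.leftRel_apply, mem_centralizer_singleton_iff] at hab
    refine Subtype.ext ?_
    calc a * z * a⁻¹ = a * (z * (a⁻¹ * b)) * b⁻¹ := by group
      _ = b * z * b⁻¹ := by rw [← hab]; group
  · intro q q'
    induction q using Quotient.inductionOn'
    induction q' using Quotient.inductionOn'
    rename_i a b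
    intro h
    have h1 : a * z * a⁻¹ = b * z * b⁻¹ := congrArg Subtype.val h
    refine Quotient.sound' (QuotientGroup.leftRel_apply.2 (mem_centralizer_singleton_iff.2 ?_))
    calc a⁻¹ * b * z = a⁻¹ * (b * z * b⁻¹) * b := by group
      _ = _ := by rw [← h1]; group
  · rintro ⟨t, ht⟩
    obtain ⟨g, rfl⟩ := isConj_iff.1 ht
    exact ⟨Quotient.mk'' g, rfl⟩

/-- For `r ∈ z^G` there is a unique `w ∈ z^G ∩ C(s)` with `r` commuting with `s w`. -/
theorem exists_unique {G : Type*} [Group G] [Finite G] {z : G} (hz : Cfsg.IsIsolatedInvolution z)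
    {s : G} (hs : s * s = 1) {r : G} (hr : IsConj z r) :
    ∃! w : G, IsConj z w ∧ Commute w s ∧ Commute r (s * w) := by
  have hr2 := Tr.Iso.mul_self (Tr.Iso.of_isConj hz hr)
  have key : ∀ w : G, IsConj z w ∧ Commute w s ∧ Commute r (s * w) →
      (s * w) * (s * w) = 1 ∧ ∃ n, Odd n ∧ (s * r) ^ n = s * w := by
    rintro w ⟨hw, h1, h2⟩
    have hw2 := Tr.Iso.mul_self (Tr.Iso.of_isConj hz hw)
    have hu : (s * w) * (s * w) = 1 := by
      calc s * w * (s * w) = s * (w * s) * w := by group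
        _ = (s * s) * (w * w) := by rw [h1.eq]; group
        _ = 1 := by rw [hs, hw2, one_mul]
    refine ⟨hu, orderOf (w * r), Tr.Iso.odd_orderOf_mul hz hw hr, ?_⟩
    have e : s * r = (s * w) * (w * r) := by
      rw [mul_assoc, ← mul_assoc w, hw2, one_mul]
    have hc : Commute (s * w) (w * r) :=
      (h1.symm.mul_left (Commute.refl w)).mul_right h2.symm
    obtain ⟨m, hm⟩ := Tr.Iso.odd_orderOf_mul hz hw hr
    rw [e, hc.mul_pow, pow_orderOf_eq_one, mul_one, hm, pow_succ, pow_mul, pow_two, hu, one_pow,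
      one_mul]
  have uniq : ∀ w w' : G, IsConj z w ∧ Commute w s ∧ Commute r (s * w) →
      IsConj z w' ∧ Commute w' s ∧ Commute r (s * w') → w = w' := by
    intro w w' hw hw'
    obtain ⟨hu, n, ⟨m, hm⟩, e⟩ := key w hw
    obtain ⟨hu', n', ⟨m', hm'⟩, e'⟩ := key w' hw'
    apply mul_left_cancel (a := s)
    calc s * w = (s * w) ^ n' := by rw [hm', pow_succ, pow_mul, pow_two, hu, one_pow, one_mul]
      _ = (s * w') ^ n := by rw [← e, ← e', ← pow_mul, ← pow_mul, mul_comm]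
      _ = s * w' := by rw [hm, pow_succ, pow_mul, pow_two, hu', one_pow, one_mul]
  refine existsUnique_of_exists_of_unique ?_ uniq
  rcases Nat.even_or_odd (orderOf (s * r)) with h | h
  · obtain ⟨m, -, h2, h3, h4⟩ := Tr.exists_central_of_even hs hr2 h
    refine ⟨(s * r) ^ m * s, ?_, h3.mul_left (Commute.refl s), ?_⟩
    · rcases Tr.exists_conj_pow_mul hs hr2 m with ⟨-, k, -, hk⟩ | ⟨⟨j, hj⟩, -⟩
      · exfalso
        have := Tr.Iso.eq_of_commute (Tr.Iso.of_isConj hz hr) (isConj_iff.2 ⟨k, hk⟩)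
          (h4.symm.mul_right (Commute.refl r))
        exact Tr.ne_one_of_orderOf_two h2 (mul_eq_right.1 this)
      · refine hr.trans (isConj_iff.2 ⟨(s * r) ^ (j + 1), ?_⟩)
        rw [Tr.pow_conj_right hs hr2, hj, show 2 * (j + 1) = 2 * j + 1 + 1 by ring, pow_succ,
          mul_assoc, mul_assoc s, hr2, mul_one]
    · rw [h3.eq, ← mul_assoc, hs, one_mul]; exact h4.symm
  · obtain ⟨k, -, hk⟩ := Tr.exists_conj_of_odd hs hr2 h
    exact ⟨s, hr.trans (isConj_iff.2 ⟨k, hk⟩), Commute.refl s, by rw [hs]; exact Commute.one_right r⟩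

/-- Let z be an isolated involution of the finite group G, C = C_G(z), K the set of elements of odd order inverted by z, and s an involution of C. Then |G| = |C| · |C_K(sz)| · |C_K(s)|. -/
theorem result {G : Type*} [Group G] [Finite G] (z : G) (hz : Cfsg.IsIsolatedInvolution z) (s : G) (hs : orderOf s = 2) (hsz : Commute s z) : Nat.card G = Nat.card (Subgroup.centralizer ({z} : Set G)) * Nat.card {k : G // Odd (orderOf k) ∧ z * k * z⁻¹ = k⁻¹ ∧ Commute k (s * z)} * Nat.card {k : G // Odd (orderOf k) ∧ z * k * z⁻¹ = k⁻¹ ∧ Commute k s} := by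
  have hs2 := Tr.mul_self_of_orderOf_two hs
  have hz2 := Tr.Iso.mul_self hz
  rw [card_eq hz (s * z) (hsz.mul_left (Commute.refl z)), card_class z, mul_assoc]
  congr 1
  rw [← Nat.card_prod]
  symm
  refine Nat.card_eq_of_bijective (fun x => ⟨x.2.1 * x.1.1 * x.2.1⁻¹,
    x.1.2.1.trans (Tr.Iso.isConj_conj _ _)⟩) ⟨?_, ?_⟩
  · rintro ⟨⟨t, ht, hc⟩, k, ho, hi, hk⟩ ⟨⟨t', ht', hc'⟩, k', ho', hi', hk'⟩ h
    have h1 : k * t * k⁻¹ = k' * t' * k'⁻¹ := congrArg Subtype.val h
    have key : ∀ t k : G, Commute t (s * z) → Commute k s →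
        IsConj z (k * z * k⁻¹) ∧ Commute (k * z * k⁻¹) s ∧
          Commute (k * t * k⁻¹) (s * (k * z * k⁻¹)) := by
      intro t k hc hk
      refine ⟨Tr.Iso.isConj_conj _ _, (hk.mul_left hsz.symm).mul_left hk.inv_left, ?_⟩
      have e : s * (k * z * k⁻¹) = k * (s * z) * k⁻¹ := by
        rw [← mul_assoc, ← mul_assoc, ← hk.eq]; group
      rw [e]; exact Tr.commute_conj_iff.2 hc
    have h2 := (exists_unique hz hs2 (ht.trans (Tr.Iso.isConj_conj t k))).unique
      (key t k hc hk) (h1 ▸ key t' k' hc' hk')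
    rw [Tr.conj_eq_of_inverts hi, Tr.conj_eq_of_inverts hi'] at h2
    have h3 : k = k' := Tr.eq_of_sq_eq_of_odd ho ho' (mul_right_cancel h2)
    subst h3
    have h4 : t = t' := (MulAut.conj k).injective h1
    subst h4
    rfl
  · rintro ⟨r, hr⟩
    obtain ⟨w, ⟨hw, h1, h2⟩, -⟩ := exists_unique hz hs2 hr
    obtain ⟨k, hk, e⟩ := Tr.Iso.exists_conj hz hw (IsConj.refl z)
    have hks : Commute k s := Subgroup.mem_centralizer_singleton_iff.1 (Subgroup.zpowers_le.2
      (Subgroup.mem_centralizer_singleton_iff.2 (h1.mul_left hsz.symm)) hk)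
    refine ⟨⟨⟨k⁻¹ * r * k⁻¹⁻¹, hr.trans (Tr.Iso.isConj_conj _ _), ?_⟩,
      k, Tr.odd_orderOf_of_mem_zpowers (Tr.Iso.odd_orderOf_mul hz hw (IsConj.refl z)) hk,
      Tr.conj_eq_inv_of_mem_zpowers (Tr.conj_mul_eq_inv_right
        (Tr.Iso.mul_self (Tr.Iso.of_isConj hz hw)) hz2) hk, hks⟩, Subtype.ext ?_⟩
    · have e2 : s * z = k⁻¹ * (s * w) * k⁻¹⁻¹ := by
        rw [← e, ← mul_assoc s, ← mul_assoc s, ← hks.eq]; group
      rw [e2]; exact Tr.commute_conj_iff.2 h2
    · show k * (k⁻¹ * r * k⁻¹⁻¹) * k⁻¹ = r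
      group

end Cfsg.Agent.S1186
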