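import Cfsg.Statements.S1220
import Cfsg.Agent.Lib.BS.Bender

set_option autoImplicit false
open Cfsg

namespace Cfsg.Agent.S1220

/-- Let H be a strongly embedded subgroup of the finite group G. Then either G acts doubly transitively on the cosets of H (H permutes transitively the cosets gH with g ∉ H), or every Sylow 2-subgroup of G is cyclic or generalized quaternion and G = O(G)H. -/
theorem result {G : Type*} [Group G] [Finite G] (H : Subgroup G) (hH : Cfsg.IsStronglyEmbedded H) : (∀ g₁ g₂ : G, g₁ ∉ H → g₂ ∉ H → ∃ h ∈ H, g₂⁻¹ * (h * g₁) ∈ H) ∨ ((∀ S : Sylow 2 G, IsCyclic S ∨ ∃ m : ℕ, 1 ≤ m ∧ Nonempty ((S : Subgroup G) ≃* QuaternionGroup (2 ^ m))) ∧ Cfsg.oddCore G ⊔ H = ⊤) := by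
  exact BS.benderAll.dichotomy hH

end Cfsg.Agent.S1220
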