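import Cfsg.Statements.S1221
import Cfsg.Agent.Lib.BS.Bender

set_option autoImplicit false
open Cfsg

namespace Cfsg.Agent.S1221

/-- Let H be a strongly embedded subgroup of the finite group G. Then O(H) ≤ O(G): the largest normal subgroup of odd order of H lies in the largest normal subgroup of odd order of G. -/
theorem result {G : Type*} [Group G] [Finite G] (H : Subgroup G) (hH : Cfsg.IsStronglyEmbedded H) : (Cfsg.oddCore ↥H).map H.subtype ≤ Cfsg.oddCore G := by
  exact BS.benderAll.core_le hH

end Cfsg.Agent.S1221
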