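import Cfsg.Statements.S1223
import Cfsg.Agent.Lib.BS.Bender

set_option autoImplicit false
open Cfsg

namespace Cfsg.Agent.S1223

/-- Let H be a strongly embedded subgroup of the finite group G containing no nontrivial normal subgroup of G (so G acts faithfully on the cosets of H), u an involution of G outside H, and j ≠ 1 an element of H ∩ uHu⁻¹ with u j u⁻¹ = j⁻¹. Then C_G(j) has odd order. -/
theorem result {G : Type*} [Group G] [Finite G] (H : Subgroup G) (hH : Cfsg.IsStronglyEmbedded H) (hcore : H.normalCore = ⊥) (u : G) (hu : orderOf u = 2) (huH : u ∉ H) (j : G) (hj : j ∈ (H ⊓ H.map (MulAut.conj u).toMonoidHom)) (hj1 : j ≠ 1) (hinv : u * j * u⁻¹ = j⁻¹) : Odd (Nat.card (Subgroup.centralizer ({j} : Set G))) := by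
  exact BS.benderAll.odd_cent hH hcore hu huH hj hj1 hinv

end Cfsg.Agent.S1223
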