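import Cfsg.Statements.S1231
import Cfsg.Agent.Lib.Transfer.StrongEmb

set_option autoImplicit false
open Cfsg

namespace Cfsg.Agent.S1231



/-- Let H be a subgroup of the finite group G, p a prime, k ≥ 1, and P a Sylow p-subgroup of H whose p-rank is at least k. Then N_G(X) ≤ H for every subgroup X of P of p-rank at least k if and only if H ∩ gHg⁻¹ has p-rank less than k for every g ∉ H. -/
theorem result {G : Type*} [Group G] [Finite G] {p : ℕ} [Fact p.Prime] (k : ℕ) (hk : 1 ≤ k) (H : Subgroup G) (P : Sylow p ↥H) (hP : ¬ Cfsg.PRankLE p (k - 1) ↥(P : Subgroup ↥H)) : (∀ X : Subgroup G, X ≤ (P : Subgroup ↥H).map H.subtype → ¬ Cfsg.PRankLE p (k - 1) ↥X → Subgroup.normalizer (X : Set G) ≤ H) ↔ (∀ g : G, g ∉ H → Cfsg.PRankLE p (k - 1) ↥(H ⊓ H.map (MulAut.conj g).toMonoidHom)) := by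
  have hP' := Tr.SylowIn.of_sylow P
  constructor
  · intro h g hg
    -- normalizers of all `p`-subgroups of `H` of large rank lie in `H`
    have h1 : ∀ X : Subgroup G, X ≤ H → IsPGroup p X → ¬ Cfsg.PRankLE p (k - 1) X →
        Subgroup.normalizer (X : Set G) ≤ H := by
      intro X hX hp hr
      obtain ⟨x, hx, hle⟩ := hP'.exists_cj_le hp hX
      have := h _ hle (fun h' => hr (Tr.pRankLE_cj.1 h'))
      rw [Tr.normalizer_cj, Tr.cj_le_iff_le_cj_inv, Tr.cj_eq_of_mem (inv_mem hx)] at this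
      exact this
    by_contra hne
    rw [Tr.pRankLE_iff] at hne
    push Not at hne
    obtain ⟨A, hA, hc, hp, hcard⟩ := hne
    obtain ⟨X, hX, hAX⟩ := Tr.exists_sylowIn_ge (p := p)
      (Tr.isPGroup_iff_forall_mem.2 fun a ha => ⟨1, by rw [pow_one]; exact hp a ha⟩) hA
    have hr : ¬ Cfsg.PRankLE p (k - 1) X := fun h' =>
      absurd (Tr.pRankLE_iff.1 h' A hAX hc hp) (not_le.2 hcard)
    have h2 := h1 X (hX.le.trans inf_le_left) hX.isPGroup hr
    have hX' : Tr.cj g⁻¹ X ≤ H := Tr.le_cj_iff_cj_inv_le.1 (hX.le.trans inf_le_right)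
    have h3 : Subgroup.normalizer (X : Set G) ≤ Tr.cj g H := by
      have := h1 _ hX' (Tr.isPGroup_cj _ hX.isPGroup) (fun h' => hr (Tr.pRankLE_cj.1 h'))
      rw [Tr.normalizer_cj] at this
      exact Tr.le_cj_iff_cj_inv_le.2 this
    have h4 : Tr.SylowIn p X ⊤ := by
      obtain ⟨R, hR, hXR⟩ := Tr.exists_sylowIn_ge hX.isPGroup (le_top : X ≤ ⊤)
      rcases hXR.eq_or_lt with rfl | hlt
      · exact hR
      · have h5 := Tr.lt_normalizer_inf hR.isPGroup hlt
        exact absurd (hX.eq_of_le hR.isPGroup.to_inf_right h5.le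
          (inf_le_left.trans (le_inf h2 h3))) h5.ne'
    obtain ⟨y, hy, e⟩ := (h4.mono (hX.le.trans inf_le_left) le_top).exists_cj_eq
      ((h4.cj_of_mem (Subgroup.mem_top g⁻¹)).mono hX' le_top)
    have h5 : y * g⁻¹ ∈ H := h2 (Tr.cj_eq_iff.1 (by rw [Tr.cj_mul, e]))
    exact hg (by simpa using inv_mem (mul_mem (inv_mem hy) h5))
  · intro h X hX hr n hn
    by_contra hne
    refine hr (Tr.pRankLE_of_le (le_inf (hX.trans hP'.le) ?_) (h n hne))
    rw [← Tr.cj_eq_of_mem_normalizer hn]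
    exact Tr.cj_mono n (hX.trans hP'.le)

end Cfsg.Agent.S1231
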