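import Cfsg.Statements.S1234
import Cfsg.Agent.Lib.TwoGrp.Har5
import Cfsg.Agent.Lib.TwoGrp.QD

set_option autoImplicit false
open Cfsg

namespace Cfsg.Agent.S1234

open Cfsg.Agent.TwoGrp

/-- Let S be a finite 2-group and Q ≤ S a subgroup of order 32 having an elementary abelian subgroup E of order 16 and an involution s ∉ E whose centralizer in E has order 4 (so Q ≅ (Z₂ × Z₂) ≀ Z₂). If C_S(Z(Q)) = Q, then every section of S has 2-rank at most 4. -/
theorem result {S : Type*} [Group S] [Finite S] (hS : IsPGroup 2 S) (Q E : Subgroup S) (hEQ : E ≤ Q) (hE : Cfsg.IsElementaryAbelian 2 E) (hE16 : Nat.card E = 16) (hQ32 : Nat.card Q = 32) (s : S) (hsQ : s ∈ Q) (hsE : s ∉ E) (hs : orderOf s = 2) (hfix : Nat.card ↥(E ⊓ Subgroup.centralizer ({s} : Set S)) = 4) (hC : Subgroup.centralizer (((Subgroup.center Q).map Q.subtype : Subgroup S) : Set S) = Q) : Cfsg.SectionalPRankLE 2 4 S := by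
  have : Fact (IsPGroup 2 S) := ⟨hS⟩
  have hs2 := (orderOf_eq_two_iff'.mp hs).1
  have h1 : lg E = 4 := lg_eq_of_card hE16
  have h2 : lg Q = 5 := lg_eq_of_card hQ32
  have h3 : lg (E ⊓ Subgroup.centralizer {s}) = 2 := lg_eq_of_card hfix
  have hsA : s ∈ Q ⊓ Subgroup.centralizer {s} := ⟨hsQ, mem_C.mpr rfl⟩
  have hE2 : ∀ a ∈ E, a * a = 1 := fun a ha => (sq a).symm.trans (hE.2 a ha)
  refine harada (A := Q ⊓ Subgroup.centralizer {s}) (fun a ha => ?_) ?_ fun x hx => ⟨?_, ?_⟩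
  · by_cases h : a ∈ E
    · exact hE2 a h
    · have := hE2 _ (mul_mem_of_lg hEQ (by omega) hsQ ha.1 hsE h)
      rwa [mul_assoc, ← mul_assoc a, mem_C.mp ha.2, ← mul_assoc, ← mul_assoc, hs2, one_mul] at this
  · have h4 := lg_le_succ (M := E) (K := Q ⊓ Subgroup.centralizer {s})
      fun x hx y hy => mul_mem_of_lg hEQ (by omega) hx.1 hy.1
    rw [← inf_assoc, inf_of_le_left hEQ] at h4
    have h5 := lg_lt' (inf_le_inf_right _ hEQ) hsA fun h => hsE h.1
    omega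
  · rw [← hC]
    rintro _ ⟨y, hy, rfl⟩
    exact (hx y ⟨y.2, mem_C.mpr (congrArg Subtype.val
      (Subgroup.mem_center_iff.mp hy ⟨s, hsQ⟩)).symm⟩).symm
  · exact mem_C.mpr (hx s hsA)

end Cfsg.Agent.S1234
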