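import Cfsg.Statements.S1235
import Cfsg.Agent.Lib.Rank2.HarDB
import Cfsg.Agent.Lib.TwoGrp.Dih
import Cfsg.Agent.Lib.TwoGrp.QD2
import Cfsg.Agent.Lib.Transfer.StrongEmb

set_option autoImplicit false
open Cfsg

namespace Cfsg.Agent.S1235

open Subgroup Cfsg.Agent.TwoGrp Cfsg.Agent.Tr

theorem sec_of_sylow {G : Type*} [Group G] [Finite G] {k : ℕ} (P : Sylow 2 G)
    (h : SectionalPRankLE 2 k P) : SectionalPRankLE 2 k G := by
  intro H N _ A hA hA2
  obtain ⟨Q, hQ⟩ := exists_sylowIn (p := 2) (A.comap (QuotientGroup.mk' N))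
  have h1 := hQ.map (QuotientGroup.mk' N)
  rw [map_comap_eq_self_of_surjective (QuotientGroup.mk'_surjective N)] at h1
  have h2 : A = Q.map (QuotientGroup.mk' N) :=
    h1.eq_of_le (isPGroup_iff_forall_mem.2 fun a ha => ⟨1, by simpa using hA2 a ha⟩) h1.le le_rfl
  obtain ⟨g, hg⟩ := exists_conj_mem P (hQ.2.1.map H.subtype)
  let f : Q →* P := (((MulAut.conj g).toMonoidHom.comp H.subtype).comp Q.subtype).codRestrict _
    fun x => hg _ ⟨x, x.2, rfl⟩
  have hf : Function.Injective f := fun a b e => Subtype.ext (Subtype.ext (by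
    simpa [f] using e))
  let π : Q →* A := ((QuotientGroup.mk' N).comp Q.subtype).codRestrict _
    fun x => h2 ▸ ⟨x, x.2, rfl⟩
  have hπ : Function.Surjective π := fun a => by
    obtain ⟨x, hx, e⟩ := h2.le a.2
    exact ⟨⟨x, hx⟩, Subtype.ext e⟩
  have h3 := (pRankLE_congr (QuotientGroup.quotientKerEquivOfSurjective
    (π.comp (MonoidHom.ofInjective hf).symm.toMonoidHom)
    (hπ.comp (MonoidHom.ofInjective hf).symm.surjective))).1 (h f.range _)
  have := h3 ⊤ inferInstance fun a _ => Subtype.ext (hA2 a a.2)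
  rwa [card_top] at this

section

variable {S : Type*} [Group S] [Finite S] [hS : Fact (IsPGroup 2 S)] {T D B : Subgroup S}
  (hD : D ≤ T) (hBT : B ≤ T) (hc : ∀ a ∈ D, ∀ b ∈ B, a * b = b * a)
  (hi : ∀ a ∈ D, a ∈ B → a = 1) (hm : ∀ t ∈ T, ∃ d ∈ D, ∃ b ∈ B, t = d * b) (hB : IsKleinFour B)
  (hC : ∀ b ∈ B, b ≠ 1 → ∀ x, x * b = b * x → x ∈ T)
include hD hBT hc hi hm hB hC

theorem eq_top {w z : S} (hw : w ∈ D) (hwz : w * w = z) (hz1 : z ≠ 1) (hz2 : z * z = 1)
    (hz : ∀ x ∈ D, (∀ y ∈ D, y * x = x * y) ↔ x = 1 ∨ x = z) : T = ⊤ := by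
  by_contra h
  obtain ⟨y, -, hy, hy'⟩ := exists_normalizer_in (le_top : T ≤ ⊤) (by rwa [top_le_iff])
  obtain ⟨k, h1, h2⟩ := exists_sq_mem hy
  have h3 := pow_mem hy' k
  generalize y ^ k = n at h1 h2 h3
  have hzD : z ∈ D := hwz ▸ mul_mem hw hw
  have hBc : ∀ b ∈ B, ∀ t ∈ T, t * b = b * t := fun b hb t ht => by
    obtain ⟨d, hd, c, hc', rfl⟩ := hm t ht
    rw [mul_assoc, kleinFour_comm hB hc' hb, ← mul_assoc, hc d hd b hb, mul_assoc]
  have hzc : ∀ t ∈ T, t * z = z * t := fun t ht => by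
    obtain ⟨d, hd, c, hc', rfl⟩ := hm t ht
    rw [mul_assoc, ← hc z hzD c hc', ← mul_assoc, (hz z hzD).2 (Or.inr rfl) d hd, mul_assoc]
  have hconj : ∀ c, (∀ t ∈ T, t * c = c * t) → ∀ t ∈ T, t * (n * c * n⁻¹) = n * c * n⁻¹ * t :=
    fun c h t ht => by
      calc _ = n * (n⁻¹ * t * n * c) * n⁻¹ := by group
        _ = _ := by rw [h _ (conj_mem_of_mem_normalizer' h3 ht)]; group
  have hnz : n * z * n⁻¹ = z := by
    obtain ⟨d, hd, b, hb, e⟩ := hm _ (Tr.conj_mem_of_mem_normalizer h3 (hD hw))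
    have e' : n * z * n⁻¹ = d * d := by
      rw [← hwz, ← conj_mul, e, mul_assoc, ← mul_assoc b, ← hc d hd b hb, mul_assoc,
        kleinFour_mul_self hB hb, mul_one]
    refine ((hz _ (e' ▸ mul_mem hd hd)).1 fun y hy => hconj z hzc y (hD hy)).resolve_left ?_
    simpa using hz1
  have key : ∀ b ∈ B, b ≠ 1 → n * b * n⁻¹ = z * b := fun b hb hb1 => by
    obtain ⟨d, hd, c, hc', e⟩ := hm _ (Tr.conj_mem_of_mem_normalizer h3 (hBT hb))
    have hd' := (hz d hd).1 fun y hy => by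
      have := hconj b (hBc b hb) y (hD hy)
      rwa [e, mul_assoc, ← hc y hy c hc', ← mul_assoc, ← mul_assoc, mul_left_inj] at this
    have hnd : n * d * n⁻¹ = d := by
      rcases hd' with rfl | rfl
      · simp
      · exact hnz
    have hd2 : d * d = 1 := by
      rcases hd' with rfl | rfl
      · simp
      · exact hz2
    have hcb : c = b := by
      by_contra hne
      refine h1 (hC (b * c) (mul_mem hb hc') (fun h => hne ?_) n ?_)
      · rw [eq_inv_of_mul_eq_one_right h, inv_eq_of_mul_eq_one_right (kleinFour_mul_self hB hb)]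
      · have e1 : n * (d * c) * n⁻¹ = b := by
          rw [← e]
          calc _ = n * n * b * (n * n)⁻¹ := by group
            _ = b := by rw [hBc b hb _ h2, mul_inv_cancel_right]
        rw [← conj_mul, hnd] at e1
        rw [← mul_inv_eq_iff_eq_mul, ← conj_mul, e, ← e1, hc d hd c hc', mul_assoc c,
          e1, kleinFour_comm hB hc' hb, ← e1]
    subst hcb
    rcases hd' with rfl | rfl
    · exact absurd (hC c hb hb1 n (by rw [← mul_inv_eq_iff_eq_mul, e, one_mul])) h1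
    · exact e
  obtain ⟨a, ha, b, hb, ha1, hb1, hab⟩ := kleinFour_exists hB
  have h4 : a * b ≠ 1 := fun h => hab (by
    rw [eq_inv_of_mul_eq_one_left h, inv_eq_of_mul_eq_one_right (kleinFour_mul_self hB hb)])
  have h5 := key _ (mul_mem ha hb) h4
  rw [← conj_mul, key a ha ha1, key b hb hb1, mul_assoc z, ← mul_assoc a, hzc a (hBT ha),
    mul_assoc z, mul_right_inj, mul_eq_right] at h5
  exact hz1 h5

omit hC hc in
theorem lg_eq : lg T = lg D + 2 := by
  have h1 := lg_add_le hD hBT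
  have h2 : B ⊓ D = ⊥ := eq_bot_iff.2 fun x hx => hi x hx.2 hx.1
  rw [h2, lg_bot, lg_of_isKleinFour hB] at h1
  have h3 := (Solv.forall_mul_iff_relIndex_eq hD).1 hm
  rw [relIndex_eq_lg, relIndex_eq_lg, h2, inf_of_le_left hBT, lg_bot, lg_of_isKleinFour hB] at h3
  have := Nat.pow_right_injective le_rfl h3
  omega

theorem two_group (hD' : (∃ n, Nonempty (Dih D n)) ∨ ∃ n, Nonempty (QD D n)) :
    SectionalPRankLE 2 4 S := by
  have h1 := lg_eq hD hBT hi hm hB
  rcases hD' with ⟨n, ⟨E⟩⟩ | ⟨n, ⟨E⟩⟩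
  · rcases (show n = 1 ∨ 2 ≤ n by have := E.hn; omega) with rfl | hn
    · refine HB.sec ⟨T, B, fun t ht => ?_, by rw [h1, lg_eq_of_card E.card_eq], hBT,
        lg_of_isKleinFour hB, hC⟩
      obtain ⟨d, hd, b, hb, rfl⟩ := hm t ht
      rw [mul_assoc, ← mul_assoc b, ← hc d hd b hb, mul_assoc, kleinFour_mul_self hB hb, mul_one]
      rcases (E.mem_iff d).1 hd with ⟨i, rfl⟩ | ⟨i, rfl⟩
      · rw [E.r_mul_r, show i + i = 0 from (by decide : ∀ j : ZMod (2 ^ 1), j + j = 0) i, E.r_zero]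
      · rw [E.s_mul_s, sub_self, E.r_zero]
    · have h2 := eq_top hD hBT hc hi hm hB hC (E.r_mem (qt n)) (z := E.r (hf n))
        (by rw [E.r_mul_r, ← two_mul, two_mul_qt hn]) (ne_one_of_orderOf_two E.orderOf_z)
        (mul_self_of_orderOf_two E.orderOf_z) fun x hx => ⟨fun h => ?_, ?_⟩
      · refine sec_of_cyclic (x := E.r 1) ?_
        rw [← h2, h1, lg_eq_of_card E.card_eq, lg_eq_of_card (k := n) (by
          rw [Nat.card_zpowers, orderOf_of_hom _ E.r_mul_r E.r_inj, ZMod.addOrderOf_one])]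
      · rcases (E.mem_iff x).1 hx with ⟨i, rfl⟩ | ⟨i, rfl⟩
        · have := h _ (E.s_mem 0)
          rw [E.s_mul_r, E.r_mul_s] at this
          rcases E.eq_of_r_sq (i := i) (by
            rw [E.r_mul_r, show i + i = 0 by linear_combination E.s_inj this, E.r_zero]) with
            rfl | rfl
          · exact Or.inl E.r_zero
          · exact Or.inr rfl
        · have := h _ (E.r_mem (qt n))
          rw [E.s_mul_r, E.r_mul_s] at this
          exact absurd (by linear_combination -E.s_inj this - two_mul_qt hn) E.h0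
      · rintro (rfl | rfl) y hy
        · simp
        · exact mul_inv_eq_iff_eq_mul.1 (E.conj_z hy)
  · have h2 := eq_top hD hBT hc hi hm hB hC (E.r_mem (qt n)) (z := E.r (hf n))
      (by rw [E.r_mul_r, ← two_mul, E.hq]) (ne_one_of_orderOf_two E.orderOf_z)
      (mul_self_of_orderOf_two E.orderOf_z) fun x hx => E.center_iff hx
    refine sec_of_cyclic (x := E.r 1) ?_
    rw [← h2, h1, lg_eq_of_card E.card_eq, lg_eq_of_card (k := n) (by
      rw [Nat.card_zpowers, E.orderOf_r_one])]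

end

/-- Let G be a finite group, x an involution and T ≤ G a Sylow 2-subgroup of C_G(x) (T ≤ C_G(x) with |C_G(x) : T| odd) which is the internal direct product of a subgroup D that is dihedral (of order ≥ 4) or quasi-dihedral and a Klein four-subgroup B. Suppose that for every involution b ∈ B, T ≤ C_G(b) with |C_G(b) : T| odd. Then every section of G has 2-rank at most 4. -/
theorem result {G : Type*} [Group G] [Finite G] (x : G) (hx : orderOf x = 2) (T D B : Subgroup G) (hT : IsPGroup 2 T) (hTx : T ≤ Subgroup.centralizer ({x} : Set G)) (hTxi : Odd (T.relIndex (Subgroup.centralizer ({x} : Set G)))) (hprod : Cfsg.IsInternalDirectProduct D B T) (hD : (∃ m : ℕ, 2 ≤ m ∧ Nonempty (D ≃* DihedralGroup m)) ∨ Cfsg.IsQuasiDihedral D) (hB : IsKleinFour B) (hTb : ∀ b ∈ B, orderOf b = 2 → T ≤ Subgroup.centralizer ({b} : Set G) ∧ Odd (T.relIndex (Subgroup.centralizer ({b} : Set G)))) : Cfsg.SectionalPRankLE 2 4 G := by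
  obtain ⟨P, hP⟩ := hT.exists_le_sylow
  obtain ⟨h1, h2, h3, h4, h5⟩ := hprod
  have : Fact (IsPGroup 2 P) := ⟨P.isPGroup'⟩
  refine sec_of_sylow P (two_group (T := T.subgroupOf P) (D := D.subgroupOf P)
    (B := B.subgroupOf P) (subgroupOf_mono _ h1) (subgroupOf_mono _ h2)
    (fun a ha b hb => Subtype.ext (h3 a ha b hb)) (fun a ha hb => Subtype.ext ?_)
    (fun t ht => ?_) (isKleinFour_of_equiv (subgroupOfEquivOfLe (h2.trans hP)).symm hB)
    (fun b hb hb1 y hy => ?_) ?_)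
  · exact mem_bot.1 (h4 ▸ (⟨ha, hb⟩ : (a : G) ∈ D ⊓ B))
  · obtain ⟨d, hd, b, hb, e⟩ := (mem_sup_of_le_normalizer (fun a ha => centralizer_le_normalizer _
      fun b hb => (h3 a ha b hb).symm)).1 (h5.ge ht)
    exact ⟨⟨d, hP (h1 hd)⟩, hd, ⟨b, hP (h2 hb)⟩, hb, Subtype.ext e.symm⟩
  · obtain ⟨h6, h7⟩ := hTb b hb (orderOf_eq_two (kleinFour_mul_self hB hb)
      fun h => hb1 (Subtype.ext h))
    have h8 : SylowIn 2 T (centralizer {(b : G)}) := ⟨h6, hT, h7.not_two_dvd_nat⟩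
    exact (h8.eq_of_le (P.isPGroup'.to_inf_left (K := centralizer {(b : G)})) (le_inf hP h6)
      inf_le_right).le ⟨y.2, mem_C.2 (congrArg Subtype.val hy)⟩
  · rcases hD with ⟨m, hm, ⟨e⟩⟩ | hD
    · obtain ⟨n, -, ⟨E⟩⟩ := exists_Dih (hT.to_le h1) hm e
      exact Or.inl ⟨n, ⟨E.subtype (h1.trans hP)⟩⟩
    · obtain ⟨n, ⟨E⟩⟩ := exists_QD hD
      exact Or.inr ⟨n, ⟨E.subtype (h1.trans hP)⟩⟩

end Cfsg.Agent.S1235
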