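import Cfsg.Statements.S1236
import Cfsg.Agent.Lib.TwoGrp.Dih
import Cfsg.Agent.Lib.Fit.Core

set_option autoImplicit false
open Cfsg

namespace Cfsg.Agent.S1236

open Cfsg.Agent.TwoGrp

/-- Let R be a finite group, t a central involution of R such that R ⧸ ⟨t⟩ is dihedral (of order ≥ 4) or quasi-dihedral, and A ≤ R an elementary abelian subgroup of order 8 containing t. Then C_R(A) = A. -/
theorem result {R : Type*} [Group R] [Finite R] (t : R) (ht : orderOf t = 2) (htz : t ∈ Subgroup.center R) [(Subgroup.zpowers t).Normal] (hq : (∃ m : ℕ, 2 ≤ m ∧ Nonempty (R ⧸ Subgroup.zpowers t ≃* DihedralGroup m)) ∨ Cfsg.IsQuasiDihedral (R ⧸ Subgroup.zpowers t)) (A : Subgroup R) (hA : Cfsg.IsElementaryAbelian 2 A) (hA8 : Nat.card A = 8) (htA : t ∈ A) : Subgroup.centralizer (A : Set R) = A := by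
  have hcomm : ∀ a ∈ A, ∀ b ∈ A, a * b = b * a := fun a ha b hb =>
    congrArg Subtype.val (hA.1.is_comm.comm ⟨a, ha⟩ ⟨b, hb⟩)
  refine le_antisymm (fun x hx => ?_) fun a ha b hb => hcomm b hb a ha
  have hle : Subgroup.zpowers t ≤ A := by rwa [Subgroup.zpowers_le]
  let π := QuotientGroup.mk' (Subgroup.zpowers t)
  have hT : IsKleinFour (A.map π) := by
    refine isKleinFour_of_card ?_ ?_
    · have := Fit.card_map_mul_card_inf_ker π A
      rw [QuotientGroup.ker_mk', inf_eq_left.mpr hle, Nat.card_zpowers, ht, hA8] at this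
      omega
    · rintro _ ⟨a, ha, rfl⟩
      rw [← map_mul, ← sq, hA.2 a ha, map_one]
  have hx' : ∀ y ∈ A.map π, y * π x = π x * y := by
    rintro _ ⟨a, ha, rfl⟩
    rw [← map_mul, ← map_mul, hx a ha]
  have key : π x ∈ A.map π := by
    rcases hq with ⟨m, hm, ⟨e⟩⟩ | hq
    · have : NeZero m := ⟨by omega⟩
      have := dihedral_four_selfCentralizing (isKleinFour_map hT e.toMonoidHom e.injective)
        (x := e (π x)) (by
          rintro _ ⟨y, hy, rfl⟩
          simp only [MulEquiv.coe_toMonoidHom, ← map_mul, hx' y hy])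
      obtain ⟨y, hy, h⟩ := this
      exact e.injective h ▸ hy
    · obtain ⟨n, ⟨D⟩⟩ := exists_QD_top hq
      obtain ⟨j, hj⟩ := D.four_eq hT le_top
      exact (hj _).mpr (D.comm_s_iff (Subgroup.mem_top _) _ (hx' _ ((hj _).mpr (by simp))))
  have : x ∈ (A.map π).comap π := key
  rwa [Subgroup.comap_map_eq, QuotientGroup.ker_mk', sup_eq_left.mpr hle] at this

end Cfsg.Agent.S1236
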