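import Cfsg.Statements.S1237
import Cfsg.Agent.Lib.TwoGrp.Tri2

set_option autoImplicit false
open Cfsg

namespace Cfsg.Agent.S1237

open Cfsg.Agent.TwoGrp

/-- Let T be a finite 2-group of 2-rank exactly 2 (it has a Klein four-subgroup but no elementary abelian subgroup of order 8) admitting an automorphism φ such that any two involutions of T are carried to one another by a power of φ. Then T ≅ Z_{2^n} × Z_{2^n} for some n ≥ 1, or T is isomorphic to a Sylow 2-subgroup of PSU(3) over the field with 16 elements. -/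
theorem result {T : Type*} [Group T] [Finite T] (hT : IsPGroup 2 T) (h2 : Cfsg.PRankLE 2 2 T) (h1 : ¬ Cfsg.PRankLE 2 1 T) (φ : MulAut T) (htrans : ∀ s t : T, orderOf s = 2 → orderOf t = 2 → ∃ k : ℕ, (φ ^ k) s = t) {F : Type*} [Field F] [Fintype F] (hF : Fintype.card F = 16) (P : Sylow 2 (Cfsg.PSU 3 F 4)) : (∃ n : ℕ, 1 ≤ n ∧ Nonempty (T ≃* Multiplicative (ZMod (2 ^ n) × ZMod (2 ^ n)))) ∨ Nonempty (T ≃* (P : Subgroup (Cfsg.PSU 3 F 4))) := by
  classical
  simp only [PRankLE, not_forall, not_le, pow_one] at h1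
  obtain ⟨A, -, hA2, hA⟩ := h1
  have hnt : Nontrivial T := Finite.one_lt_card_iff_nontrivial.mp
    (lt_of_lt_of_le (by omega) (Subgroup.card_le_card_group A))
  obtain ⟨z, hz1, hz2, hzc⟩ : ∃ z : T, z ≠ 1 ∧ z * z = 1 ∧ ∀ x, x * z = z * x := by
    have := hT.center_nontrivial
    obtain ⟨⟨w, hw⟩, hw1⟩ := exists_ne (1 : Subgroup.center T)
    obtain ⟨k, hk⟩ := hT w
    obtain ⟨j, hj, hj2⟩ := exists_involution_zpowers hk (fun h => hw1 (Subtype.ext h))
    exact ⟨_, hj, hj2, Subgroup.mem_center_iff.mp (pow_mem hw j)⟩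
  have hc : ∀ v : T, v * v = 1 → ∀ x, x * v = v * x := by
    intro v hv x
    by_cases hv1 : v = 1
    · simp [hv1]
    obtain ⟨k, rfl⟩ := htrans z v (orderOf_eq_two_iff'.mpr ⟨hz2, hz1⟩)
      (orderOf_eq_two_iff'.mpr ⟨hv, hv1⟩)
    obtain ⟨y, rfl⟩ := (φ ^ k).surjective x
    rw [← map_mul, hzc, map_mul]
  let V : Subgroup T :=
    { carrier := {x | x * x = 1}
      one_mem' := mul_one 1
      mul_mem' := fun {a b} ha hb => by
        change a * b * (a * b) = 1
        rw [mul_assoc, ← mul_assoc b, hc a ha b, ← mul_assoc, ← mul_assoc, ha, one_mul, hb]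
      inv_mem' := fun {a} ha => by
        change a⁻¹ * a⁻¹ = 1
        rw [← mul_inv_rev, ha, inv_one] }
  have hV4 : Nat.card V = 4 := by
    have h3 : Nat.card V ≤ 2 ^ 2 :=
      h2 V ⟨⟨fun a b => Subtype.ext (hc b b.2 a)⟩⟩ fun a ha => by rw [sq]; exact ha
    have h4 : Nat.card A ≤ Nat.card V :=
      Subgroup.card_le_of_le fun a ha => (sq a).symm.trans (hA2 a ha)
    obtain ⟨k, hk⟩ := (hT.to_subgroup V).exists_card_eq
    rw [hk] at h3 h4 ⊢
    have h5 : k ≤ 2 := (Nat.pow_le_pow_iff_right (by norm_num)).mp h3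
    interval_cases k <;> omega
  have hV : IsKleinFour V := isKleinFour_of_card hV4 fun x hx => hx
  have hφ : ∀ v ∈ V, v ≠ 1 → φ v ≠ v := by
    intro v hv hv1 h
    obtain ⟨w, hw, hw1, hwv⟩ := kleinFour_exists_ne hV v
    obtain ⟨k, hk⟩ := htrans v w (orderOf_eq_two_iff'.mpr ⟨hv, hv1⟩)
      (orderOf_eq_two_iff'.mpr ⟨hw, hw1⟩)
    refine hwv (hk.symm.trans ?_)
    clear hk
    induction k with
    | zero => rfl
    | succ k ih => rw [pow_succ, MulAut.mul_apply, h, ih]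
  obtain ⟨ψ, hψ3, hψ⟩ := exists_aut_three hT hV (fun v hv => hc v hv) (fun x hx => hx) hφ
  let D : Tri T := ⟨hT, V, hV, fun v hv => hc v hv, fun x hx => hx, ψ, fun x => by
    simpa [pow_succ] using congrArg (fun f : MulAut T => f x) hψ3, hψ⟩
  refine D.homocyclic_or.imp_right fun h => ?_
  obtain ⟨K⟩ := exists_F16 hF
  obtain ⟨e⟩ := U64.nonempty_equiv (K := K) (by rw [Nat.card_eq_fintype_card, hF]) P
  obtain ⟨e'⟩ := h.nonempty_equiv (U64.hasU64Coord K)
  exact ⟨e'.trans e⟩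

end Cfsg.Agent.S1237
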