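import Cfsg.Statements.S1238
import Cfsg.Agent.Lib.Rank2.Struct
import Cfsg.Agent.Lib.Fus.Group

set_option autoImplicit false
open Cfsg

namespace Cfsg.Agent.S1238

open Cfsg.Agent.TwoGrp Cfsg.Agent.Tr

/-- Let G be a finite group of 2-rank 2 (a Klein four-subgroup but no elementary abelian subgroup of order 8) which is fusion simple: G has no subgroup of index 2 and no isolated involution. Let S be a Sylow 2-subgroup. Then S is dihedral, quasi-dihedral, wreathed, isomorphic to Z_{2^n} × Z_{2^n} for some n ≥ 2, or isomorphic to a Sylow 2-subgroup of PSU(3) over the field with 16 elements. -/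
theorem result {G : Type*} [Group G] [Finite G] (h2 : Cfsg.PRankLE 2 2 G) (h1 : ¬ Cfsg.PRankLE 2 1 G) (hidx : ∀ H : Subgroup G, H.index ≠ 2) (hiso : ∀ z : G, ¬ Cfsg.IsIsolatedInvolution z) (S : Sylow 2 G) {F : Type*} [Field F] [Fintype F] (hF : Fintype.card F = 16) (P : Sylow 2 (Cfsg.PSU 3 F 4)) : (∃ m : ℕ, 2 ≤ m ∧ Nonempty ((S : Subgroup G) ≃* DihedralGroup m)) ∨ Cfsg.IsQuasiDihedral (S : Subgroup G) ∨ Cfsg.IsWreathed (S : Subgroup G) ∨ (∃ n : ℕ, 2 ≤ n ∧ Nonempty ((S : Subgroup G) ≃* Multiplicative (ZMod (2 ^ n) × ZMod (2 ^ n)))) ∨ Nonempty ((S : Subgroup G) ≃* (P : Subgroup (Cfsg.PSU 3 F 4))) := by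
  have : Fact (Nat.Prime 2) := ⟨Nat.prime_two⟩
  have hne : (S : Subgroup G) ≠ ⊥ := by
    intro h
    simp only [PRankLE, not_forall, not_le, pow_one] at h1
    obtain ⟨A, -, hA2, hA⟩ := h1
    have hA' : IsPGroup 2 A := fun a => ⟨1, Subtype.ext (by simpa using hA2 a a.2)⟩
    obtain ⟨g, hg⟩ := exists_conj_mem S hA'
    have : A = ⊥ := eq_bot_iff.2 fun a ha => by simpa [h] using hg a ha
    rw [this, Subgroup.card_bot] at hA
    omega
  have hr : ¬ PRankAtLeast 2 3 (S : Subgroup G) := by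
    rintro ⟨A, hA1, hA2, hA3⟩
    have := h2 (A.map (S : Subgroup G).subtype) inferInstance (by
      rintro _ ⟨a, ha, rfl⟩
      rw [← map_pow, hA2 a ha, map_one])
    rw [Subgroup.card_map_of_injective (Subgroup.subtype_injective _)] at this
    omega
  have hsat := Fus.group_isSaturated S
  have hZ : (groupFusionSystem (S : Subgroup G)).center = ⊥ := by
    by_contra h
    obtain ⟨⟨x, hx⟩, hx1⟩ := Subgroup.ne_bot_iff_exists_ne_one.1 h
    obtain ⟨k, hk⟩ := S.isPGroup' ⟨x, Fus2.center_le _ hx⟩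
    obtain ⟨j, hj1, hj⟩ := exists_involution_zpowers (z := x) (congrArg Subtype.val hk)
      (fun h => hx1 (Subtype.ext h))
    obtain ⟨z, hz⟩ : ∃ z, z = x ^ j := ⟨_, rfl⟩
    have hzc := (Fus.mem_center_iff S.isPGroup' hsat).1 (pow_mem hx j)
    rw [← hz] at hj hj1 hzc
    have key : ∀ g : G, g * z * g⁻¹ ∈ (S : Subgroup G) → g * z * g⁻¹ = z := by
      intro g hg
      refine hzc.2 _ (Fus.isConjElt_iff.2 ⟨fun y => g * y * g⁻¹, Fus2.M_group_iff.2
        ⟨Subgroup.zpowers_le.2 hzc.1, ?_, g, fun _ _ => rfl⟩, rfl⟩)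
      rintro _ ⟨i, rfl⟩
      simp only [← conj_zpow]
      exact zpow_mem hg i
    refine hiso z ⟨orderOf_eq_two_iff'.2 ⟨hj, hj1⟩, fun g hg => ?_⟩
    have hw : g * z * g⁻¹ * (g * z * g⁻¹) = 1 := by rw [conj_mul, hj]; group
    have hP : IsPGroup 2 (four z (g * z * g⁻¹) hj hw hg.eq) := by
      rintro ⟨a, ha⟩
      refine ⟨1, Subtype.ext ?_⟩
      change a ^ 2 ^ 1 = 1
      rw [pow_one, pow_two]
      rcases mem_four.1 ha with rfl | rfl | rfl | rfl
      · simp
      · exact hj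
      · exact hw
      · rw [mul_assoc, ← mul_assoc (g * z * g⁻¹), ← hg.eq, mul_assoc, hw, mul_one, hj]
    obtain ⟨h, hh⟩ := exists_conj_mem S hP
    have h3 := key h (hh z (mem_four.2 (by simp)))
    have h4 := key (h * g) (by
      have := hh _ (mem_four.2 (Or.inr (Or.inr (Or.inl rfl))))
      rwa [show h * (g * z * g⁻¹) * h⁻¹ = h * g * z * (h * g)⁻¹ by group] at this)
    have h5 : h * (g * z * g⁻¹) * h⁻¹ = h * z * h⁻¹ := by
      rw [h3]; conv_rhs => rw [← h4]
      group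
    simpa using h5
  obtain ⟨V, D, -⟩ := exists_Rk S.isPGroup' hsat hne hr hZ
  rcases D.structure_thm with h | h | h | h | ⟨h, -⟩
  · exact Or.inl h
  · exact Or.inr (Or.inl h)
  · exact Or.inr (Or.inr (Or.inl h))
  · exact Or.inr (Or.inr (Or.inr (Or.inl h)))
  · obtain ⟨L⟩ := exists_F16 hF
    obtain ⟨e⟩ := U64.nonempty_equiv (K := L) (by rw [Nat.card_eq_fintype_card, hF]) P
    obtain ⟨e'⟩ := h.nonempty_equiv (U64.hasU64Coord L)
    exact Or.inr (Or.inr (Or.inr (Or.inr ⟨e'.trans e⟩)))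

end Cfsg.Agent.S1238
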