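import Cfsg.Statements.S1239
import Cfsg.Agent.Lib.Transfer.ZCor
import Cfsg.Agent.Lib.TwoGrp.WrFusion2
import Cfsg.Agent.Lib.TwoGrp.QDFusion

set_option autoImplicit false
open Cfsg

namespace Cfsg.Agent.S1239



/-- Let X be a finite group whose Sylow 2-subgroup S is quasi-dihedral or wreathed, and suppose some involution of S is isolated in X. Then the product of the largest normal odd-order subgroup O(X) with the centre of S is normal in X. -/
theorem result {X : Type*} [Group X] [Finite X] (S : Sylow 2 X) (hS : Cfsg.IsQuasiDihedral (S : Subgroup X) ∨ Cfsg.IsWreathed (S : Subgroup X)) (z : X) (hzS : z ∈ S) (hz : Cfsg.IsIsolatedInvolution z) : (Cfsg.oddCore X ⊔ (Subgroup.center (S : Subgroup X)).map (S : Subgroup X).subtype).Normal := by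
  have hc : ∀ x ∈ (S : Subgroup X), x * z = z * x := fun x hx =>
    (Tr.Iso.commute_of_mem hz S.isPGroup' hzS hx).eq
  refine Tr.normal_sup_of_isolated S (Subgroup.map_subtype_le _) ?_
  rcases hS with hS | hS
  · obtain ⟨n, ⟨D⟩⟩ := TwoGrp.exists_QD hS
    refine D.isolated_center fun h => ?_
    have hz' : z = D.r (TwoGrp.hf n) := by
      rcases D.orderOf_two hzS hz.1 with h | ⟨j, rfl⟩
      · exact h
      · have := hc _ (D.r_mem (TwoGrp.qt n))
        simp only [D.r_mul_s, D.s_mul_r, D.s_inj.eq_iff] at this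
        exact absurd (by linear_combination -this + D.hhq - D.hq) D.h0
    obtain ⟨g, hg⟩ := isConj_iff.1 h.symm
    have := hz.2 g (by rw [hz', hg]; exact (D.z_comm (D.s_mem 0)).symm)
    rw [hz', hg] at this
    exact D.r_ne_s _ _ this.symm
  · obtain ⟨n, ⟨D⟩⟩ := TwoGrp.exists_Wr hS
    rw [D.map_center_eq]
    refine D.isolated_Z fun h => ?_
    have hzZ : z ∈ D.Z := by
      rw [← D.map_center_eq]
      exact ⟨⟨z, hzS⟩, Subgroup.mem_center_iff.2 fun x => Subtype.ext (hc x x.2), rfl⟩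
    have hz' : z = D.r (TwoGrp.hf n) (TwoGrp.hf n) := by
      obtain ⟨e, rfl⟩ := D.mem_Z.1 hzZ
      obtain ⟨h1, h2⟩ := Tr.orderOf_eq_two_iff.1 hz.1
      rw [D.r_mul_r, D.r_eq_one_iff, D.add_self_eq_zero] at h1
      rcases h1.1 with rfl | rfl
      · exact absurd D.r_zero h2
      · rfl
    obtain ⟨g, hg⟩ := isConj_iff.1 h.symm
    have := hz.2 g (by rw [hz', hg]; exact D.U_comm (D.mem_U.2 ⟨_, _, rfl⟩) (D.mem_U.2 ⟨_, _, rfl⟩))
    rw [hz', hg] at this
    exact D.h0 (D.r_inj _ _ _ _ this).2.symm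

end Cfsg.Agent.S1239
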