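import Cfsg.Statements.S1242
import Cfsg.Agent.Lib.Transfer.Invol
import Cfsg.Agent.Lib.Transfer.Focal

set_option autoImplicit false
open Cfsg

namespace Cfsg.Agent.S1242



/-- Let G be a finite group, p a prime and H a subgroup of index prime to p such that any two elements of H of p-power order that are conjugate in G are conjugate in H. Then (O^p(G)·G') ∩ H = O^p(H)·H', where O^p denotes the subgroup generated by the elements of order prime to p. -/
theorem result {G : Type*} [Group G] [Finite G] {p : ℕ} [Fact p.Prime] (H : Subgroup G) (hidx : Nat.Coprime p H.index) (hfus : ∀ g ∈ H, (∃ k : ℕ, orderOf g = p ^ k) → ∀ a : G, a * g * a⁻¹ ∈ H → ∃ h ∈ H, h * g * h⁻¹ = a * g * a⁻¹) : (Cfsg.pResidual p G ⊔ commutator G) ⊓ H = (Cfsg.pResidual p ↥H ⊔ commutator ↥H).map H.subtype := by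
  have hidx' := (Nat.Prime.coprime_iff_not_dvd (Fact.out : p.Prime)).1 hidx
  rw [Subgroup.map_sup, Subgroup.map_subtype_commutator]
  refine le_antisymm ?_ (le_inf (sup_le_sup (Tr.pResIn_le_pResidual H)
    (Subgroup.commutator_mono le_top le_top))
    (sup_le (Tr.pResIn_le H) (Subgroup.commutator_le_self H)))
  rintro x ⟨hx, hxH⟩
  obtain ⟨u, hu, v, hv, ⟨k, hk⟩, hv', e⟩ := Tr.exists_p_part (p := p) x
  have huH : u ∈ H := Subgroup.zpowers_le.2 hxH hu
  rw [e]
  refine mul_mem ?_ (Subgroup.mem_sup_left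
    (Tr.mem_pResIn_of_coprime (Subgroup.zpowers_le.2 hxH hv) hv'))
  by_contra hne
  obtain ⟨N, hN, h1, h2, h3⟩ := Tr.exists_normal_not_mem_of_control (p := p) (H := H)
    (K := Tr.pResIn p H ⊔ ⁅H, H⁆)
    (fun a ha b hb => Subgroup.mem_sup_right (Subgroup.commutator_mem_commutator ha hb))
    hidx' huH hne hk (fun m a h => by
      obtain ⟨c, hc, e⟩ := hfus (u ^ m) (pow_mem huH m) (by
        have : (u ^ m) ^ p ^ k = 1 := by rw [← pow_mul, mul_comm, pow_mul, hk, one_pow]
        obtain ⟨j, -, hj⟩ := (Nat.dvd_prime_pow Fact.out).1 (orderOf_dvd_of_pow_eq_one this)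
        exact ⟨j, hj⟩) a h
      rw [← e]
      exact Subgroup.mem_sup_right (Subgroup.commutator_mem_commutator hc (pow_mem huH m)))
  obtain ⟨j, hj⟩ := Tr.relIndex_pResIn (p := p) H
  have h4 := h3.trans (Subgroup.relIndex_dvd_of_le_left H
    (le_sup_left : Tr.pResIn p H ≤ Tr.pResIn p H ⊔ ⁅H, H⁆))
  rw [hj] at h4
  obtain ⟨i, -, hi⟩ := (Nat.dvd_prime_pow Fact.out).1 h4
  exact h2 ((sup_le (Tr.pResidual_le_of_index hi) h1) (Subgroup.zpowers_le.2 hx hu))

end Cfsg.Agent.S1242
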