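import Cfsg.Statements.S1243
import Cfsg.Agent.Lib.Transfer.Invol

set_option autoImplicit false
open Cfsg

namespace Cfsg.Agent.S1243



/-- Let T be a Sylow p-subgroup of the finite group G and W ≤ T a subgroup weakly closed in T. If d and g d g⁻¹ both centralize W, then g d g⁻¹ = h d h⁻¹ for some h ∈ N_G(W). -/
theorem result {G : Type*} [Group G] [Finite G] {p : ℕ} [Fact p.Prime] (T : Sylow p G) (W : Subgroup G) (hW : Cfsg.IsWeaklyClosed W (T : Subgroup G)) (d g : G) (hd : d ∈ Subgroup.centralizer (W : Set G)) (hgd : g * d * g⁻¹ ∈ Subgroup.centralizer (W : Set G)) : ∃ h ∈ Subgroup.normalizer (W : Set G), h * d * h⁻¹ = g * d * g⁻¹ := by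
  have hWp : IsPGroup p W := T.isPGroup'.to_le hW.1
  have h1 : W ≤ Subgroup.centralizer ({g * d * g⁻¹} : Set G) := fun y hy =>
    Subgroup.mem_centralizer_singleton_iff.2 (Subgroup.mem_centralizer_iff.1 hgd y hy)
  have h2 : Tr.cj g W ≤ Subgroup.centralizer ({g * d * g⁻¹} : Set G) := by
    rw [Tr.centralizer_singleton_conj]
    exact Tr.cj_mono g fun y hy =>
      Subgroup.mem_centralizer_singleton_iff.2 (Subgroup.mem_centralizer_iff.1 hd y hy)
  obtain ⟨P, hP, hWP⟩ := Tr.exists_sylowIn_ge hWp h1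
  obtain ⟨c, hc, hcP⟩ := hP.exists_cj_le (Tr.isPGroup_cj g hWp) h2
  obtain ⟨x, -, hx⟩ := (Tr.SylowIn.top T).exists_cj_le hP.isPGroup le_top
  have h3 : Tr.cj x W = W := hW.2 x ((Tr.cj_mono x hWP).trans hx)
  have h4 : Tr.cj (x * (c * g)) W = W := hW.2 _ (by
    have := (Tr.cj_mono x hcP).trans hx
    rwa [← Tr.cj_mul, ← Tr.cj_mul, mul_assoc] at this)
  rw [Tr.cj_mul] at h4
  refine ⟨c * g, Tr.cj_eq_iff.1 (Tr.cj_inj.1 (h4.trans h3.symm)), ?_⟩
  calc c * g * d * (c * g)⁻¹ = (c * (g * d * g⁻¹)) * c⁻¹ := by group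
    _ = _ := by rw [Subgroup.mem_centralizer_singleton_iff.1 hc]; group

end Cfsg.Agent.S1243
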