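import Cfsg.Statements.S1244
import Cfsg.Agent.Lib.Transfer.Invol
import Cfsg.Agent.Lib.Transfer.Frobenius

set_option autoImplicit false
open Cfsg

namespace Cfsg.Agent.S1244



/-- Let G be a finite group with no subgroup of index 2 whose Sylow 2-subgroup S is commutative, and let R ≤ S be a subgroup whose 2-rank is exactly one less than the 2-rank r of S. Then every involution of S is conjugate, by an element of N_G(S), to an element of R. -/
theorem result {G : Type*} [Group G] [Finite G] (hG : ∀ H : Subgroup G, H.index ≠ 2) (S : Sylow 2 G) (hS : IsMulCommutative (S : Subgroup G)) (r : ℕ) (hr1 : 1 ≤ r) (hSr : Cfsg.PRankLE 2 r (S : Subgroup G) ∧ ¬ Cfsg.PRankLE 2 (r - 1) (S : Subgroup G)) (R : Subgroup G) (hRS : R ≤ S) (hRr : Cfsg.PRankLE 2 (r - 1) R ∧ (r = 1 ∨ ¬ Cfsg.PRankLE 2 (r - 2) R)) (t : G) (ht : orderOf t = 2) (htS : t ∈ S) : ∃ n ∈ Subgroup.normalizer ((S : Subgroup G) : Set G), n * t * n⁻¹ ∈ R := by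
  have hcomm : ∀ x ∈ (S : Subgroup G), ∀ y ∈ (S : Subgroup G), x * y = y * x := fun x hx y hy =>
    congrArg Subtype.val (hS.is_comm.comm (⟨x, hx⟩ : (S : Subgroup G)) ⟨y, hy⟩)
  -- the elements of order dividing two in a subgroup `X` of `S`
  let Ω : ∀ X : Subgroup G, X ≤ S → Subgroup G := fun X hX =>
    { carrier := {x | x ∈ X ∧ x ^ 2 = 1}
      one_mem' := ⟨one_mem _, one_pow _⟩
      mul_mem' := fun {a b} ha hb => ⟨mul_mem ha.1 hb.1, by
        rw [Commute.mul_pow (hcomm a (hX ha.1) b (hX hb.1)), ha.2, hb.2, one_mul]⟩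
      inv_mem' := fun {a} ha => ⟨inv_mem ha.1, by rw [inv_pow, ha.2, inv_one]⟩ }
  have hmem : ∀ X hX x, x ∈ Ω X hX ↔ x ∈ X ∧ x ^ 2 = 1 := fun X hX x => Iff.rfl
  clear_value Ω
  have hΩ : ∀ X hX, Ω X hX ≤ X := fun X hX x hx => ((hmem X hX x).1 hx).1
  have hE : Nat.card (Ω S le_rfl) ≤ 2 ^ r := by
    have := hSr.1 ((Ω S le_rfl).subgroupOf S) inferInstance (fun a ha => Subtype.ext ((hmem _ _ _).1 ha).2)
    rwa [Nat.card_congr (Subgroup.subgroupOfEquivOfLe (hΩ S le_rfl)).toEquiv] at this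
  have hRp : IsPGroup 2 (Ω R hRS) := S.isPGroup'.to_le ((hΩ R hRS).trans hRS)
  have hR1 : 2 ^ (r - 1) ≤ Nat.card (Ω R hRS) := by
    rcases hRr.2 with h | h
    · subst h; exact Nat.card_pos
    · by_contra hlt
      apply h
      intro A _ hA
      obtain ⟨j, hj⟩ := hRp.exists_card_eq
      have h1 : Nat.card A ≤ Nat.card (Ω R hRS) := by
        rw [← Subgroup.card_map_of_injective R.subtype_injective]
        refine Subgroup.card_le_of_le ?_
        rintro _ ⟨a, ha, rfl⟩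
        exact (hmem _ _ _).2 ⟨a.2, congrArg Subtype.val (hA a ha)⟩
      refine h1.trans ?_
      rw [hj] at hlt ⊢
      have := (Nat.pow_lt_pow_iff_right (by norm_num : 1 < 2)).1 (not_le.1 hlt)
      exact Nat.pow_le_pow_right (by norm_num) (by omega)
  have hle : Ω R hRS ≤ Ω S le_rfl := fun x hx => (hmem _ _ _).2 ⟨hRS ((hmem _ _ _).1 hx).1, ((hmem _ _ _).1 hx).2⟩
  by_contra hne
  push Not at hne
  have hne' : ∀ g : G, g * t * g⁻¹ ∈ S → g * t * g⁻¹ ∉ R := by
    intro g hg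
    have hc : (S : Subgroup G) ≤ Subgroup.centralizer (S : Set G) := fun x hx y hy =>
      hcomm y hy x hx
    obtain ⟨n, -, hn, e⟩ := (Tr.SylowIn.top S).exists_normalizer_conj (Subgroup.mem_top g)
      (hc htS) (hc hg)
    rw [← e]; exact hne n hn
  have htR : t ∉ R := by simpa using hne' 1 (by simpa using htS)
  have ht2 := Tr.sq_of_orderOf_two ht
  have hidx : (Ω R hRS).relIndex (Ω S le_rfl) = 2 := by
    have h1 := Tr.card_mul_relIndex hle
    have h2 : (Ω R hRS).relIndex (Ω S le_rfl) ≠ 1 := fun h =>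
      htR (hΩ _ _ (Subgroup.relIndex_eq_one.1 h ((hmem _ _ _).2 ⟨htS, ht2⟩)))
    have h3 : (Ω R hRS).relIndex (Ω S le_rfl) ≠ 0 := Subgroup.index_ne_zero_of_finite
    have h4 : 2 ^ r = 2 ^ (r - 1) * 2 := by rw [← pow_succ]; congr 1; omega
    have h5 : (Ω R hRS).relIndex (Ω S le_rfl) ≤ 2 := by
      by_contra h6
      have : 2 ^ (r - 1) * 3 ≤ Nat.card (Ω R hRS) * (Ω R hRS).relIndex (Ω S le_rfl) :=
        Nat.mul_le_mul hR1 (by omega)
      have h7 : 0 < 2 ^ (r - 1) := by positivity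
      omega
    omega
  have hSi : ¬ 2 ∣ (S : Subgroup G).index := by
    rw [← Subgroup.relIndex_top_right]; exact (Tr.SylowIn.top S).not_dvd
  have h1 : t ∉ commutator G := by
    refine Tr.not_mem_commutator_of_control (p := 2) (H := (S : Subgroup G)) (K := R) (k := 1)
      (fun x hx y hy => by
        rw [hcomm x hx y hy, mul_inv_cancel_right, mul_inv_cancel]; exact one_mem _) hSi htS htR
      (by simpa using ht2) fun m a ha => ?_
    rcases Tr.pow_eq_one_or_self_of_sq ht2 m with h | h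
    · simp [h]
    · rw [h] at ha ⊢
      have ha' : a * t * a⁻¹ ∈ Ω S le_rfl := (hmem _ _ _).2 ⟨ha, by rw [conj_pow, ht2]; simp⟩
      refine hΩ R hRS ((Tr.mul_mem_iff_of_relIndex_two hidx ha' (inv_mem ((hmem _ _ _).2 ⟨htS, ht2⟩))).2 ?_)
      exact iff_of_false (fun h => hne' a ha (hΩ _ _ h)) (fun h => htR (inv_mem_iff.1 (hΩ _ _ h)))
  obtain ⟨N, -, hN⟩ := Tr.exists_normal_index_of_not_mem_commutator (p := 2) (k := 1)
    (by simpa using ht2) h1
  exact hG N hN

end Cfsg.Agent.S1244
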