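import Cfsg.Statements.S1245
import Cfsg.Agent.Lib.GO.Ree2

set_option autoImplicit false
open Cfsg

namespace Cfsg.Agent.S1245

/-- Let G be a non-abelian finite simple group with commutative Sylow 2-subgroups, and t an involution whose centralizer is the internal direct product of ⟨t⟩ and a subgroup E which has a normal subgroup E₀ ≅ PSL(2,F), |F| odd, with C_E(E₀) = 1 (so PSL(2,q) ≤ E ≤ Aut PSL(2,q)). Then C_G(t) is a maximal subgroup of G. -/
theorem result {G : Type*} [Group G] [Finite G] [IsSimpleGroup G] (hna : ¬ IsMulCommutative G) (S : Sylow 2 G) (hS : IsMulCommutative (S : Subgroup G)) (t : G) (ht : orderOf t = 2) (E E₀ : Subgroup G) (hprod : Cfsg.IsInternalDirectProduct (Subgroup.zpowers t) E (Subgroup.centralizer ({t} : Set G))) (hE₀E : E₀ ≤ E) (hE₀n : (E₀.subgroupOf E).Normal) (hE₀ : ∃ (F : Type) (_ : Field F) (_ : Fintype F), Odd (Fintype.card F) ∧ Nonempty (E₀ ≃* Matrix.ProjectiveSpecialLinearGroup (Fin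 2) F)) (hCE : E ⊓ Subgroup.centralizer (E₀ : Set G) = ⊥) : IsCoatom (Subgroup.centralizer ({t} : Set G)) := by
  have : Fact (Nat.Prime 2) := ⟨Nat.prime_two⟩
  obtain ⟨F, _, _, hF, ⟨e⟩⟩ := hE₀
  obtain ⟨-, h1, h2, h3, h4⟩ := hprod
  have tt := Tr.mul_self_of_orderOf_two ht
  have ab : Ree.Ab G := fun T hT x hx y hy => by
    obtain ⟨g, -, hg⟩ := (Tr.SylowIn.top S).exists_cj_le hT le_top
    have := congrArg Subtype.val (hS.is_comm.comm ⟨_, hg (Tr.conj_mem_cj.2 hx)⟩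
      ⟨_, hg (Tr.conj_mem_cj.2 hy)⟩)
    have h : Commute (g * x * g⁻¹) (g * y * g⁻¹) := this
    simpa [mul_assoc] using h.map (MulAut.conj g⁻¹)
  obtain ⟨P, hP, hle⟩ := Tr.exists_sylowIn_ge (ZD.isPGroup_zpowers_sq tt) (le_top)
  have rc : Ree.RC P t E E₀ := by
    refine ⟨ab, hP, hle (Subgroup.mem_zpowers t), ht, h1, fun g hg => ?_, fun h => ?_, hE₀E,
      (Subgroup.normal_subgroupOf_iff_le_normalizer hE₀E).1 hE₀n,
      fun g a b => Subgroup.mem_bot.1 (hCE ▸ ⟨a, b⟩), Ree.PL.of_iso hF e⟩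
    · obtain ⟨a, ha, b, hb, rfl⟩ := (Tr.mem_sup_of_le_normalizer (FT.cent_sub _ |>.trans'
        fun a ha b hb => (h2 a ha b hb).symm)).1 (h4 ▸ hg)
      rcases (ZD.mem_zpowers_sq tt).1 ha with rfl | rfl
      · exact Or.inl (by simpa using hb)
      · exact Or.inr (by rw [← mul_assoc, tt, one_mul]; exact hb)
    · exact Tr.ne_one_of_orderOf_two ht (Subgroup.mem_bot.1 (h3 ▸ ⟨Subgroup.mem_zpowers t, h⟩))
  obtain ⟨a, b, ρ, rd⟩ := rc.exists_rd
  exact rd.coatom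

end Cfsg.Agent.S1245
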