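import Cfsg.Statements.S1247
import Cfsg.Agent.Lib.Transfer.FStar2
import Cfsg.Agent.Lib.Fit.Subnormal

set_option autoImplicit false
open Cfsg

namespace Cfsg.Agent.S1247

open Subgroup Cfsg.Agent.Tr in
theorem normalizer_eq {G : Type*} [Group G] [IsSimpleGroup G] {A : Subgroup G} (hA : IsCoatom A)
    (Y : Subgroup A) [hY : Y.Normal] (h : Y ≠ ⊥) : normalizer (Y.map A.subtype : Set G) = A := by
  have h1 : A ≤ normalizer (Y.map A.subtype : Set G) := by
    rw [← normal_subgroupOf_iff_le_normalizer (map_subtype_le _)]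
    rwa [subgroupOf, comap_map_eq_self_of_injective A.subtype_injective]
  refine (hA.le_iff.1 h1).resolve_left fun e => ?_
  rcases (normalizer_eq_top_iff.1 e).eq_bot_or_eq_top with h2 | h2
  · exact h ((map_eq_bot_iff_of_injective _ A.subtype_injective).1 h2)
  · exact hA.1 (top_le_iff.1 (h2 ▸ map_subtype_le _))

/-- Let G be a non-abelian finite simple group, A a maximal subgroup, F = F*(A) its generalized Fitting subgroup (viewed in G), and S ≤ F a subgroup subnormal in F with C_F(S) ≤ S. Let B be any subgroup of G containing S. Then (a) for every prime q not dividing |F(A)|, O_q(B) ∩ A = 1; and (b) for every prime p dividing |F(A)|, O_p(B) commutes elementwise with the subgroup of F generated by its elements of order prime to p. -/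
theorem result {G : Type*} [Group G] [Finite G] [IsSimpleGroup G] (hna : ¬ IsMulCommutative G) (A : Subgroup G) (hA : IsCoatom A) (S : Subgroup G) (hSF : S ≤ (Cfsg.generalizedFittingSubgroup ↥A).map A.subtype) (hSsn : (S.subgroupOf ((Cfsg.generalizedFittingSubgroup ↥A).map A.subtype)).IsSubnormal) (hSC : (Cfsg.generalizedFittingSubgroup ↥A).map A.subtype ⊓ Subgroup.centralizer (S : Set G) ≤ S) (B : Subgroup G) (hSB : S ≤ B) : (∀ q : ℕ, q.Prime → ¬ q ∣ Nat.card (Cfsg.fittingSubgroup ↥A) → (Cfsg.pCore q ↥B).map B.subtype ⊓ A = ⊥) ∧ (∀ p : ℕ, p.Prime → p ∣ Nat.card (Cfsg.fittingSubgroup ↥A) → ∀ x ∈ (Cfsg.pCore p ↥B).map B.subtype, ∀ y ∈ (Cfsg.pResidual p ↥(Cfsg.generalizedFittingSubgroup ↥A)).map ((Cfsg.generalizedFittingSubgroup ↥A).subtype) , x * (A.subtype y) = (A.subtype y) * x) := by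
  have hSA : S ≤ A := hSF.trans (Subgroup.map_subtype_le _)
  have hF : ((generalizedFittingSubgroup A).map A.subtype).subgroupOf A =
      generalizedFittingSubgroup A := Subgroup.comap_map_eq_self_of_injective A.subtype_injective _
  have hle : S.subgroupOf A ≤ generalizedFittingSubgroup A := hF ▸ Subgroup.comap_mono hSF
  have h : Tr.BL (S.subgroupOf A) := by
    refine ⟨hle, Subgroup.IsSubnormal.trans hle ?_ (Tr.fstar_normal A).isSubnormal, ?_⟩
    · have := Fit.isSubnormal_subgroupOf_subgroupOf (Subgroup.map_subtype_le _) hSsn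
      rwa [hF] at this
    · intro x hx
      exact hSC ⟨Subgroup.mem_map_of_mem _ hx.1, fun y hy =>
        congrArg Subtype.val (hx.2 ⟨y, hSA hy⟩ hy)⟩
  have hn : ∀ p : ℕ, S ≤ Subgroup.normalizer ((pCore p B).map B.subtype : Set G) := fun p =>
    hSB.trans (Subgroup.le_normalizer.trans (Fit.normalizer_le_normalizer_map_char B _))
  have hsub : ∀ R : Subgroup G, S ≤ Subgroup.normalizer (R : Set G) →
      S.subgroupOf A ≤ Subgroup.normalizer (R.subgroupOf A : Set A) := fun R hR =>
    (Subgroup.comap_mono hR).trans (Subgroup.le_normalizer_comap _)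
  refine ⟨fun q hq hd => ?_, fun p hp hd => ?_⟩
  · have : Fact q.Prime := ⟨hq⟩
    have := h.eq_bot hd (Tr.isPGroup_subgroupOf (Fit.isPGroup_map_pCore_subtype B) A)
      (hsub _ (hn q))
    rwa [Subgroup.subgroupOf_eq_bot, disjoint_iff] at this
  have : Fact p.Prime := ⟨hp⟩
  obtain ⟨R, hR⟩ : ∃ R, R = (pCore p B).map B.subtype := ⟨_, rfl⟩
  have hRp : IsPGroup p R := hR ▸ Fit.isPGroup_map_pCore_subtype B
  have hRn : S ≤ Subgroup.normalizer (R : Set G) := hR ▸ hn p
  rw [← hR]
  -- subgroups of `R` inside `A` centralize `O^p(F*(A))`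
  have key : ∀ R₀ : Subgroup G, R₀ ≤ R → R₀ ≤ A → S ≤ Subgroup.normalizer (R₀ : Set G) →
      ∀ x ∈ R₀, ∀ y ∈ Tr.pResIn p (generalizedFittingSubgroup A), x * y = y * x := by
    intro R₀ h1 h2 h3 x hx y hy
    exact (congrArg Subtype.val (h.le_centralizer_pResIn (Tr.isPGroup_subgroupOf (hRp.to_le h1) A)
      (hsub _ h3) (show (⟨x, h2 hx⟩ : A) ∈ _ from hx) y hy)).symm
  have hP : pCore p A ≠ ⊥ := by
    obtain ⟨z, hz⟩ := exists_prime_orderOf_dvd_card' p hd
    intro e
    have := Fit.le_pCore_of_le_fitting hp (Tr.isPGroup_zpowers_of_orderOf_eq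
      ((Subgroup.orderOf_coe z).trans hz)) (Subgroup.zpowers_le.2 z.2)
    rw [e, le_bot_iff, Subgroup.zpowers_eq_bot] at this
    rw [← Subgroup.orderOf_coe, this, orderOf_one] at hz
    exact hp.one_lt.ne hz
  obtain ⟨Z, hZ⟩ : ∃ Z : Subgroup A, Z = pCore p A ⊓ Subgroup.centralizer (pCore p A : Set A) :=
    ⟨_, rfl⟩
  have : Z.Normal := by rw [hZ]; infer_instance
  have hZ1 : Z ≠ ⊥ := hZ ▸ Fit.inf_centralizer_ne_bot (Fit.isPGroup_pCore p A).isNilpotent le_rfl
    Subgroup.le_normalizer hP
  have hZS : Z ≤ S.subgroupOf A := hZ ▸ (inf_le_inf_left _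
    (Subgroup.centralizer_le inf_le_right)).trans h.pCore_inf_centralizer_le
  have hZp : IsPGroup p (Z.map A.subtype) := (hZ ▸ (Fit.isPGroup_pCore p A).to_inf_left).map _
  have hZN := normalizer_eq hA Z hZ1
  have hZS' : Z.map A.subtype ≤ S := Subgroup.map_le_iff_le_comap.2 hZS
  have := Tr.fstar_normal A
  have := Tr.layer_normal A
  obtain ⟨W, hW⟩ : ∃ W : Subgroup A, W = layer A ⊔ (generalizedFittingSubgroup A ⊓
    Subgroup.centralizer (generalizedFittingSubgroup A : Set A)) := ⟨_, rfl⟩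
  have hWn : W.Normal := by rw [hW]; infer_instance
  have hWS : W ≤ S.subgroupOf A := hW ▸ sup_le h.layer_le h.center_le
  have hY : (Tr.pResIn p W).Normal := Subgroup.normalizer_eq_top_iff.1 (top_le_iff.1
    ((Subgroup.normalizer_eq_top_iff.2 hWn).ge.trans (Tr.normalizer_le_normalizer_pResIn W)))
  have hYR : (Tr.pResIn p W).map A.subtype ≤ Subgroup.centralizer (R : Set G) := by
    rw [Subgroup.map_le_iff_le_comap, Tr.pResIn_le_iff]
    intro y hy hc
    have hy' := Tr.mem_pResIn_of_coprime (h.le (hWS hy)) hc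
    refine Tr.mem_centralizer_of_p_times_q hZp hRp (hZS'.trans hRn)
      (by rwa [Subgroup.coe_subtype, Subgroup.orderOf_coe]) ?_ (hRn (hWS hy)) fun x hx => ?_
    · rintro _ ⟨z, hz, rfl⟩
      exact congrArg Subtype.val (Tr.pResIn_fstar_le_centralizer_pCore hy' z (hZ ▸ hz).1)
    · refine key _ inf_le_left (inf_le_right.trans ((Subgroup.centralizer_le_normalizer _).trans
        hZN.le)) (Solv.le_normalizer_inf hRn (Solv.le_normalizer_centralizer
        (hSA.trans hZN.ge))) x hx y hy'
  by_cases hY1 : Tr.pResIn p W = ⊥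
  · have hWp := Tr.isPGroup_of_pResIn_eq_bot hY1
    have : Tr.pResIn p (generalizedFittingSubgroup A) ≤ ⊥ := by
      refine Tr.pResIn_fstar_le (Tr.layer_eq_bot_of_isSolvable ?_).le fun r hr hne => ?_
      · have := (hWp.to_le (hW ▸ le_sup_left : layer A ≤ W)).isNilpotent
        infer_instance
      · have : Fact r.Prime := ⟨hr⟩
        by_contra h1
        refine Fit.inf_centralizer_ne_bot (Fit.isNilpotent_fitting A) (Fit.pCore_le_fitting hr)
          Subgroup.le_normalizer_of_normal (fun e => h1 e.le) ?_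
        rw [← le_bot_iff, ← (IsPGroup.disjoint_of_ne r p hne _ _ (Fit.isPGroup_pCore r A)
          hWp).eq_bot]
        refine le_inf inf_le_left (hW ▸ le_sup_of_le_right (le_inf (inf_le_left.trans
          ((Fit.pCore_le_fitting hr).trans Tr.fitting_le_fstar)) ?_))
        rw [Subgroup.le_centralizer_iff]
        exact sup_le ((Tr.layer_le_centralizer_pCore hr).trans
          (Subgroup.centralizer_le inf_le_left)) (Subgroup.le_centralizer_iff.1 inf_le_right)
    intro x _ y hy
    rw [Subgroup.mem_bot.1 (this hy)]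
    simp
  · exact key R le_rfl ((Subgroup.le_centralizer_iff.1 hYR).trans
      ((Subgroup.centralizer_le_normalizer _).trans (normalizer_eq hA _ hY1).le)) hRn

end Cfsg.Agent.S1247
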