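import Cfsg.Statements.S1253
import Cfsg.Agent.Lib.Transfer.ZCor
import Cfsg.Agent.S1185

set_option autoImplicit false
open Cfsg

namespace Cfsg.Agent.S1253



/-- Let z be an isolated involution of the finite group G with centralizer C, p an odd prime and P a Sylow p-subgroup of G normalized by z. Then P ∩ C has p-power-free index in C (it is a Sylow p-subgroup of C), and |P : C_P(z)| equals the number of elements x ∈ P with z x z⁻¹ = x⁻¹. -/
theorem result {G : Type*} [Group G] [Finite G] (z : G) (hz : Cfsg.IsIsolatedInvolution z) {p : ℕ} [Fact p.Prime] (hp : p ≠ 2) (P : Sylow p G) (hzP : z ∈ Subgroup.normalizer ((P : Subgroup G) : Set G)) : ¬ p ∣ ((P : Subgroup G) ⊓ Subgroup.centralizer ({z} : Set G)).relIndex (Subgroup.centralizer ({z} : Set G)) ∧ ((P : Subgroup G) ⊓ Subgroup.centralizer ({z} : Set G)).relIndex (P : Subgroup G) = Nat.card {x : G // x ∈ P ∧ z * x * z⁻¹ = x⁻¹} := by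
  have hC : Subgroup.centralizer ((Subgroup.zpowers z : Subgroup G) : Set G) =
      Subgroup.centralizer ({z} : Set G) := by
    rw [Subgroup.zpowers_eq_closure, Subgroup.centralizer_closure]
  have hodd : ∀ x ∈ (P : Subgroup G), Odd (orderOf x) := fun x hx => by
    obtain ⟨k, hk⟩ := Tr.isPGroup_iff_forall_mem.1 P.isPGroup' x hx
    exact (((Fact.out : p.Prime).odd_of_ne_two hp).pow).of_dvd_nat (orderOf_dvd_of_pow_eq_one hk)
  constructor
  · have h1 := Solv.IsSylowIn.inf_centralizer (Subgroup.zpowers_le.2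
      (Tr.Iso.mem_normalizer_of_core_le hz (le_sup_left (b := (P : Subgroup G)))))
      (Tr.Iso.coprime_core_sup hz hp P.isPGroup') (Or.inl (Tr.Iso.isSolvable_zpowers z))
      ((Solv.isSylowIn_top P).of_le le_sup_right le_top) (Subgroup.zpowers_le.2 hzP)
    rw [hC] at h1
    refine (h1.trans inf_le_right fun h => ?_).not_dvd
    rw [Subgroup.inf_relIndex_right, (Solv.forall_mul_iff_relIndex_eq le_top).1] at h
    · exact (Solv.isSylowIn_top P).not_dvd
        (h.trans (Subgroup.relIndex_dvd_of_le_left _ le_sup_right))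
    · intro g _
      obtain ⟨k, hk, c, hc, rfl⟩ := ZStar.zstar_factor hz g
      exact ⟨c, hc, c⁻¹ * k * c, Subgroup.mem_sup_left
        (Subgroup.Normal.conj_mem' inferInstance k hk c), by group⟩
  · symm
    refine Nat.card_congr (Equiv.ofBijective (fun k => (QuotientGroup.mk ⟨k.1, k.2.1⟩ :
      (P : Subgroup G) ⧸ ((P : Subgroup G) ⊓ Subgroup.centralizer ({z} : Set G)).subgroupOf P))
      ⟨?_, ?_⟩)
    · rintro ⟨a, ha, ha'⟩ ⟨b, hb, hb'⟩ h
      have h1 := (Subgroup.mem_subgroupOf.1 (QuotientGroup.eq.1 h)).2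
      exact Subtype.ext ((Cfsg.Agent.S1185.result z hz a).unique ⟨⟨hodd a ha, ha'⟩, by simp⟩
        ⟨⟨hodd b hb, hb'⟩, h1⟩)
    · intro q
      obtain ⟨⟨g, hg⟩, rfl⟩ := QuotientGroup.mk_surjective q
      obtain ⟨k, hk, hc, -, hi⟩ := Tr.Iso.exists_mul_centralizer hz g
      have hkP : k ∈ (P : Subgroup G) := by
        refine Subgroup.zpowers_le.2 ?_ hk
        have := mul_mem hg (Tr.conj_mem_of_mem_normalizer hzP (inv_mem hg))
        rw [Tr.inv_eq_of_mul_self (Tr.mul_self_of_orderOf_two hz.1)] at this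
        simpa only [mul_assoc] using this
      refine ⟨⟨k, hkP, hi⟩, QuotientGroup.eq.2 (Subgroup.mem_subgroupOf.2
        (Subgroup.mem_inf.2 ⟨mul_mem (inv_mem hkP) hg, ?_⟩))⟩
      exact Subgroup.mem_centralizer_singleton_iff.2 hc.eq

end Cfsg.Agent.S1253
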