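import Cfsg.Statements.S1254
import Cfsg.Agent.Lib.TwoGrp.Dih

set_option autoImplicit false
open Cfsg

namespace Cfsg.Agent.S1254

open Cfsg.Agent.TwoGrp

/-- Let X be a finite group whose Sylow 2-subgroup S is dihedral (of order at least 4). Then X has a normal 2-complement if and only if, for every Klein four-subgroup U ≤ S, the normalizer N_X(U) is generated by C_X(U) and N_S(U). -/
theorem result {X : Type*} [Group X] [Finite X] (S : Sylow 2 X) (m : ℕ) (hm : 2 ≤ m) (eS : (S : Subgroup X) ≃* DihedralGroup m) : Cfsg.HasNormalPComplement 2 X ↔ ∀ U : Subgroup X, U ≤ S → IsKleinFour U → Subgroup.normalizer (U : Set X) = Subgroup.centralizer (U : Set X) ⊔ ((S : Subgroup X) ⊓ Subgroup.normalizer (U : Set X)) := by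
  obtain ⟨n, rfl, ⟨D⟩⟩ := exists_Dih S.isPGroup' hm eS
  constructor
  · intro h U hU _
    refine le_antisymm (fun g hg => ?_)
      (sup_le (Subgroup.centralizer_le_normalizer _) inf_le_right)
    obtain ⟨s, hs, h1⟩ := exists_conj_of_complement h S g
    have h2 : ∀ a ∈ U, g * a * g⁻¹ = s * a * s⁻¹ := fun a ha =>
      h1 a (hU ha) (hU (conj_mem_of_mem_normalizer hg ha))
    have h3 : s ∈ Subgroup.normalizer (U : Set X) :=
      mem_normalizer_of_conj_mem fun a ha => h2 a ha ▸ conj_mem_of_mem_normalizer hg ha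
    have h4 : s⁻¹ * g ∈ Subgroup.centralizer (U : Set X) :=
      mem_centralizer_iff_conj.mpr fun a ha => by
        calc s⁻¹ * g * a * (s⁻¹ * g)⁻¹ = s⁻¹ * (g * a * g⁻¹) * s := by group
          _ = a := by rw [h2 a ha]; group
    simpa using mul_mem (Subgroup.mem_sup_right (Subgroup.mem_inf.mpr ⟨hs, h3⟩))
      (Subgroup.mem_sup_left h4)
  · intro h
    refine D.hasNormalPComplement fun k x hx hk => ?_
    rw [h _ (D.V_le k) (D.isKleinFour_V k)] at hx
    have h1 : x ∈ Subgroup.centralizer {D.r (hf n)} := by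
      refine (sup_le ?_ fun y hy => ?_ : _ ≤ Subgroup.centralizer {D.r (hf n)}) hx
      · exact Subgroup.centralizer_le (Set.singleton_subset_iff.mpr (D.z_mem_V k))
      · exact Subgroup.mem_centralizer_singleton_iff.mpr
          (mul_inv_eq_iff_eq_mul.mp (D.conj_z hy.1))
    rw [Subgroup.mem_centralizer_singleton_iff.mp h1, mul_inv_cancel_right] at hk
    exact D.r_ne_s _ _ hk

end Cfsg.Agent.S1254
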