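import Cfsg.Statements.S1255
import Cfsg.Agent.Lib.TwoGrp.Dih

set_option autoImplicit false
open Cfsg

namespace Cfsg.Agent.S1255

open Cfsg.Agent.TwoGrp

/-- Let X be a finite group whose Sylow 2-subgroup S is dihedral of order 2m ≥ 4. Then X has no subgroup of index 2 and no isolated involution if and only if either all involutions of X are conjugate, or for every Klein four-subgroup U ≤ S the index |N_X(U) : C_X(U)| equals 3 when |S| = 4 and equals 6 when |S| > 4. -/
theorem result {X : Type*} [Group X] [Finite X] (S : Sylow 2 X) (m : ℕ) (hm : 2 ≤ m) (eS : (S : Subgroup X) ≃* DihedralGroup m) : ((∀ H : Subgroup X, H.index ≠ 2) ∧ (∀ z : X, ¬ Cfsg.IsIsolatedInvolution z)) ↔ ((∀ a b : X, orderOf a = 2 → orderOf b = 2 → IsConj a b) ∨ (∀ U : Subgroup X, U ≤ S → IsKleinFour U → (Subgroup.centralizer (U : Set X)).relIndex (Subgroup.normalizer (U : Set X)) = (if Nat.card S = 4 then 3 else 6))) := by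
  obtain ⟨n, rfl, ⟨D⟩⟩ := exists_Dih S.isPGroup' hm eS
  constructor
  · rintro ⟨h, -⟩
    exact Or.inl fun a b ha hb =>
      (D.isConj_z_of_no_index_two h ha).trans (D.isConj_z_of_no_index_two h hb).symm
  · intro h
    have key : ∀ a b : X, orderOf a = 2 → orderOf b = 2 → IsConj a b := by
      refine h.elim id fun h => ?_
      have h1 : ∀ a : X, orderOf a = 2 → IsConj a (D.r (hf n)) := by
        intro a ha
        rcases D.isConj_of_orderOf_two ha with h2 | ⟨k, h2⟩
        · exact h2
        · obtain ⟨g, -, hg⟩ := (kleinFour_automizer (D.isKleinFour_V k)).2.1 (by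
            rw [h _ (D.V_le k) (D.isKleinFour_V k)]
            split_ifs <;> norm_num) _ (D.s_mem_V k) (by simp) _ (D.z_mem_V k) (by simp [D.h0])
          exact h2.trans (isConj_iff.mpr ⟨g, hg⟩)
      exact fun a b ha hb => (h1 a ha).trans (h1 b hb).symm
    refine ⟨D.no_index_two_of_isConj key, fun z hz => ?_⟩
    obtain ⟨g, hg⟩ := isConj_iff.mp (key _ _ hz.1 D.orderOf_z)
    obtain ⟨c, hc⟩ := isConj_iff.mp (key _ _ hz.1 (D.orderOf_s 0))
    have h1 := hz.2 (g⁻¹ * c) (by
      have h2 : z = g⁻¹ * D.r (hf n) * g := by rw [← hg]; group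
      have h3 : g⁻¹ * c * z * (g⁻¹ * c)⁻¹ = g⁻¹ * D.s 0 * g := by rw [← hc]; group
      have h4 := mul_inv_eq_iff_eq_mul.mp (D.conj_z (D.s_mem 0))
      rw [h3, h2]
      calc _ = g⁻¹ * (D.r (hf n) * D.s 0) * g := by group
        _ = _ := by rw [← h4]; group)
    apply D.r_ne_s (hf n) 0
    rw [← hg, ← hc]
    conv_lhs => rw [← h1]
    group

end Cfsg.Agent.S1255
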