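import Cfsg.Statements.S1256
import Cfsg.Agent.Lib.TwoGrp.Dih

set_option autoImplicit false
open Cfsg

namespace Cfsg.Agent.S1256

open Cfsg.Agent.TwoGrp

/-- Let X be a finite group whose Sylow 2-subgroup S is dihedral of order 2m ≥ 4. If |S| = 4, any two Klein four-subgroups of X are conjugate; if |S| > 4, there are Klein four-subgroups U₁, U₂ of X that are not conjugate, and every Klein four-subgroup of X is conjugate to U₁ or to U₂. -/
theorem result {X : Type*} [Group X] [Finite X] (S : Sylow 2 X) (m : ℕ) (hm : 2 ≤ m) (eS : (S : Subgroup X) ≃* DihedralGroup m) : (Nat.card S = 4 → ∀ U V : Subgroup X, IsKleinFour U → IsKleinFour V → (∃ x : X, U.map (MulAut.conj x).toMonoidHom = V)) ∧ (4 < Nat.card S → ∃ U₁ U₂ : Subgroup X, IsKleinFour U₁ ∧ IsKleinFour U₂ ∧ ¬ (∃ x : X, U₁.map (MulAut.conj x).toMonoidHom = U₂) ∧ ∀ V : Subgroup X, IsKleinFour V → (∃ x : X, V.map (MulAut.conj x).toMonoidHom = U₁) ∨ (∃ x : X, V.map (MulAut.conj x).toMonoidHom = U₂)) :=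 by
  obtain ⟨n, rfl, ⟨D⟩⟩ := exists_Dih S.isPGroup' hm eS
  have hconj : ∀ V : Subgroup X, IsKleinFour V →
      ∃ x k, V.map (MulAut.conj x).toMonoidHom = D.V k := by
    intro V hV
    obtain ⟨x, hx⟩ := exists_conj_mem S (kleinFour_isPGroup hV)
    obtain ⟨k, hk⟩ := D.four_eq (isKleinFour_map hV (MulAut.conj x).toMonoidHom
      (MulAut.conj x).injective) (by rintro _ ⟨y, hy, rfl⟩; exact hx y hy)
    exact ⟨x, k, hk⟩
  have hmul : ∀ (V : Subgroup X) (x y : X),
      (V.map (MulAut.conj x).toMonoidHom).map (MulAut.conj y).toMonoidHom =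
        V.map (MulAut.conj (y * x)).toMonoidHom := by
    intro V x y
    ext z
    simp only [mem_map_conj, mul_inv_rev, mul_assoc]
  constructor
  · intro h U V hU hV
    obtain ⟨x, k, hx⟩ := hconj U hU
    obtain ⟨y, l, hy⟩ := hconj V hV
    have h1 : ∀ k, D.V k = S := fun k => Subgroup.eq_of_le_of_card_ge (D.V_le k)
      (by rw [(D.isKleinFour_V k).card_four]; exact h.le)
    refine ⟨y⁻¹ * x, ?_⟩
    rw [← hmul, hx, h1, ← h1 l, ← hy, hmul]
    ext z
    simp only [mem_map_conj]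
    simp
  · intro h
    have hn : 2 ≤ n := by
      by_contra h2
      have := D.hn
      have h3 := D.card_eq
      obtain rfl : n = 1 := by omega
      exact h.ne' h3
    refine ⟨D.V 0, D.V 1, D.isKleinFour_V 0, D.isKleinFour_V 1,
      fun ⟨x, hx⟩ => D.V_not_conj hn x hx, fun V hV => ?_⟩
    obtain ⟨x, k, hx⟩ := hconj V hV
    rcases par k with ⟨j, rfl⟩ | ⟨j, rfl⟩
    · exact Or.inl ⟨D.r j * x, by rw [← hmul, hx, D.map_conj_V, sub_self]⟩
    · exact Or.inr ⟨D.r j * x, by rw [← hmul, hx, D.map_conj_V, add_sub_cancel_left]⟩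

end Cfsg.Agent.S1256
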