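import Cfsg.Statements.S4955
import Cfsg.Agent.Lib.Ind.Avg

set_option autoImplicit false
open Cfsg

namespace Cfsg.Agent.S4955

open Cfsg.Agent.Char Cfsg.Agent.Ind
open scoped ComplexConjugate

/-- Let X be a finite group with an abelian normal Sylow p-subgroup V (a normal p-subgroup of index prime to p in which any two elements commute), and let G be a complement to V in X. Then for every v in V, writing C for the centralizer of v in G, the number k(X) of conjugacy classes of X satisfies k(X) ≤ (order of C)·(order of V) − ((order of G) − k(G)); the statement is written with the subtracted term moved to the left. In particular, if some v in V is centralized by no nonidentity element of G, then k(X) is at most the order of V. -/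
theorem result {X : Type*} [Group X] [Finite X] (p : ℕ) [Fact p.Prime] (V : Subgroup X) [V.Normal] (hVp : IsPGroup p V) (hidx : ¬ p ∣ V.index) (hab : ∀ a ∈ V, ∀ b ∈ V, a * b = b * a) (G : Subgroup X) (hGV : Subgroup.IsComplement' V G) (v : X) (hv : v ∈ V) : Nat.card (ConjClasses X) + Nat.card G ≤ Nat.card ↥(G ⊓ Subgroup.centralizer ({v} : Set X)) * Nat.card V + Nat.card (ConjClasses G) := by
  classical
  let π : X →* G := hGV.symm.QuotientMulEquiv.toMonoidHom.comp (QuotientGroup.mk' V)
  have hπ : Function.Surjective π :=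
    hGV.symm.QuotientMulEquiv.surjective.comp (QuotientGroup.mk'_surjective V)
  have hπv : π v = 1 := by
    simp only [π, MonoidHom.comp_apply, QuotientGroup.mk'_apply]
    rw [(QuotientGroup.eq_one_iff v).mpr hv, map_one]
  let ι : IrrCharacter G → IrrCharacter X := fun θ =>
    ⟨fun x => (θ : G → ℂ) (π x), isIrr_comp_of_surjective θ.2 π hπ⟩
  have hι : Function.Injective ι := fun a b h => Subtype.ext (funext fun g => by
    obtain ⟨x, rfl⟩ := hπ g
    exact congrFun (congrArg Subtype.val h) x)
  let A : Finset (IrrCharacter X) := Finset.univ.image ι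
  have hA : A.card = Nat.card (ConjClasses G) := by
    rw [Finset.card_image_of_injective _ hι, Finset.card_univ, ← Nat.card_eq_fintype_card,
      card_irr_eq_card_conjClasses]
  have hA2 : ∑ χ ∈ A, ‖(χ : X → ℂ) v‖ ^ 2 = Nat.card G := by
    rw [Finset.sum_image fun a _ b _ h => hι h, ← sum_deg_sq]
    push_cast
    refine Finset.sum_congr rfl fun θ _ => ?_
    simp only [ι, hπv, deg_spec, Complex.norm_natCast]
  obtain ⟨k, hk⟩ := hVp ⟨v, hv⟩
  have hk' : v ^ p ^ k = 1 := by simpa using congrArg Subtype.val hk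
  have hB := card_le_sum_of_gal Aᶜ (fun χ : IrrCharacter X => (χ : X → ℂ) v)
    (fun χ _ => isIntegral_of_isChar (isChar_irr χ) v)
    (fun χ _ => ne_zero_of_not_dvd (p := p) (isGen_of_isIrr χ.2) (n := deg χ)
      (by simp [deg_spec]) (fun h => hidx ((Int.natCast_dvd_natCast.mp h).trans
        (ito χ.2 V hab (deg_spec χ)))) hk')
    (fun τ => by
      refine Finset.prod_equiv (irrGal τ) (fun χ => ?_) (fun χ _ => rfl)
      simp only [A, Finset.mem_compl, Finset.mem_image, Finset.mem_univ, true_and, not_iff_not]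
      constructor
      · rintro ⟨θ, rfl⟩
        exact ⟨irrGal τ θ, rfl⟩
      · rintro ⟨θ, h⟩
        refine ⟨irrGal τ.symm θ, (irrGal τ).injective ?_⟩
        rw [← h]
        ext x
        simp [ι])
  have h1 := sum_irr_mul_conj_of_isConj (IsConj.refl v)
  simp only [Complex.mul_conj, Complex.normSq_eq_norm_sq] at h1
  have h2 : ∑ χ : IrrCharacter X, ‖(χ : X → ℂ) v‖ ^ 2 =
      (Nat.card (Subgroup.centralizer ({v} : Set X)) : ℝ) := by exact_mod_cast h1
  rw [← Finset.sum_add_sum_compl A, hA2] at h2
  have h3 : A.card + Aᶜ.card = Nat.card (ConjClasses X) := by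
    rw [Finset.card_add_card_compl, ← Nat.card_eq_fintype_card, card_irr_eq_card_conjClasses]
  have h4 : Nat.card (Subgroup.centralizer ({v} : Set X)) ≤
      Nat.card ↥(G ⊓ Subgroup.centralizer ({v} : Set X)) * Nat.card V := by
    rw [mul_comm, ← Nat.card_prod]
    refine Nat.card_le_card_of_surjective (fun x => ⟨(x.1 : X) * x.2, Subgroup.mul_mem _
      (Subgroup.mem_centralizer_singleton_iff.mpr (hab _ x.1.2 _ hv)) x.2.2.2⟩) ?_
    rintro ⟨x, hx⟩
    obtain ⟨⟨a, b⟩, hab'⟩ := hGV.2 x
    have hb : (b : X) = (a : X)⁻¹ * x := by rw [← hab']; simp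
    refine ⟨(a, ⟨b, b.2, ?_⟩), Subtype.ext hab'⟩
    rw [hb]
    exact Subgroup.mul_mem _ (Subgroup.inv_mem _
      (Subgroup.mem_centralizer_singleton_iff.mpr (hab _ a.2 _ hv))) hx
  have h5 : ((Aᶜ.card + Nat.card G : ℕ) : ℝ) ≤
      (Nat.card (Subgroup.centralizer ({v} : Set X)) : ℝ) := by
    push_cast; linarith
  have h6 := Nat.cast_le.mp h5
  omega

end Cfsg.Agent.S4955
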