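import Cfsg.Statements.S4957
import Cfsg.Agent.Lib.Trans.Main
import Cfsg.Agent.Lib.Ind.KGood
import Cfsg.Agent.S4956

set_option autoImplicit false
open Cfsg

namespace Cfsg.Agent.S4957

/-- Let X be a finite group and V a normal subgroup of X in which every element has order dividing the prime p, whose index in X is prime to p and which is its own centralizer in X; so V is an elementary abelian normal Sylow p-subgroup, and any complement G to V in X is a group of order prime to p acting faithfully on the vector space V by conjugation (the coprime linear setting of the k(GV) problem). Suppose a complement G to V in X is transitive by conjugation on the nonidentity elements of V. Then X has at most (order of V) conjugacy classes, and if equality holds then G is cyclic (hence, being transitive, a Singer cycle), or V has order 8 and G has order 21 (the nonabelian group of order 21 inside the simple group of order 168), or V has order 9 and G has order 16 (a semidihedral Sylow 2-subgroup of the 2-dimensional general linear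 group over the field with 3 elements). -/
theorem result {X : Type*} [Group X] [Finite X] (p : ℕ) [Fact p.Prime] (V : Subgroup X) [V.Normal] (hVexp : ∀ v ∈ V, v ^ p = 1) (hidx : ¬ p ∣ V.index) (hself : Subgroup.centralizer (V : Set X) = V) (G : Subgroup X) (hGV : Subgroup.IsComplement' V G) (htrans : ∀ v ∈ V, ∀ w ∈ V, v ≠ 1 → w ≠ 1 → ∃ g ∈ G, g * v * g⁻¹ = w) : Nat.card (ConjClasses X) ≤ Nat.card V ∧ (Nat.card (ConjClasses X) = Nat.card V → (IsCyclic G ∨ (Nat.card V = 8 ∧ Nat.card G = 21) ∨ (Nat.card V = 9 ∧ Nat.card G = 16))) := by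
  classical
  have hcomm : ∀ a ∈ V, ∀ b ∈ V, a * b = b * a := fun a ha b hb =>
    (Subgroup.mem_centralizer_iff.1 (hself.ge hb)) a ha
  rcases V.bot_or_exists_ne_one with e | ⟨v, hv, hv1⟩
  · have h1 : V = ⊤ := by
      rw [← hself, e]
      exact Subgroup.centralizer_eq_top_iff_subset.2 (by simp)
    haveI : Subsingleton X := ⟨fun a b => by
      rw [Subgroup.mem_bot.1 (e.le (h1.ge (Subgroup.mem_top a))),
        Subgroup.mem_bot.1 (e.le (h1.ge (Subgroup.mem_top b)))]⟩
    refine ⟨?_, fun _ => Or.inl inferInstance⟩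
    rw [h1, Subgroup.card_top]
    exact Trans.card_conj_le X
  have hG : ¬ p ∣ Nat.card G := hGV.symm.index_eq_card ▸ hidx
  have hn : ∀ h ∈ G, ∀ u ∈ V, h * u * h⁻¹ ∈ V :=
    fun h _ u hu => Subgroup.Normal.conj_mem inferInstance u hu h
  obtain ⟨W, _, _, ρ, e, hadd, he⟩ := Ind.exists_conjRep p V G hcomm hVexp hn
  haveI : Finite W := Finite.of_equiv _ e
  have h0 : ∀ u : V, e u = 0 ↔ (u : X) = 1 := fun u => by
    have : e 1 = 0 := by simpa using hadd 1 1
    rw [← this, e.apply_eq_iff_eq, Subtype.ext_iff, Subgroup.coe_one]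
  have ht : Trans.TS ρ := ⟨hG, fun g hg => Subtype.ext
    (Subgroup.disjoint_def.1 hGV.disjoint (hself.le fun u hu => (mul_inv_eq_iff_eq_mul.1
      (congrArg Subtype.val (e.injective ((he g ⟨u, hu⟩).symm.trans (hg _))))).symm) g.2),
    fun a b ha hb => by
      obtain ⟨a, rfl⟩ := e.surjective a
      obtain ⟨b, rfl⟩ := e.surjective b
      obtain ⟨g, hg, h1⟩ := htrans a a.2 b b.2 (mt (h0 a).2 ha) (mt (h0 b).2 hb)
      exact ⟨⟨g, hg⟩, (he _ a).trans (congrArg e (Subtype.ext h1))⟩⟩
  have h1 := ht.goal (v := e ⟨v, hv⟩) (mt (h0 _).1 hv1)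
  have h2 : Trans.stab ρ (e ⟨v, hv⟩) = (G ⊓ Subgroup.centralizer ({v} : Set X)).subgroupOf G := by
    ext g
    rw [Trans.mem_stab, he, e.apply_eq_iff_eq, Subtype.ext_iff, mul_inv_eq_iff_eq_mul,
      Subgroup.mem_subgroupOf, Subgroup.mem_inf, Subgroup.mem_centralizer_singleton_iff]
    exact (and_iff_right g.2).symm
  obtain ⟨k, hk⟩ := IsPGroup.iff_card.1 (show IsPGroup p V from fun u =>
    ⟨1, Subtype.ext (by simpa using hVexp u u.2)⟩)
  have h3 := S4956.result V hcomm G hGV
    (hk ▸ ((Nat.Prime.coprime_iff_not_dvd Fact.out).2 hG).pow_left k) {1, v}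
    (by simp [hv, V.one_mem]) fun u hu => by
      by_cases h : u = 1
      · exact ⟨1, ⟨by simp, 1, G.one_mem, by simp [h]⟩, fun s ⟨_, g, _, e⟩ => by simp [← e, h]⟩
      · refine ⟨v, ⟨by simp, htrans u hu v hv h hv1⟩, fun s ⟨hs, g, _, e⟩ => ?_⟩
        refine Finset.mem_singleton.1 ((Finset.mem_insert.1 hs).resolve_left fun e' => h ?_)
        simpa using e.trans e'
  rw [Finset.sum_pair hv1.symm, Subgroup.centralizer_eq_top_iff_subset.2 (by simp), inf_top_eq,
    ← Trans.card_conj_congr (Subgroup.subgroupOfEquivOfLe inf_le_left), ← h2] at h3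
  rw [h3, Nat.card_congr e]
  exact h1

end Cfsg.Agent.S4957
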