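import Cfsg.Statements.S4958
import Cfsg.Agent.Lib.Ind.KGood

set_option autoImplicit false
open Cfsg

namespace Cfsg.Agent.S4958

/-- Let X be a finite group and V a normal subgroup of X in which every element has order dividing the prime p, whose index in X is prime to p and which is its own centralizer in X; so V is an elementary abelian normal Sylow p-subgroup, and any complement G to V in X is a group of order prime to p acting faithfully on the vector space V by conjugation (the coprime linear setting of the k(GV) problem). Let G be a complement to V in X and suppose that for some v in V the centralizer of v in G is abelian. Then the number of conjugacy classes of X is at most the order of V (the abelian-stabilizer criterion for the k(GV) problem). -/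
theorem result {X : Type*} [Group X] [Finite X] (p : ℕ) [Fact p.Prime] (V : Subgroup X) [V.Normal] (hVexp : ∀ v ∈ V, v ^ p = 1) (hidx : ¬ p ∣ V.index) (hself : Subgroup.centralizer (V : Set X) = V) (G : Subgroup X) (hGV : Subgroup.IsComplement' V G) (v : X) (hv : v ∈ V) (hab : ∀ a ∈ G ⊓ Subgroup.centralizer ({v} : Set X), ∀ b ∈ G ⊓ Subgroup.centralizer ({v} : Set X), a * b = b * a) : Nat.card (ConjClasses X) ≤ Nat.card V := by
  have hcomm : ∀ a ∈ V, ∀ b ∈ V, a * b = b * a := fun a ha b hb =>
    (Subgroup.mem_centralizer_iff.1 (hself.ge hb)) a ha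
  have hn : ∀ h ∈ G ⊓ Subgroup.centralizer ({v} : Set X), ∀ u ∈ V, h * u * h⁻¹ ∈ V :=
    fun h _ u hu => Subgroup.Normal.conj_mem inferInstance u hu h
  obtain ⟨M, hM⟩ := Cfsg.Agent.Block.exists_isPModular p
  haveI := hM.2.1
  haveI := Cfsg.Agent.Block.charP_res hM
  obtain ⟨W, _, _, ρ, e, -, he⟩ := Cfsg.Agent.Ind.exists_conjRep p V
    (G ⊓ Subgroup.centralizer ({v} : Set X)) hcomm hVexp hn
  haveI : Finite W := Finite.of_equiv _ e
  refine Cfsg.Agent.Ind.knorr_of_hasGood hVexp hidx hcomm hGV hv le_rfl hn (fun h hh hc => ?_)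
    ρ e he (M := M) (Cfsg.Agent.Ind.hasGood_of_comm
      (fun a b => Subtype.ext (hab a a.2 b b.2)) (Cfsg.Agent.Ind.not_dvd_card_stab hidx hGV) ρ)
  have hV : h ∈ V := hself.le (Subgroup.mem_centralizer_iff.2 fun u hu =>
    (mul_inv_eq_iff_eq_mul.1 (hc u hu)).symm)
  exact (Subgroup.disjoint_def.1 hGV.disjoint) hV hh.1

end Cfsg.Agent.S4958
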