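import Cfsg.Statements.S4959
import Cfsg.Agent.Lib.Ind.Weil

set_option autoImplicit false
open Cfsg

namespace Cfsg.Agent.S4959

/-- Let X be a finite group and V a normal subgroup of X in which every element has order dividing the prime p, whose index in X is prime to p and which is its own centralizer in X; so V is an elementary abelian normal Sylow p-subgroup, and any complement G to V in X is a group of order prime to p acting faithfully on the vector space V by conjugation (the coprime linear setting of the k(GV) problem). Let G be a complement to V in X, let v be in V and let H be the centralizer of v in G. Suppose there is a subgroup U of V normalized by H, on which H acts faithfully, and carrying an H-invariant bi-additive pairing β with values in the integers modulo p that is nondegenerate on U (equivalently: the restriction of the module V to H has a faithful self-dual submodule; such a v is called a real vector for G). Then the number of conjugacy classes of X is at most the order of V (the real-vector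 criterion for the k(GV) problem). The pairing is given as a function on X whose relevant values are those on pairs from U. -/
theorem result {X : Type*} [Group X] [Finite X] (p : ℕ) [Fact p.Prime] (V : Subgroup X) [V.Normal] (hVexp : ∀ v ∈ V, v ^ p = 1) (hidx : ¬ p ∣ V.index) (hself : Subgroup.centralizer (V : Set X) = V) (G : Subgroup X) (hGV : Subgroup.IsComplement' V G) (v : X) (hv : v ∈ V) (U : Subgroup X) (hUV : U ≤ V) (hUinv : ∀ h ∈ G, h * v * h⁻¹ = v → ∀ u ∈ U, h * u * h⁻¹ ∈ U) (hUfaith : ∀ h ∈ G, h * v * h⁻¹ = v → (∀ u ∈ U, h * u * h⁻¹ = u) → h = 1) (β : X → X → ZMod p) (hβl : ∀ u ∈ U, ∀ u' ∈ U, ∀ w ∈ U, β (u * u') w = β u w + β u' w) (hβr : ∀ u ∈ U, ∀ w ∈ U, ∀ w' ∈ U, β u (w * w') = β u w + β u w') (hβinv : ∀ h ∈ G, h * v * h⁻¹ = v → ∀ u ∈ U, ∀ w ∈ U, β (h * u * h⁻¹) (h * w * h⁻¹) = β u w) (hβnd : ∀ u ∈ U, (∀ w ∈ U, β u w = 0) → u = 1) : Nat.card (ConjClasses X) ≤ Nat.card V := by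
  have hcomm : ∀ a ∈ V, ∀ b ∈ V, a * b = b * a := fun a ha b hb =>
    (Subgroup.mem_centralizer_iff.1 (hself.ge hb)) a ha
  have hH : ∀ h ∈ G ⊓ Subgroup.centralizer ({v} : Set X), h * v * h⁻¹ = v := fun h hh =>
    mul_inv_eq_iff_eq_mul.2 (Subgroup.mem_centralizer_singleton_iff.1 hh.2)
  have hn : ∀ h ∈ G ⊓ Subgroup.centralizer ({v} : Set X), ∀ u ∈ U, h * u * h⁻¹ ∈ U :=
    fun h hh => hUinv h hh.1 (hH h hh)
  obtain ⟨M, hM⟩ := Cfsg.Agent.Block.exists_isPModular p
  haveI := hM.2.1
  haveI := Cfsg.Agent.Block.charP_res hM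
  obtain ⟨W, _, _, ρ, e, hadd, he⟩ := Cfsg.Agent.Ind.exists_conjRep p U
    (G ⊓ Subgroup.centralizer ({v} : Set X)) (fun a ha b hb => hcomm a (hUV ha) b (hUV hb))
    (fun u hu => hVexp u (hUV hu)) hn
  haveI : Finite W := Finite.of_equiv _ e
  have hs : ∀ x y, e.symm (x + y) = e.symm x * e.symm y := fun x y => by
    rw [Equiv.symm_apply_eq, hadd]; simp
  let B0 : W →+ W →+ ZMod p := AddMonoidHom.mk' (fun x => AddMonoidHom.mk'
    (fun y => β (e.symm x) (e.symm y)) fun y z => by
      rw [hs]; exact hβr _ (e.symm x).2 _ (e.symm y).2 _ (e.symm z).2) fun x y => by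
      ext z
      simp only [AddMonoidHom.mk'_apply, AddMonoidHom.add_apply, hs]
      exact hβl _ (e.symm x).2 _ (e.symm y).2 _ (e.symm z).2
  let B : LinearMap.BilinForm (ZMod p) W :=
    ((AddMonoidHom.toZModLinearMapEquiv p).toAddMonoidHom.comp B0).toZModLinearMap p
  have hB : ∀ x y : U, B (e x) (e y) = β x y := fun x y => by
    show β (e.symm (e x)) (e.symm (e y)) = _
    simp
  refine Cfsg.Agent.Ind.knorr_of_hasGood hVexp hidx hcomm hGV hv hUV hn
    (fun h hh hc => hUfaith h hh.1 (hH h hh) hc)
    ρ e he (M := M) (Cfsg.Agent.Ind.hasGood_of_selfDual ρ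
      (Cfsg.Agent.Ind.not_dvd_card_stab hidx hGV) B (fun h x y => ?_)
      (.ofSeparatingLeft fun x hx => ?_))
  · obtain ⟨x, rfl⟩ := e.surjective x
    obtain ⟨y, rfl⟩ := e.surjective y
    rw [he, he, hB, hB]
    exact hβinv h h.2.1 (hH h h.2) x x.2 y y.2
  · obtain ⟨x, rfl⟩ := e.surjective x
    have : x = 1 := Subtype.ext (hβnd x x.2 fun w hw => (hB x ⟨w, hw⟩).symm.trans (hx _))
    have h1 := hadd 1 1
    rw [mul_one, left_eq_add] at h1
    rw [this, h1]

end Cfsg.Agent.S4959
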