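import Cfsg.Statements.S4964
import Cfsg.Agent.Lib.Cover.Quot

set_option autoImplicit false
open Cfsg

namespace Cfsg.Agent.S4964

/-- Let D be a normal p-subgroup of the finite group G, let D′ be its commutator subgroup (normal in G), and fix a maximal ideal M of the algebraic integers containing p. Then (i) two irreducible characters of G ⧸ D′ lie in the same p-block if and only if their inflations to G do, and (ii) every p-block of G contains the inflation of some irreducible character of G ⧸ D′; so inflation induces a bijection between the p-blocks of G ⧸ D′ and the p-blocks of G. -/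
theorem result {G : Type*} [Group G] [Finite G] (p : ℕ) [Fact p.Prime] (M : Ideal Cfsg.AlgInt) (hM : Cfsg.IsPModular p M) (D : Subgroup G) [D.Normal] (hD : IsPGroup p D) : (∀ χ ψ : Cfsg.IrrCharacter (G ⧸ ⁅D, D⁆), Cfsg.SameBlock M (χ : G ⧸ ⁅D, D⁆ → ℂ) (ψ : G ⧸ ⁅D, D⁆ → ℂ) ↔ Cfsg.SameBlock M ((χ : G ⧸ ⁅D, D⁆ → ℂ) ∘ QuotientGroup.mk) ((ψ : G ⧸ ⁅D, D⁆ → ℂ) ∘ QuotientGroup.mk)) ∧ ∀ B : Set (Cfsg.IrrCharacter G), Cfsg.IsPBlock M B → ∃ χ : Cfsg.IrrCharacter (G ⧸ ⁅D, D⁆), ∃ θ ∈ B, (θ : G → ℂ) = (χ : G ⧸ ⁅D, D⁆ → ℂ) ∘ QuotientGroup.mk := by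
  haveI := hM.2.1
  haveI := Block.charP_res hM
  have hf := QuotientGroup.mk'_surjective ⁅D, D⁆
  have hle : ⁅D, D⁆ ≤ D := Subgroup.commutator_le_left D D
  have hk : IsPGroup p (QuotientGroup.mk' ⁅D, D⁆).ker := by
    rw [QuotientGroup.ker_mk']
    exact hD.to_le hle
  refine ⟨fun χ ψ => ⟨fun h => Cover.sameBlock_infl _ hf h, fun h => ?_⟩, fun B hB => ?_⟩
  · refine Cover.sameBlock_of_infl_of_lift p _ hf
      {g | ¬ p ∣ orderOf g ∧ g ∈ Subgroup.centralizer (D : Set G)}
      (fun h g => by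
        simp only [Set.mem_ofPred_eq, Block.orderOf_conj]
        rw [Block.conj_mem_centralizer_iff (by rw [Subgroup.normalizer_eq_top]; trivial)])
      ?_ ?_ h
    · intro x hx y hy hxy
      refine Cover.eq_of_regular_of_centralizer _ hk hx.1 hy.1 ?_ hxy
      rw [QuotientGroup.ker_mk']
      exact Subgroup.centralizer_le hle hy.2
    · intro x hx
      have hS := Block.idem_blockOf_mem_SG (M := M) p χ
      by_cases h : p ∣ orderOf x
      · rw [Block.blockCoeff_eq_zero_of_dvd (p := p) hS h]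
        exact (Block.locIdeal M).zero_mem
      · obtain ⟨g, hg, rfl⟩ := Cover.exists_regular_lift _ hf h
        haveI : (D.map (QuotientGroup.mk' ⁅D, D⁆)).Normal := Subgroup.Normal.map inferInstance _ hf
        refine Cover.blockCoeff_mem_of_notMem_centralizer p (hD.map (QuotientGroup.mk' ⁅D, D⁆)) hS
          fun hc => hx ⟨g, ⟨hg, Cover.mem_centralizer_of_commutator hD hg fun d hd => ?_⟩, rfl⟩
        have := Subgroup.mem_centralizer_iff.1 hc _ (Subgroup.mem_map_of_mem _ hd)
        rw [← QuotientGroup.eq_one_iff]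
        simp only [QuotientGroup.mk'_apply] at this
        simp only [QuotientGroup.mk_mul, QuotientGroup.mk_inv]
        rw [← this]
        group
  · obtain ⟨χ, hχ⟩ := Cover.exists_infl_mem p _ hf hk hB
    exact ⟨χ, _, hχ, rfl⟩

end Cfsg.Agent.S4964
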