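import Cfsg.Statements.S4965
import Cfsg.Agent.Lib.Ind.Basic

set_option autoImplicit false
open Cfsg

namespace Cfsg.Agent.S4965

/-- Let X be a finite group with an abelian normal subgroup V (any two elements of V commute), and let φ be the action of X ⧸ V on V induced by conjugation (well defined because V is abelian; the hypothesis hφ says that the class of x acts as conjugation by x). Then X has at most as many conjugacy classes as the semidirect product of V by X ⧸ V formed with this action: the split extension has the largest class number among extensions with the given action. -/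
theorem result {X : Type*} [Group X] [Finite X] (V : Subgroup X) [V.Normal] (hab : ∀ a ∈ V, ∀ b ∈ V, a * b = b * a) (φ : X ⧸ V →* MulAut ↥V) (hφ : ∀ (x : X) (v : ↥V), ((φ (QuotientGroup.mk x) v : ↥V) : X) = x * v * x⁻¹) : Nat.card (ConjClasses X) ≤ Nat.card (ConjClasses (SemidirectProduct ↥V (X ⧸ V) φ)) := by
  classical
  have hfin : Finite (SemidirectProduct ↥V (X ⧸ V) φ) :=
    Finite.of_equiv _ SemidirectProduct.equivProd.symm
  have hcard : Nat.card (SemidirectProduct ↥V (X ⧸ V) φ) = Nat.card X := by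
    rw [Nat.card_congr SemidirectProduct.equivProd, Nat.card_prod, mul_comm,
      ← Subgroup.card_eq_card_quotient_mul_card_subgroup]
  have hex : ∀ q : (X ⧸ V) × (X ⧸ V), ∃ b : X × X, ∀ x y : X, Commute x y →
      q = ((x : X ⧸ V), (y : X ⧸ V)) → Commute b.1 b.2 ∧ q = ((b.1 : X ⧸ V), (b.2 : X ⧸ V)) := by
    intro q
    by_cases h : ∃ x y : X, Commute x y ∧ q = ((x : X ⧸ V), (y : X ⧸ V))
    · obtain ⟨x, y, h1, h2⟩ := h
      exact ⟨(x, y), fun _ _ _ _ => ⟨h1, h2⟩⟩
    · exact ⟨(1, 1), fun x y h1 h2 => (h ⟨x, y, h1, h2⟩).elim⟩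
  choose b hb using hex
  have hmem : ∀ x y : X, (x : X ⧸ V) = y → x * y⁻¹ ∈ V := fun x y h => by
    rw [← QuotientGroup.eq_one_iff, QuotientGroup.mk_mul, QuotientGroup.mk_inv, h, mul_inv_cancel]
  have h1 : ∀ t : {p : X × X // Commute p.1 p.2}, t.1.1 * (b (t.1.1, t.1.2)).1⁻¹ ∈ V := fun t =>
    hmem _ _ (congrArg Prod.fst (hb _ _ _ t.2 rfl).2)
  have h2 : ∀ t : {p : X × X // Commute p.1 p.2}, t.1.2 * (b (t.1.1, t.1.2)).2⁻¹ ∈ V := fun t =>
    hmem _ _ (congrArg Prod.snd (hb _ _ _ t.2 rfl).2)
  let F : {p : X × X // Commute p.1 p.2} → {p : SemidirectProduct ↥V (X ⧸ V) φ ×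
      SemidirectProduct ↥V (X ⧸ V) φ // Commute p.1 p.2} := fun t =>
    ⟨(⟨⟨_, h1 t⟩, t.1.1⟩, ⟨⟨_, h2 t⟩, t.1.2⟩), by
      obtain ⟨hc, he⟩ := hb _ _ _ t.2 rfl
      have e1 := congrArg Prod.fst he
      have e2 := congrArg Prod.snd he
      simp only at e1 e2
      refine SemidirectProduct.ext (Subtype.ext ?_) ?_
      · simp only [SemidirectProduct.mul_left, Subgroup.coe_mul]
        have f1 := fun v => (congrArg (fun q => ((φ q v : V) : X)) e1).trans (hφ _ v)
        have f2 := fun v => (congrArg (fun q => ((φ q v : V) : X)) e2).trans (hφ _ v)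
        rw [f1, f2]
        simp only
        set u := (b (t.1.1, t.1.2)).1
        set w := (b (t.1.1, t.1.2)).2
        have := t.2.eq
        calc t.1.1 * u⁻¹ * (u * (t.1.2 * w⁻¹) * u⁻¹) = (t.1.1 * t.1.2) * (u * w)⁻¹ := by group
          _ = (t.1.2 * t.1.1) * (w * u)⁻¹ := by rw [this, hc.eq]
          _ = _ := by group
      · simp only [SemidirectProduct.mul_right]
        rw [← QuotientGroup.mk_mul, ← QuotientGroup.mk_mul, t.2.eq]⟩
  have hF : Function.Injective F := by
    rintro ⟨⟨x, y⟩, h⟩ ⟨⟨x', y'⟩, h'⟩ he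
    simp only [F, Subtype.mk.injEq, Prod.mk.injEq] at he
    have a1 := congrArg (fun t => (t.left : X)) he.1
    have a2 := congrArg (fun t => t.right) he.1
    have a3 := congrArg (fun t => (t.left : X)) he.2
    have a4 := congrArg (fun t => t.right) he.2
    simp only at a1 a2 a3 a4
    rw [a2, a4] at a1 a3
    simp only [mul_left_inj] at a1 a3
    exact Subtype.ext (Prod.ext a1 a3)
  have := Nat.card_le_card_of_injective F hF
  rw [card_comm_eq_card_conjClasses_mul_card, card_comm_eq_card_conjClasses_mul_card, hcard] at this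
  exact Nat.le_of_mul_le_mul_right this Nat.card_pos

end Cfsg.Agent.S4965
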