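import Cfsg.Statements.S4966
import Cfsg.Agent.Lib.Ind.SelfDual

set_option autoImplicit false
open Cfsg

namespace Cfsg.Agent.S4966

/-- Let F be a finite field of characteristic p, G a finite group of order prime to p, and V a finite-dimensional representation of G over F carrying a nondegenerate G-invariant bilinear form (equivalently, V is self-dual). Then V is the direct sum of two G-invariant subspaces U and W such that U carries a G-invariant alternating bilinear form that is nondegenerate on U and W carries a G-invariant symmetric bilinear form that is nondegenerate on W; moreover when p = 2 the decomposition can be chosen with G acting trivially on W. -/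
theorem result {F : Type*} [Field F] [Fintype F] (p : ℕ) [Fact p.Prime] [CharP F p] {G : Type*} [Group G] [Finite G] (hcop : ¬ p ∣ Nat.card G) {V : Type*} [AddCommGroup V] [Module F V] [FiniteDimensional F V] (ρ : Representation F G V) (B : LinearMap.BilinForm F V) (hB : B.Nondegenerate) (hBinv : ∀ g : G, ∀ x y : V, B (ρ g x) (ρ g y) = B x y) : ∃ U W : Submodule F V, IsCompl U W ∧ (∀ g : G, ∀ u ∈ U, ρ g u ∈ U) ∧ (∀ g : G, ∀ w ∈ W, ρ g w ∈ W) ∧ (∃ A : LinearMap.BilinForm F V, (∀ x : V, A x x = 0) ∧ (∀ g : G, ∀ x ∈ U, ∀ y ∈ U, A (ρ g x) (ρ g y) = A x y) ∧ (∀ x ∈ U, (∀ y ∈ U, A x y = 0) → x = 0)) ∧ (∃ S : LinearMap.BilinForm F V, (∀ x y : V, S x y = S y x) ∧ (∀ g : G, ∀ x ∈ W, ∀ y ∈ W, S (ρ g x) (ρ g y) = S x y) ∧ (∀ x ∈ W, (∀ y ∈ W, S x y = 0) → x = 0)) ∧ (p = 2 → ∀ g : G, ∀ w ∈ W, ρ g w = w) := by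
  haveI : NeZero (Nat.card G : F) := ⟨fun h => hcop ((CharP.cast_eq_zero_iff F p _).1 h)⟩
  obtain ⟨A, S, hA, hS, alt, sym, nd, dec, tr⟩ :=
    Cfsg.Agent.Ind.sympOrth_of_nondegenerate p ρ B hBinv hB
  have hAs : ∀ x y, A x y = -A y x := fun x y => by
    have := alt (x + y)
    simp only [map_add, LinearMap.add_apply, alt] at this
    linear_combination this
  have hker : ∀ C : LinearMap.BilinForm F V, Cfsg.Agent.Ind.InvForm ρ C →
      ∀ g : G, ∀ u ∈ LinearMap.ker C, ρ g u ∈ LinearMap.ker C := by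
    intro C hC g u hu
    rw [LinearMap.mem_ker] at hu ⊢
    ext y
    rw [hC.left, hu]; rfl
  refine ⟨LinearMap.ker S, LinearMap.ker A, ⟨?_, ?_⟩, hker S hS, hker A hA,
    ⟨A, alt, fun g x _ y _ => hA g x y, fun x hx h => nd x ?_ hx⟩,
    ⟨S, sym, fun g x _ y _ => hS g x y, fun x hx h => nd x hx ?_⟩, fun hp g w hw => tr hp g w hw⟩
  · rw [Submodule.disjoint_def]
    exact fun x h1 h2 => nd x h2 h1
  · rw [codisjoint_iff, eq_top_iff]
    intro x _
    obtain ⟨u, w, hu, hw, rfl⟩ := dec x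
    exact Submodule.add_mem_sup hu hw
  · ext y
    obtain ⟨u, w, hu, hw, rfl⟩ := dec y
    rw [map_add, h u hu, hAs x w, hw]; simp
  · ext y
    obtain ⟨u, w, hu, hw, rfl⟩ := dec y
    rw [map_add, h w hw, sym x u, hu]; simp

end Cfsg.Agent.S4966
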