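import Cfsg.Statements.S4967
import Cfsg.Agent.Lib.Ind.AbField

set_option autoImplicit false
open Cfsg

namespace Cfsg.Agent.S4967

open FiniteField in
theorem key {F : Type*} [Field F] [Fintype F] {H : Type*} [CommGroup H] [Finite H]
    {E : Type*} [Field E] [Algebra F E] [FiniteDimensional F E] (ι : H →* Eˣ)
    (hadj : Algebra.adjoin F (Set.range fun h => (ι h : E)) = ⊤)
    (B : LinearMap.BilinForm F E) (hB : B.Nondegenerate)
    (hinv : ∀ h x y, B (ι h * x) (ι h * y) = B x y) :
    ∃ k, k < Module.finrank F E ∧ Module.finrank F E ∣ 2 * k ∧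
      ∀ h, (ι h) ^ (Fintype.card F ^ k + 1) = 1 := by
  classical
  haveI : Finite E := Module.finite_of_finite F
  have hex : ∀ a : E, ∃ b : E, ∀ x y, B (a * x) y = B x (b * y) := by
    intro a
    have ha : a ∈ Algebra.adjoin F (Set.range fun h => (ι h : E)) := hadj ▸ Algebra.mem_top
    induction ha using Algebra.adjoin_induction with
    | mem x hx =>
      obtain ⟨h, rfl⟩ := hx
      refine ⟨ι h⁻¹, fun x y => ?_⟩
      rw [← hinv h x, ← mul_assoc, ← Units.val_mul, ← map_mul, mul_inv_cancel, map_one,
        Units.val_one, one_mul]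
    | algebraMap r =>
      refine ⟨algebraMap F E r, fun x y => ?_⟩
      simp [← Algebra.smul_def]
    | add y z _ _ hy hz =>
      obtain ⟨b, hb⟩ := hy
      obtain ⟨c, hc⟩ := hz
      exact ⟨b + c, fun x y => by simp [add_mul, hb, hc]⟩
    | mul y z _ _ hy hz =>
      obtain ⟨b, hb⟩ := hy
      obtain ⟨c, hc⟩ := hz
      exact ⟨b * c, fun x y => by rw [mul_assoc, hb, hc, ← mul_assoc, mul_comm c b]⟩
  choose t ht using hex
  have huniq : ∀ a b : E, (∀ x y, B (a * x) y = B x (b * y)) → t a = b := by
    intro a b h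
    have : t a - b = 0 := hB.2 _ fun x => by
      have h1 := ht a x 1
      have h2 := h x 1
      rw [mul_one] at h1 h2
      rw [map_sub, ← h1, ← h2, sub_self]
    exact sub_eq_zero.1 this
  let τ : E →ₐ[F] E :=
    { toFun := t
      map_one' := huniq _ _ (by simp)
      map_mul' := fun a b => huniq _ _ fun x y => by
        rw [mul_assoc, ht, ht, ← mul_assoc, mul_comm (t b)]
      map_zero' := huniq _ _ (by simp)
      map_add' := fun a b => huniq _ _ fun x y => by simp [add_mul, ht]
      commutes' := fun r => huniq _ _ fun x y => by simp [← Algebra.smul_def] }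
  have hτ : ∀ h, τ (ι h) = ι h⁻¹ := fun h => huniq _ _ fun x y => by
    rw [← hinv h x, ← mul_assoc, ← Units.val_mul, ← map_mul, mul_inv_cancel, map_one,
        Units.val_one, one_mul]
  obtain ⟨⟨k, hk⟩, hk2⟩ := (bijective_frobeniusAlgHom_pow F E).2 τ
  simp only at hk2
  have hττ : τ * τ = 1 := by
    apply AlgHom.ext_of_adjoin_eq_top hadj
    rintro _ ⟨h, rfl⟩
    show τ (τ (ι h)) = ι h
    rw [hτ, hτ, inv_inv]
  refine ⟨k, hk, ?_, fun h => ?_⟩
  · rw [← orderOf_frobeniusAlgHom, orderOf_dvd_iff_pow_eq_one, two_mul, pow_add, hk2, hττ]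
  · have := hτ h
    rw [← hk2, AlgHom.coe_pow, coe_frobeniusAlgHom, pow_iterate] at this
    apply Units.ext
    simp only at this
    rw [pow_succ, Units.val_mul, Units.val_pow_eq_pow_val, this, ← Units.val_mul, ← map_mul,
      inv_mul_cancel, map_one]

/-- Let F be a finite field with r elements and of characteristic p, H a finite abelian group of order prime to p, and V a faithful irreducible representation of H over F of dimension n (faithful: distinct elements act differently; irreducible: the only H-invariant subspaces are 0 and V). Call V self-dual when it carries a nondegenerate H-invariant bilinear form. If n = 1 and V is self-dual then H has order at most 2. If n ≥ 2 then V is self-dual if and only if n is even and the order of H divides r^(n/2) + 1. -/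
theorem result {F : Type*} [Field F] [Fintype F] (p : ℕ) [Fact p.Prime] [CharP F p] {H : Type*} [CommGroup H] [Finite H] (hcop : ¬ p ∣ Nat.card H) {V : Type*} [AddCommGroup V] [Module F V] [FiniteDimensional F V] (ρ : Representation F H V) (hfaith : Function.Injective ρ) (hirr : ∀ U : Submodule F V, (∀ h : H, ∀ u ∈ U, ρ h u ∈ U) → U = ⊥ ∨ U = ⊤) : (Module.finrank F V = 1 → (∃ B : LinearMap.BilinForm F V, B.Nondegenerate ∧ ∀ h : H, ∀ x y : V, B (ρ h x) (ρ h y) = B x y) → Nat.card H ≤ 2) ∧ (2 ≤ Module.finrank F V → ((∃ B : LinearMap.BilinForm F V, B.Nondegenerate ∧ ∀ h : H, ∀ x y : V, B (ρ h x) (ρ h y) = B x y) ↔ (Even (Module.finrank F V) ∧ Nat.card H ∣ Fintype.card F ^ (Module.finrank F V / 2) + 1))) := by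
  classical
  have main : ∀ (_ : Nontrivial V), ((∃ B : LinearMap.BilinForm F V, B.Nondegenerate ∧ ∀ h : H, ∀ x y : V, B (ρ h x) (ρ h y) = B x y) → ∃ k, k < Module.finrank F V ∧ Module.finrank F V ∣ 2 * k ∧ Nat.card H ∣ Fintype.card F ^ k + 1 ∧ (k = 0 → Module.finrank F V = 1)) ∧ ((Even (Module.finrank F V) ∧ Nat.card H ∣ Fintype.card F ^ (Module.finrank F V / 2) + 1) → ∃ B : LinearMap.BilinForm F V, B.Nondegenerate ∧ ∀ h : H, ∀ x y : V, B (ρ h x) (ρ h y) = B x y) := by
    intro _
    obtain ⟨E, _, _, ι, e, he, hadj⟩ := Cfsg.Agent.Ind.exists_field_of_irreducible mul_comm ρ hirr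
    haveI : FiniteDimensional F E := e.finiteDimensional
    haveI : Finite E := Module.finite_of_finite F
    have hι : Function.Injective ι := by
      intro a b hab
      apply hfaith
      ext v
      apply e.injective
      rw [he, he, hab]
    rw [e.finrank_eq]
    constructor
    · rintro ⟨B, hB, hinv⟩
      obtain ⟨k, hk, hd, hpow⟩ := key ι hadj (LinearMap.BilinForm.congr e B) (hB.congr e) (by
        intro h x y
        obtain ⟨x, rfl⟩ := e.surjective x
        obtain ⟨y, rfl⟩ := e.surjective y
        simp [← he, hinv])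
      refine ⟨k, hk, hd, ?_, ?_⟩
      · haveI : IsCyclic H := isCyclic_of_injective ι hι
        rw [← IsCyclic.exponent_eq_card]
        apply Monoid.exponent_dvd_of_forall_pow_eq_one
        intro h
        apply hι
        rw [map_pow, hpow, map_one]
      · rintro rfl
        rw [← Subalgebra.bot_eq_top_iff_finrank_eq_one, eq_top_iff, ← hadj, Algebra.adjoin_le_iff]
        rintro _ ⟨h, rfl⟩
        have h1 := congrArg Units.val (hpow h)
        simp only [pow_zero, Units.val_pow_eq_pow_val, Units.val_one] at h1
        have h2 : (ι h : E) ^ 2 = 1 := h1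
        rcases sq_eq_one_iff.1 h2 with h3 | h3
        · simp only [h3]; exact one_mem _
        · simp only [h3]; exact neg_mem (one_mem _)
    · rintro ⟨⟨k, hk⟩, hd⟩
      have hk2 : Module.finrank F E / 2 = k := by omega
      rw [hk2] at hd
      let σ := (FiniteField.frobeniusAlgEquivOfAlgebraic F E) ^ k
      have hσ : ∀ h, σ (ι h) * ι h = 1 := by
        intro h
        have : σ (ι h) = (ι h : E) ^ (Fintype.card F ^ k) := by
          simp only [σ]
          rw [AlgEquiv.coe_pow, FiniteField.coe_frobeniusAlgEquivOfAlgebraic_iterate]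
        rw [this, ← pow_succ, ← Units.val_pow_eq_pow_val, ← map_pow]
        obtain ⟨c, hc⟩ := hd
        rw [hc, pow_mul, pow_card_eq_one', one_pow, map_one, Units.val_one]
      obtain ⟨ℓ, hℓ⟩ := Module.Projective.exists_dual_eq_one F (one_ne_zero (α := E))
      let B : LinearMap.BilinForm F V :=
        ((LinearMap.mul F E).compr₂ ℓ).compl₁₂ e.toLinearMap (σ.toLinearMap ∘ₗ e.toLinearMap)
      have hBa : ∀ x y, B x y = ℓ (e x * σ (e y)) := fun x y => rfl
      refine ⟨B, ⟨fun x hx => ?_, fun y hy => ?_⟩, fun h x y => ?_⟩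
      · by_contra h0
        have h1 : e x ≠ 0 := by simpa using h0
        have := hx (e.symm (σ.symm (e x)⁻¹))
        rw [hBa] at this
        simp [mul_inv_cancel₀ h1, hℓ] at this
      · by_contra h0
        have h1 : σ (e y) ≠ 0 := by simpa using h0
        have := hy (e.symm (σ (e y))⁻¹)
        rw [hBa] at this
        simp only [LinearEquiv.apply_symm_apply, inv_mul_cancel₀ h1, hℓ] at this
        exact one_ne_zero this
      · rw [hBa, hBa, he, he, map_mul σ]
        congr 1
        linear_combination (e x * σ (e y)) * hσ h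
  refine ⟨fun h1 hB => ?_, fun h2 => ?_⟩
  · haveI : Nontrivial V := Module.nontrivial_of_finrank_pos (R := F) (by omega)
    obtain ⟨k, hk, -, hd, -⟩ := (main inferInstance).1 hB
    obtain rfl : k = 0 := by omega
    exact Nat.le_of_dvd (by norm_num) (by simpa using hd)
  · haveI : Nontrivial V := Module.nontrivial_of_finrank_pos (R := F) (by omega)
    refine ⟨fun hB => ?_, (main inferInstance).2⟩
    obtain ⟨k, hk, ⟨c, hc⟩, hd, h0⟩ := (main inferInstance).1 hB
    have hk0 : k ≠ 0 := fun h => by have := h0 h; omega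
    have hc1 : c = 1 := by
      rcases c with _ | _ | c
      · omega
      · rfl
      · exfalso; nlinarith
    subst hc1
    have : Module.finrank F V / 2 = k := by omega
    rw [this]
    exact ⟨⟨k, by omega⟩, hd⟩

end Cfsg.Agent.S4967
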