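import Cfsg.Statements.S5010
import Cfsg.Agent.Lib.Cover.Basic
import Cfsg.Agent.Lib.Block.Omega
import Cfsg.Agent.Lib.Ind.Monomial
import Cfsg.Agent.Lib.Ind.Clifford
import Cfsg.Agent.Lib.Fit.Frattini
import Cfsg.Agent.Lib.Solv.Coprime

set_option autoImplicit false
open Cfsg

namespace Cfsg.Agent.S5010

open Cfsg.Agent.Block Cfsg.Agent.Char Cfsg.Agent.Fit Subgroup
open scoped commutatorElement

/-- All degrees are squarefree. -/
def SqF (G : Type*) [Group G] : Prop :=
  ∀ χ : Cfsg.IrrCharacter G, Squarefree (Cfsg.charDegree (χ : G → ℂ))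

theorem sqf_normal {G : Type*} [Group G] [Finite G] (h : SqF G) (N : Subgroup G) [N.Normal]
    (θ : IrrCharacter N) : Squarefree (charDegree θ.1) ∧ Squarefree (Ind.inertia N θ.1).index := by
  have := Fintype.ofFinite G
  have := Fintype.ofFinite N
  obtain ⟨χ, hχ⟩ := Cover.exists_over N θ
  rw [Cover.over_iff] at hχ
  obtain ⟨e, he⟩ := exists_nat_inner (isChar_restrict (isChar_irr χ) N) (isChar_irr θ)
  have h1 := Ind.clifford_deg N χ.2 θ.2 hχ
  rw [he, ← cast_charDegree, ← cast_charDegree] at h1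
  have h2 : charDegree χ.1 = e * (Ind.inertia N θ.1).index * charDegree θ.1 := by exact_mod_cast h1
  have h3 := h χ
  rw [h2] at h3
  exact ⟨h3.of_mul_right, h3.of_mul_left.of_mul_right⟩

theorem sqf_sub {G : Type*} [Group G] [Finite G] (h : SqF G) (N : Subgroup G) [N.Normal] :
    SqF N := fun θ => (sqf_normal h N θ).1

theorem sqf_quot {G H : Type*} [Group G] [Group H] (h : SqF G) (f : G →* H)
    (hf : Function.Surjective f) : SqF H := fun χ => by
  have := h ⟨_, isIrr_comp_of_surjective χ.2 f hf⟩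
  simpa [charDegree] using this

theorem dvd_of_sqf {q n k : ℕ} (hq : q.Prime) (h : Squarefree n) (hk : n ∣ q ^ k) : n ∣ q := by
  obtain ⟨j, -, rfl⟩ := (Nat.dvd_prime_pow hq).1 hk
  rcases j with _ | _ | j
  · simp
  · simp
  · exact absurd (h q ⟨q ^ j, by ring⟩) hq.prime.not_isUnit

theorem pgroup_case {P : Type*} [Group P] [Finite P] {p : ℕ} [hp : Fact p.Prime]
    (hP : IsPGroup p P) (h : SqF P) : derivedSeries P 2 = ⊥ := by
  have := Fintype.ofFinite P
  have := hP.isNilpotent
  rw [eq_bot_iff]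
  intro g hg
  refine eq_one_of_forall_irr fun χ => ?_
  obtain ⟨H, lam, hχ⟩ := Ind.isMonomial_of_nilpotent χ.2
  have hd : charDegree χ.1 = H.index := by
    have := cast_charDegree χ
    rw [hχ, Ind.indFun_one] at this
    simpa [hχ] using this
  obtain ⟨k, hk⟩ := hP.exists_card_eq
  have hi : H.index ∣ p := dvd_of_sqf hp.out (hd ▸ h χ) (hk ▸ H.index_dvd_card)
  have hc : commutator P ≤ H ∧ H.Normal := by
    rcases (Nat.dvd_prime hp.out).1 hi with h1 | h1
    · rw [index_eq_one.1 h1]; exact ⟨le_top, inferInstance⟩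
    · have := normal_of_index_eq_prime hP h1
      exact ⟨commutator_le_of_index_prime h1, this⟩
  obtain ⟨hc, hn⟩ := hc
  have key : ∀ x (hx : x ∈ derivedSeries P 2), ∃ hx' : x ∈ H, lam ⟨x, hx'⟩ = 1 := by
    intro x hx
    have h2 : derivedSeries P 2 ≤ (lam.ker).map H.subtype := by
      change ⁅commutator P, commutator P⁆ ≤ _
      refine commutator_le.2 fun a ha b hb => ⟨⁅(⟨a, hc ha⟩ : H), (⟨b, hc hb⟩ : H)⁆, ?_, rfl⟩
      rw [SetLike.mem_coe, MonoidHom.mem_ker, map_commutatorElement,
        commutatorElement_eq_one_iff_mul_comm, mul_comm]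
    obtain ⟨y, hy, rfl⟩ := h2 hx
    exact ⟨y.2, hy⟩
  obtain ⟨hgH, -⟩ := key g hg
  have e1 := Ind.indFun_apply_of_normal H (fun h => (lam h : ℂ)) ⟨g, hgH⟩
  have e2 := Ind.indFun_apply_of_normal H (fun h => (lam h : ℂ)) 1
  rw [hχ]
  refine e1.trans (Eq.trans ?_ e2.symm)
  congr 1
  refine Finset.sum_congr rfl fun x _ => ?_
  obtain ⟨_, h5⟩ := key (x * g * x⁻¹) ((derivedSeries_normal P 2).conj_mem g hg x)
  simp only [h5]
  have : (⟨x * ((1 : H) : P) * x⁻¹, hn.conj_mem _ (1 : H).2 x⟩ : H) = 1 := by ext; simp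
  rw [this, map_one]

theorem nilp_case {F : Type*} [Group F] [Finite F] [Group.IsNilpotent F] (h : SqF F) :
    derivedSeries F 2 = ⊥ := by
  by_contra hne
  obtain ⟨p, hp, hd⟩ := Nat.exists_prime_and_dvd (mt card_eq_one.1 hne)
  haveI := Fact.mk hp
  have h1 := pgroup_case (isPGroup_quotient_pPrimeCore (G := F) hp)
    (sqf_quot h _ (QuotientGroup.mk'_surjective (pPrimeCore p F)))
  rw [← map_derivedSeries_eq (QuotientGroup.mk'_surjective (pPrimeCore p F)), Subgroup.map_eq_bot_iff,
    QuotientGroup.ker_mk'] at h1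
  exact (hp.coprime_iff_not_dvd.1 (coprime_card_pPrimeCore p F).symm)
    (hd.trans (card_dvd_of_le h1))

theorem stab_key {X A : Type*} [Group X] [Finite X] [CommGroup A] [MulDistribMulAction X A]
    {q n : ℕ} (hq : q.Prime) (hn : n.Coprime q) (hA : ∀ a : A, a ^ n = 1)
    (hX : ∀ x : X, ∃ k, ∀ a : A, x ^ q ^ k • a = a)
    (hN : ∀ a : A, (MulAction.stabilizer X a).Normal)
    (hi : ∀ a : A, (MulAction.stabilizer X a).index ∣ q) :
    ∃ M : Subgroup X, M.Normal ∧ M.index ∣ q ∧ ∀ a : A, M ≤ MulAction.stabilizer X a := by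
  by_cases h0 : ∀ a : A, MulAction.stabilizer X a = ⊤
  · exact ⟨⊤, inferInstance, by simp, fun a => (h0 a).ge⟩
  push Not at h0
  obtain ⟨l, hl⟩ := h0
  refine ⟨_, hN l, hi l, fun μ m hm => ?_⟩
  by_contra hmμ
  -- maximality
  have mx : ∀ a b : A, MulAction.stabilizer X a ≤ MulAction.stabilizer X b →
      MulAction.stabilizer X a = MulAction.stabilizer X b ∨ MulAction.stabilizer X b = ⊤ := by
    intro a b hab
    rcases (Nat.dvd_prime hq).1 (hi b) with h1 | h1
    · exact Or.inr (index_eq_one.1 h1)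
    · left
      have h2 := relIndex_mul_index hab
      have h3 := hi a
      rw [← h2, h1] at h3
      have h4 : (MulAction.stabilizer X a).relIndex (MulAction.stabilizer X b) = 1 :=
        Nat.dvd_one.1 (Nat.dvd_of_mul_dvd_mul_right hq.pos (by simpa using h3))
      exact le_antisymm hab (relIndex_eq_one.1 h4)
  have cj : ∀ (a : A) (t y : X), y ∈ MulAction.stabilizer X a → y • t • a = t • a := by
    intro a t y hy
    have := (hN a).conj_mem y hy t⁻¹
    rw [MulAction.mem_stabilizer_iff, inv_inv, mul_smul, mul_smul, inv_smul_eq_iff] at this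
    exact this
  have hmν : m ∉ MulAction.stabilizer X (l * μ) := by
    intro h
    rw [MulAction.mem_stabilizer_iff, smul_mul', MulAction.mem_stabilizer_iff.1 hm] at h
    exact hmμ (mul_left_cancel h)
  obtain ⟨t, htν, htl⟩ : ∃ t ∈ MulAction.stabilizer X (l * μ), t ∉ MulAction.stabilizer X l := by
    by_contra hc
    push Not at hc
    rcases mx _ _ hc with h | h
    · exact hmν (h ▸ hm)
    · exact hl h
  obtain ⟨s, hsμ, hsl⟩ : ∃ s ∈ MulAction.stabilizer X μ, s ∉ MulAction.stabilizer X l := by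
    by_contra hc
    push Not at hc
    rcases mx _ _ hc with h | h
    · exact hmμ (h ▸ hm)
    · exact hl h
  set l' := t • l * l⁻¹ with hl'
  have e : l' = μ * (t • μ)⁻¹ := by
    rw [MulAction.mem_stabilizer_iff, smul_mul'] at htν
    rw [hl', mul_inv_eq_iff_eq_mul, mul_right_comm, eq_mul_inv_iff_mul_eq, htν, mul_comm]
  have h1 : MulAction.stabilizer X l ≤ MulAction.stabilizer X l' := fun y hy => by
    rw [MulAction.mem_stabilizer_iff, hl', smul_mul', smul_inv', cj l t y hy,
      MulAction.mem_stabilizer_iff.1 hy]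
  have h2 : s ∈ MulAction.stabilizer X l' := by
    rw [MulAction.mem_stabilizer_iff, e, smul_mul', smul_inv', cj μ t s hsμ,
      MulAction.mem_stabilizer_iff.1 hsμ]
  have h3 : t • l' = l' := by
    rcases mx _ _ h1 with h | h
    · exact absurd (h ▸ h2) hsl
    · exact MulAction.mem_stabilizer_iff.1 (h ▸ mem_top t)
  have h4 : ∀ j : ℕ, t ^ j • l = l' ^ j * l := by
    intro j
    induction j with
    | zero => simp
    | succ j ih =>
      rw [pow_succ', mul_smul, ih, smul_mul', smul_pow', h3, pow_succ, mul_assoc, hl']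
      simp
  obtain ⟨k, hk⟩ := hX t
  have h5 : l' ^ q ^ k = 1 := by
    have := h4 (q ^ k)
    rw [hk] at this
    simpa using this.symm
  have h6 : l' = 1 := by
    have := pow_gcd_eq_one.2 ⟨hA l', h5⟩
    rwa [Nat.Coprime.gcd_eq_one (hn.pow_right k), pow_one] at this
  exact htl (by rw [MulAction.mem_stabilizer_iff, ← mul_inv_eq_one]; exact h6)

theorem comm_le_frattini {K : Type*} [Group K] [Finite K] [Group.IsNilpotent K] :
    commutator K ≤ frattini K := by
  rw [frattini, Order.radical]
  refine le_iInf₂ fun M hM => ?_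
  have hM : IsCoatom M := hM
  haveI : M.Normal := NormalizerCondition.normal_of_coatom M
    Group.normalizerCondition_of_isNilpotent hM
  by_contra hc
  have h1 : M ⊔ commutator K = ⊤ := hM.2 _ (left_lt_sup.2 hc)
  have h2 := congrArg (map (QuotientGroup.mk' M)) h1
  rw [Subgroup.map_sup, map_top_of_surjective _ (QuotientGroup.mk'_surjective M), QuotientGroup.map_mk'_self,
    bot_sup_eq, commutator_def, map_commutator,
    map_top_of_surjective _ (QuotientGroup.mk'_surjective M)] at h2
  by_cases h3 : (⊤ : Subgroup (K ⧸ M)) = ⊥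
  · refine hM.1 (eq_top_iff.2 fun x _ => ?_)
    have : (QuotientGroup.mk' M x) ∈ (⊥ : Subgroup (K ⧸ M)) := h3 ▸ mem_top _
    exact (QuotientGroup.eq_one_iff x).1 this
  · exact (commutator_top_lt_of_isNilpotent h3).ne h2

/-- The conjugation action on linear characters of a normal subgroup. -/
@[reducible] def dualAct {X : Type*} [Group X] (K : Subgroup X) [K.Normal] :
    MulDistribMulAction X (K →* ℂˣ) where
  smul g l := l.comp (MulAut.conjNormal g⁻¹ : MulAut K).toMonoidHom
  one_smul l := by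
    ext k
    change ((l (MulAut.conjNormal (1 : X)⁻¹ k) : ℂˣ) : ℂ) = _
    simp
  mul_smul g h l := by
    ext k
    change ((l (MulAut.conjNormal (g * h)⁻¹ k) : ℂˣ) : ℂ) =
      l (MulAut.conjNormal h⁻¹ (MulAut.conjNormal g⁻¹ k))
    simp
  smul_mul g a b := rfl
  smul_one g := rfl

theorem fit_index {X : Type*} [Group X] [Finite X] (h : SqF X) {q : ℕ} [hq : Fact q.Prime]
    (K : Subgroup X) [K.Normal] [hK : Group.IsNilpotent K] (hc : (Nat.card K).Coprime q)
    (hX : IsPGroup q (X ⧸ K)) : (fittingSubgroup X).index ∣ q := by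
  letI := dualAct K
  have sm : ∀ (g : X) (l : K →* ℂˣ) (k : K), (g • l) k = l (MulAut.conjNormal g⁻¹ k) :=
    fun _ _ _ => rfl
  have hKs : ∀ l : K →* ℂˣ, K ≤ MulAction.stabilizer X l := fun l x hx => by
    rw [MulAction.mem_stabilizer_iff]
    ext k
    rw [sm]
    have : MulAut.conjNormal x⁻¹ k = (⟨x, hx⟩ : K)⁻¹ * k * ⟨x, hx⟩ := by ext; simp
    rw [this]; simp
  obtain ⟨k, hk⟩ := hX.exists_card_eq
  have hi : ∀ l : K →* ℂˣ, (MulAction.stabilizer X l).index ∣ q := fun l => by
    have h1 := (sqf_normal h K ⟨_, isIrr_unitsHom l⟩).2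
    have h2 : Ind.inertia K (fun g => (l g : ℂ)) = MulAction.stabilizer X l := by
      ext g
      rw [← inv_mem_iff, Ind.mem_inertia, Ind.cjf_eq, MulAction.mem_stabilizer_iff, funext_iff,
        MonoidHom.ext_iff]
      simp only [sm, Units.val_inj]
    simp only [h2] at h1
    exact dvd_of_sqf hq.out h1 ((index_dvd_of_le (hKs l)).trans (dvd_of_eq hk))
  obtain ⟨M, hMn, hMi, hM⟩ := stab_key (X := X) (A := K →* ℂˣ) hq.out hc
    (fun a => by ext k; simp [← map_pow]) (fun x => by
      obtain ⟨j, hj⟩ := hX (QuotientGroup.mk' K x)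
      rw [← map_pow] at hj
      exact ⟨j, fun a => hKs a ((QuotientGroup.eq_one_iff _).1 hj)⟩)
    (fun a => by
      have h1 := comap_map_eq_self (f := QuotientGroup.mk' K)
        (H := MulAction.stabilizer X a) (by simpa using hKs a)
      have h2 : ((MulAction.stabilizer X a).map (QuotientGroup.mk' K)).index =
          (MulAction.stabilizer X a).index := by
        exact index_map_eq _ (QuotientGroup.mk'_surjective K) (by simpa using hKs a)
      rw [← h1]
      rcases (Nat.dvd_prime hq.out).1 (hi a) with h3 | h3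
      · rw [index_eq_one.1 (h2.trans h3)]; infer_instance
      · haveI := normal_of_index_eq_prime hX (h2.trans h3); infer_instance) hi
  obtain ⟨S⟩ : Nonempty (Sylow q X) := inferInstance
  have hS : K ⊔ S = ⊤ := by
    have h1 : ((S.mapSurjective (QuotientGroup.mk'_surjective K) : Sylow q (X ⧸ K)) :
      Subgroup (X ⧸ K)) = ⊤ := ((S.mapSurjective (QuotientGroup.mk'_surjective K)).3
        (hX.to_subgroup ⊤) le_top).symm
    rw [Sylow.coe_mapSurjective] at h1
    have := congrArg (comap (QuotientGroup.mk' K)) h1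
    rwa [comap_map_eq, QuotientGroup.ker_mk', comap_top, sup_comm] at this
  have hC : M ⊓ S ≤ centralizer (K : Set X) := by
    refine Solv.le_centralizer_of_frattini (le_normalizer_of_normal) ?_ fun a ha x hx => ?_
    · obtain ⟨j, hj⟩ := (S.2.to_inf_right (H := M)).exists_card_eq
      rw [hj]
      exact (Nat.Coprime.coprime_dvd_left (card_subgroup_dvd_card _) hc).symm.pow_left j
    · refine ⟨MulAut.conjNormal a ⟨x, hx⟩ * (⟨x, hx⟩ : K)⁻¹, comm_le_frattini ?_, by simp⟩
      by_contra hne
      obtain ⟨φ, hφ⟩ := CommGroup.exists_apply_ne_one_of_hasEnoughRootsOfUnity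
        (Abelianization K) ℂ (a := Abelianization.of (MulAut.conjNormal a ⟨x, hx⟩ * (⟨x, hx⟩ : K)⁻¹))
        (fun h0 => hne ((QuotientGroup.eq_one_iff _).1 h0))
      have h1 := hM (φ.comp Abelianization.of) (inv_mem ha.1)
      rw [MulAction.mem_stabilizer_iff, MonoidHom.ext_iff] at h1
      have h2 := h1 ⟨x, hx⟩
      rw [sm, inv_inv] at h2
      simp only [MonoidHom.comp_apply] at h2
      exact hφ (by rw [map_mul, map_mul, h2, map_inv, map_inv, mul_inv_cancel])
  have hF : (S : Subgroup X) ⊓ centralizer (K : Set X) ≤ fittingSubgroup X := by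
    refine (le_pCore ?_ S.2.to_inf_left).trans (pCore_le_fitting hq.out)
    rw [← normalizer_eq_top_iff, eq_top_iff, ← hS, sup_le_iff]
    constructor
    · refine le_trans ?_ (centralizer_le_normalizer _)
      exact fun x hx y hy => (hy.2 x hx).symm
    · exact fun x hx => inf_normalizer_le_normalizer_inf
        ⟨le_normalizer hx, le_normalizer_of_normal (mem_top x)⟩
  have h1 : (fittingSubgroup X).index = (fittingSubgroup X).relIndex S := by
    rw [← relIndex_sup_left, ← relIndex_top_right]
    congr 1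
    exact (eq_top_iff.2 (hS ▸ sup_le_sup_right (le_fitting inferInstance hK) _)).symm
  rw [h1]
  refine (relIndex_dvd_of_le_left (H := M ⊓ S) _ (fun x hx => hF ⟨hx.2, hC hx⟩)).trans ?_
  rw [inf_relIndex_right]
  exact (relIndex_dvd_index_of_normal M S).trans hMi

theorem card_pCore {G : Type*} [Group G] [Finite G] (h : SqF G) {q : ℕ} [hq : Fact q.Prime] :
    Nat.card (pCore q (G ⧸ fittingSubgroup G)) ∣ q := by
  set F := fittingSubgroup G
  set Q := (pCore q (G ⧸ F)).comap (QuotientGroup.mk' F) with hQ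
  have hFQ : F ≤ Q := fun x hx => by
    rw [hQ, mem_comap, QuotientGroup.mk'_apply, (QuotientGroup.eq_one_iff x).2 hx]; exact one_mem _
  have hfit : fittingSubgroup Q = F.subgroupOf Q := by
    rw [← comap_map_eq_self_of_injective Q.subtype_injective (fittingSubgroup Q),
      map_fitting_subtype_eq, inf_eq_left.2 hFQ]; rfl
  have hidx : (F.subgroupOf Q).index = Nat.card (pCore q (G ⧸ F)) := by
    have := relIndex_comap (⊥ : Subgroup (G ⧸ F)) (QuotientGroup.mk' F) Q
    rw [MonoidHom.comap_bot, QuotientGroup.ker_mk', hQ,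
      map_comap_eq_self_of_surjective (QuotientGroup.mk'_surjective F), relIndex_bot_left] at this
    exact this
  rw [← hidx, ← hfit]
  haveI := isNilpotent_fitting Q
  set K := (pPrimeCore q (fittingSubgroup Q)).map (fittingSubgroup Q).subtype with hK
  haveI : K.Normal := by rw [hK]; infer_instance
  haveI : Group.IsNilpotent K := isNilpotent_of_le_fitting (map_subtype_le _)
  refine fit_index (sqf_sub h Q) K (by rw [hK, card_subtype]; exact coprime_card_pPrimeCore _ _) ?_
  obtain ⟨a, ha⟩ := (isPGroup_pCore q (G ⧸ F)).exists_card_eq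
  obtain ⟨b, hb⟩ := (isPGroup_quotient_pPrimeCore (G := fittingSubgroup Q) hq.out).exists_card_eq
  refine IsPGroup.of_card (n := b + a) ?_
  change K.index = _
  rw [hK, index_map_subtype, pow_add, ← ha, ← hidx, ← hfit, ← hb]; rfl

/-- Let `G` be a finite solvable group. If every irreducible complex character degree of `G` is squarefree (1 included), then the derived length of `G` is at most 4. -/
theorem result {G : Type*} [Group G] [Finite G] [Group.IsSolvable G]
    (h : ∀ χ : Cfsg.IrrCharacter G, Squarefree (Cfsg.charDegree (χ : G → ℂ))) : derivedSeries G 4 = ⊥ := by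
  set F := fittingSubgroup G with hF
  have h1 : commutator (G ⧸ F) ≤ centralizer (fittingSubgroup (G ⧸ F) : Set (G ⧸ F)) := by
    rw [le_centralizer_iff, fitting_eq_iSup_pCore]
    refine iSup_le fun q => ?_
    haveI := Fact.mk q.2
    haveI : IsCyclic (pCore (q : ℕ) (G ⧸ F)) := isCyclic_of_card_dvd_prime (card_pCore h)
    rw [← le_centralizer_iff, commutator_def]
    refine commutator_le.2 fun a _ b _ x hx => ?_
    have := congrArg (fun f : MulAut (pCore (q : ℕ) (G ⧸ F)) => (f ⟨x, hx⟩ : G ⧸ F))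
      (show MulAut.conjNormal ⁅a, b⁆ = 1 by
        rw [map_commutatorElement, commutatorElement_eq_one_iff_mul_comm]
        exact (IsCyclic.mulAutMulEquiv (pCore (q : ℕ) (G ⧸ F))).injective
          (by rw [map_mul, map_mul, mul_comm]))
    simp only [MulAut.conjNormal_apply, MulAut.one_apply] at this
    rw [mul_inv_eq_iff_eq_mul] at this
    exact this.symm
  have h2 : derivedSeries (G ⧸ F) 2 = ⊥ := by
    change ⁅commutator _, commutator _⁆ = ⊥
    rw [commutator_eq_bot_iff_le_centralizer]
    exact h1.trans (centralizer_le (h1.trans centralizer_fitting_le))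
  rw [← map_derivedSeries_eq (QuotientGroup.mk'_surjective F), Subgroup.map_eq_bot_iff,
    QuotientGroup.ker_mk'] at h2
  haveI := isNilpotent_fitting G
  have h3 := congrArg (map F.subtype) (nilp_case (sqf_sub h F))
  rw [Subgroup.map_bot] at h3
  rw [eq_bot_iff, ← h3]
  change ⁅⁅derivedSeries G 2, derivedSeries G 2⁆, ⁅derivedSeries G 2, derivedSeries G 2⁆⁆ ≤
    map F.subtype ⁅⁅⊤, ⊤⁆, ⁅⊤, ⊤⁆⁆
  simp only [map_commutator, ← MonoidHom.range_eq_map, range_subtype]
  exact commutator_mono (commutator_mono h2 h2) (commutator_mono h2 h2)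

end Cfsg.Agent.S5010
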