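import Cfsg.Statements.S5087
import Cfsg.Agent.Lib.Fus.Normal

set_option autoImplicit false
open Cfsg

namespace Cfsg.Agent.S5087

open Cfsg.Agent.Fus Cfsg.FusionSystem

/-- In a saturated fusion system over a finite p-group S, a subgroup Q is normal in the system if and only if every subgroup P that equals S or is essential contains Q and every element of Aut_F(P) maps Q onto itself. -/
theorem result {Ω : Type*} [Group Ω] {S : Subgroup Ω} [Finite S] (p : ℕ) [Fact p.Prime] (hS : IsPGroup p S) (F : Cfsg.FusionSystem S) (hF : F.IsSaturated p) (Q : Subgroup Ω) : F.IsNormal Q ↔ ∀ P : Subgroup Ω, (P = S ∨ F.IsEssential p P) → (Q ≤ P ∧ ∀ α ∈ F.autGroup P, (Q.subgroupOf P).map α.toMonoidHom = Q.subgroupOf P) := by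
  constructor
  · intro hQ P hP
    have hP' := fcr_of_top_or_essential hS hF hP
    have hQP := le_of_isNormal_of_essential hS hF hQ hP
    refine ⟨hQP, fun α hα => ?_⟩
    have key : ∀ β ∈ F.autGroup P, ∀ x : P, (x : Ω) ∈ Q → ((β x : P) : Ω) ∈ Q := fun β hβ x hx => by
      rw [← Fus2.afn_coe]
      exact afn_mem_of_sc hP'.1.1 hβ (Fus2.sc_of_isNormal hQ) x.2 hx
    apply le_antisymm
    · rintro _ ⟨x, hx, rfl⟩
      exact key α hα x hx
    · intro x hx
      exact ⟨α⁻¹ x, key _ (Subgroup.inv_mem _ hα) x hx, MulAut.apply_inv_self _ α x⟩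
  · intro h
    refine isNormal_of_essential hS hF fun E hE => ⟨(h E hE).1, fun α hα x hx => ?_⟩
    rw [Fus2.afn_apply _ ((h E hE).1 hx)]
    exact ((h E hE).2 α hα).le ⟨⟨x, (h E hE).1 hx⟩, hx, rfl⟩

end Cfsg.Agent.S5087
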