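import Cfsg.Statements.S5088
import Cfsg.Agent.Lib.Fus.Normal

set_option autoImplicit false
open Cfsg

namespace Cfsg.Agent.S5088

open Cfsg.Agent.Fus Cfsg.FusionSystem

/-- In a saturated fusion system over a finite p-group, a subgroup Q is normal in the system if and only if there is a chain of subgroups 1 = Q₀ ≤ Q₁ ≤ ⋯ ≤ Qₙ = Q such that each Qᵢ with i ≥ 1 is strongly closed in the system and [Q, Qᵢ] ≤ Qᵢ₋₁. -/
theorem result {Ω : Type*} [Group Ω] {S : Subgroup Ω} [Finite S] (p : ℕ) [Fact p.Prime] (hS : IsPGroup p S) (F : Cfsg.FusionSystem S) (hF : F.IsSaturated p) (Q : Subgroup Ω) : F.IsNormal Q ↔ ∃ (n : ℕ) (Qs : Fin (n + 1) → Subgroup Ω), Qs 0 = ⊥ ∧ Qs (Fin.last n) = Q ∧ Monotone Qs ∧ ∀ i : Fin n, F.StronglyClosed (Qs i.succ) ∧ ⁅Q, Qs i.succ⁆ ≤ Qs (Fin.castSucc i) := by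
  constructor
  · intro hQ
    have := finite_of_le hQ.1
    obtain ⟨n, hn⟩ := exists_ucs_eq (isPGroup_of_le hS hQ.1)
    refine ⟨n, fun i => ucs Q i, ucs_zero, hn, fun i j h => ucs_mono h, fun i =>
      ⟨Fus2.sc_of_isNormal (Fus2.isNormal_of_char hQ (ucs_le _) (ucs_characteristic _)), ?_⟩⟩
    rw [Subgroup.commutator_comm]
    exact ucs_commutator _
  · rintro ⟨n, C, h0, hn, hmono, h⟩
    have hsc : ∀ i, F.StronglyClosed (C i) := fun i => by
      refine Fin.cases ?_ (fun j => (h j).1) i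
      rw [h0]
      exact Fus2.sc_bot F
    refine isNormal_of_series hS hF (hn ▸ hsc _)
      (fun i => if hi : i < n + 1 then C ⟨i, hi⟩ else Q) n (by simpa using h0)
      (by simp only [Nat.lt_succ_self, dif_pos]; exact hn) (fun i hi => ?_) (fun i hi => ?_) fun i hi => ?_
    · simp only [Nat.succ_lt_succ hi, hi.trans (Nat.lt_succ_self n), dif_pos]
      exact hmono (Nat.le_succ i)
    · simp only [Nat.succ_lt_succ hi, hi.trans (Nat.lt_succ_self n), dif_pos]
      rw [Subgroup.commutator_comm]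
      exact (h ⟨i, hi⟩).2
    · simp only [hi.trans (Nat.lt_succ_self n), dif_pos]
      exact Fus2.sc_weaklyClosed (hsc _)

end Cfsg.Agent.S5088
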