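import Cfsg.Statements.S5089
import Cfsg.Agent.Lib.Fus.Normal

set_option autoImplicit false
open Cfsg

namespace Cfsg.Agent.S5089

open Cfsg.Agent.Fus Cfsg.FusionSystem

/-- A saturated fusion system over a finite p-group has a nontrivial subgroup that is normal in the system (O_p(F) ≠ 1) if and only if some nontrivial abelian subgroup is strongly closed in the system. -/
theorem result {Ω : Type*} [Group Ω] {S : Subgroup Ω} [Finite S] (p : ℕ) [Fact p.Prime] (hS : IsPGroup p S) (F : Cfsg.FusionSystem S) (hF : F.IsSaturated p) : F.core ≠ ⊥ ↔ ∃ Q : Subgroup Ω, Q ≠ ⊥ ∧ IsMulCommutative Q ∧ F.StronglyClosed Q := by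
  constructor
  · intro h
    have hQ := Fus2.isNormal_core F
    have := finite_of_le hQ.1
    have hp := isPGroup_of_le hS hQ.1
    have : Nontrivial F.core := (Subgroup.nontrivial_iff_ne_bot _).2 h
    refine ⟨ucs F.core 1, ?_, ?_,
      Fus2.sc_of_isNormal (Fus2.isNormal_of_char hQ (ucs_le _) (ucs_characteristic _))⟩
    · rw [ucs, Subgroup.upperCentralSeries_one, Ne,
        Subgroup.map_eq_bot_iff_of_injective _ (Subgroup.subtype_injective _)]
      exact hp.bot_lt_center.ne'
    · rw [ucs, Subgroup.upperCentralSeries_one]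
      infer_instance
  · rintro ⟨Q, hQ, hab, hsc⟩ h
    refine hQ (le_bot_iff.1 (h ▸ Fus2.le_core (isNormal_of_sc_of_comm hS hF hsc ?_)))
    exact fun x hx y hy => setLike_mul_comm hx hy

end Cfsg.Agent.S5089
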