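import Cfsg.Statements.S5094
import Cfsg.Agent.Lib.ZStar.WC
import Cfsg.Agent.Lib.Fus.Normal
import Cfsg.Agent.Lib.Fus.Group

set_option autoImplicit false
open Cfsg

namespace Cfsg.Agent.S5094

/-- Glauberman's Z*-Theorem in fusion language: for a finite group G with Sylow 2-subgroup S, the centre of the fusion system of G on S is the set of elements of S whose image in G/O(G) is central, O(G) being the largest normal subgroup of odd order. -/
theorem result {G : Type*} [Group G] [Finite G] (S : Sylow 2 G) : (Cfsg.groupFusionSystem (S : Subgroup G)).center = (S : Subgroup G) ⊓ (Subgroup.center (G ⧸ Cfsg.oddCore G)).comap (QuotientGroup.mk' (Cfsg.oddCore G)) := by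
  haveI : Fact (Nat.Prime 2) := ⟨Nat.prime_two⟩
  ext x
  rw [Cfsg.Agent.Fus.mem_center_iff S.isPGroup' (Cfsg.Agent.Fus.group_isSaturated S),
    Subgroup.mem_inf, Subgroup.mem_comap]
  refine and_congr_right fun hx => ⟨fun h => ?_, fun h => ?_⟩
  · have hw : ∀ g : G, g * x * g⁻¹ ∈ (S : Subgroup G) → g * x * g⁻¹ = x := by
      intro g hg
      refine h _ ⟨(MulAut.conj g).toMonoidHom.comp (Subgroup.zpowers x).subtype,
        ⟨Subgroup.zpowers_le.2 hx, ?_, g, fun _ => rfl⟩, rfl⟩
      rintro ⟨_, n, rfl⟩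
      show g * x ^ n * g⁻¹ ∈ (S : Subgroup G)
      rw [← conj_zpow]
      exact zpow_mem hg n
    rw [Subgroup.mem_center_iff]
    intro g
    obtain ⟨g, rfl⟩ := QuotientGroup.mk_surjective g
    have := (QuotientGroup.eq_one_iff _).2 (Cfsg.Agent.ZStar.zstar_wc S hx hw g)
    exact (commutatorElement_eq_one_iff_commute.1 this).symm
  · rintro y ⟨φ, ⟨-, h2, g, hg⟩, rfl⟩
    have h3 := h2 ⟨x, Subgroup.mem_zpowers x⟩
    rw [hg] at h3 ⊢
    have h4 : g * x * g⁻¹ * x⁻¹ ∈ Cfsg.pPrimeCore 2 G := by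
      rw [← QuotientGroup.eq_one_iff]
      have := Subgroup.mem_center_iff.1 h (g : G ⧸ Cfsg.oddCore G)
      simp only [QuotientGroup.mk'_apply] at this
      simp only [QuotientGroup.mk_mul, QuotientGroup.mk_inv]
      rw [this]; group
    have h5 := (Subgroup.disjoint_def.1 (Cfsg.Agent.Fit.disjoint_pPrimeCore S.isPGroup'))
      (mul_mem h3 (inv_mem hx)) h4
    exact mul_inv_eq_one.1 h5

end Cfsg.Agent.S5094
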