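import Cfsg.Statements.S5107
import Cfsg.Agent.Lib.Fus.Centric

set_option autoImplicit false
open Cfsg

namespace Cfsg.Agent.S5107

open Cfsg.Agent.Fus Cfsg.FusionSystem

/-- If a Sylow p-subgroup S of a finite group G has nilpotency class at most two and its centre is strongly closed in S with respect to G, then every map of the fusion system of G on S is conjugation by an element of N_G(S), and S is the largest subgroup normal in that fusion system. -/
theorem result {G : Type*} [Group G] [Finite G] (p : ℕ) [Fact p.Prime] (S : Sylow p G) (hcl : ⁅(S : Subgroup G), (S : Subgroup G)⁆ ≤ (S : Subgroup G) ⊓ Subgroup.centralizer ((S : Subgroup G) : Set G)) (hZ : Cfsg.IsStronglyClosed ((S : Subgroup G) ⊓ Subgroup.centralizer ((S : Subgroup G) : Set G)) (S : Subgroup G)) : (∀ (P : Subgroup G) (φ : P →* G), φ ∈ (Cfsg.groupFusionSystem (S : Subgroup G)).Hom P → ∃ g ∈ Subgroup.normalizer ((S : Subgroup G) : Set G), ∀ x : P, φ x = g * (x : G) * g⁻¹) ∧ (Cfsg.groupFusionSystem (S : Subgroup G)).core = S := by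
  have hS := S.isPGroup'
  have hF := group_isSaturated S
  have hZ' : (groupFusionSystem (S : Subgroup G)).StronglyClosed
      ((S : Subgroup G) ⊓ Subgroup.centralizer ((S : Subgroup G) : Set G)) :=
    Fus2.stronglyClosed_iff.2 ⟨inf_le_left, fun P f hf x hx hxZ => by
      obtain ⟨-, h1, g, e⟩ := Fus2.M_group_iff.1 hf
      rw [e x hx]
      exact hZ.2 x hxZ g (e x hx ▸ h1 x hx)⟩
  have hn : (groupFusionSystem (S : Subgroup G)).IsNormal S := by
    refine isNormal_of_series hS hF (Fus2.sc_top _) (fun i => if i = 0 then ⊥ else if i = 1 then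
      (S : Subgroup G) ⊓ Subgroup.centralizer ((S : Subgroup G) : Set G) else S) 2 rfl rfl
      (fun i hi => ?_) (fun i hi => ?_) fun i hi => ?_
    · interval_cases i <;> simp
    · interval_cases i
      · simp only [zero_add, one_ne_zero, if_false, if_true, Subgroup.commutator_le,
          Subgroup.mem_bot]
        exact fun x hx y hy => commutatorElement_eq_one_iff_mul_comm.2 (hx.2 y hy).symm
      · simpa using hcl
    · interval_cases i
      · simpa using Fus2.sc_weaklyClosed (Fus2.sc_bot _)
      · simpa using Fus2.sc_weaklyClosed hZ'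
  refine ⟨fun P φ hφ => ?_, le_antisymm (Fus2.core_le _) (Fus2.le_core hn)⟩
  obtain ⟨α, hα, e⟩ := exists_aut_of_isNormal hn (le_of_mem hφ) (Fus2.M_fn hφ)
  obtain ⟨-, -, g, eg⟩ := Fus2.M_group_iff.1 (M_afn le_rfl hα)
  exact ⟨g, Fus2.mem_normalizer_of_afn eg, fun x => by
    rw [← Fus2.fn_coe φ, ← e x x.2, eg x (le_of_mem hφ x.2)]⟩

end Cfsg.Agent.S5107
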