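import Cfsg.Statements.S5112
import Cfsg.Agent.Lib.Fus.AutTwo
import Cfsg.Agent.Lib.Fus.Alperin

set_option autoImplicit false
open Cfsg

namespace Cfsg.Agent.S5112

open Cfsg.Agent.Fus Cfsg.FusionSystem

theorem aux {G H : Type*} [Group G] [Group H] [Finite G] (e : G ≃* H) (hH : IsPGroup 2 H) {a : H}
    (ha4 : a ^ 4 ≠ 1) (hout : ∀ g, g ∉ Subgroup.zpowers a → g ^ 4 = 1)
    (hidx : ∀ g h, g ∉ Subgroup.zpowers a → h ∉ Subgroup.zpowers a → g⁻¹ * h ∈ Subgroup.zpowers a) :
    IsPGroup 2 G ∧ IsPGroup 2 (MulAut G) := by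
  have : Finite H := Finite.of_equiv G e.toEquiv
  refine ⟨hH.of_equiv e.symm, IsPGroup.of_equiv (G := MulAut H) (fun α => ?_) (MulAut.congr e.symm)⟩
  exact exists_pow_eq_one_of_cyclic_index_two hH ha4 hout hidx α

/-- If S is a dihedral or generalized quaternion 2-group of order at least 16, then in every saturated fusion system over S (at the prime 2) the automorphism group Aut_F(S) consists of the inner automorphisms of S. -/
theorem result {Ω : Type*} [Group Ω] {S : Subgroup Ω} [Finite S] (n : ℕ) (hn : 4 ≤ n) (hshape : Nonempty (S ≃* DihedralGroup (2 ^ (n - 1))) ∨ Nonempty (S ≃* QuaternionGroup (2 ^ (n - 2)))) (F : Cfsg.FusionSystem S) (hF : F.IsSaturated 2) : F.autGroup S = Cfsg.Inn S := by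
  obtain ⟨m, rfl⟩ : ∃ m, n = m + 4 := ⟨n - 4, by omega⟩
  have key : IsPGroup 2 S ∧ IsPGroup 2 (MulAut S) := by
    rcases hshape with ⟨⟨e⟩⟩ | ⟨⟨e⟩⟩
    · have hr : ∀ i, DihedralGroup.r i ∈
          Subgroup.zpowers (DihedralGroup.r 1 : DihedralGroup (2 ^ (m + 4 - 1))) := fun i =>
        ⟨i.val, by simp⟩
      refine aux e (IsPGroup.of_card (n := m + 4) ?_) (a := DihedralGroup.r 1) ?_ ?_ ?_
      · rw [DihedralGroup.nat_card, show m + 4 - 1 = m + 3 from rfl]
        ring
      · rw [Ne, ← orderOf_dvd_iff_pow_eq_one, DihedralGroup.orderOf_r_one,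
          show m + 4 - 1 = m + 3 from rfl]
        intro h
        have := Nat.le_of_dvd (by norm_num) h
        have : 2 ^ 3 ≤ 2 ^ (m + 3) := Nat.pow_le_pow_right (by norm_num) (by omega)
        omega
      · rintro (i | i) h
        · exact absurd (hr i) h
        · have := pow_mul (DihedralGroup.sr i) 2 2
          rwa [sq (DihedralGroup.sr i), DihedralGroup.sr_mul_self, one_pow] at this
      · rintro (i | i) (j | j) h h'
        · exact absurd (hr i) h
        · exact absurd (hr i) h
        · exact absurd (hr j) h'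
        · exact hr _
    · have hr : ∀ i, QuaternionGroup.a i ∈
          Subgroup.zpowers (QuaternionGroup.a 1 : QuaternionGroup (2 ^ (m + 4 - 2))) := fun i =>
        ⟨i.val, by
          show QuaternionGroup.a 1 ^ (i.val : ℤ) = _
          rw [zpow_natCast, QuaternionGroup.a_one_pow, ZMod.natCast_zmod_val]⟩
      refine aux e (IsPGroup.of_card (n := m + 4) ?_) (a := QuaternionGroup.a 1) ?_ ?_ ?_
      · rw [Nat.card_eq_fintype_card, QuaternionGroup.card, show m + 4 - 2 = m + 2 from rfl]
        ring
      · rw [Ne, ← orderOf_dvd_iff_pow_eq_one, QuaternionGroup.orderOf_a_one,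
          show m + 4 - 2 = m + 2 from rfl]
        intro h
        have := Nat.le_of_dvd (by norm_num) h
        have : 2 ^ 2 ≤ 2 ^ (m + 2) := Nat.pow_le_pow_right (by norm_num) (by omega)
        omega
      · rintro (i | i) h
        · exact absurd (hr i) h
        · exact QuaternionGroup.xa_pow_four i
      · rintro (i | i) (j | j) h h'
        · exact absurd (hr i) h
        · exact absurd (hr i) h
        · exact absurd (hr j) h'
        · exact hr _
  exact autGroup_top_eq_Inn_of_isPGroup key.1 hF (key.2.to_subgroup _)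

end Cfsg.Agent.S5112
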