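import Cfsg.Statements.S5121
import Cfsg.Agent.Lib.Asch.Constr

set_option autoImplicit false
open Cfsg

namespace Cfsg.Agent.S5121

open Cfsg Cfsg.FusionSystem Cfsg.Agent Cfsg.Agent.Fus2

theorem sylow_iff {G : Type*} [Group G] {p : ℕ} {T H : Subgroup G} (h : T ≤ H) :
    (∃ R : Sylow p H, (R : Subgroup H) = T.subgroupOf H) ↔ Fus.IsSylowIn p T H :=
  ⟨fun h' => ⟨h, h'⟩, fun h' => h'.2⟩

/-- Let G be a finite group with Sylow p-subgroup S and C_G(O_p(G)) ≤ O_p(G). For every subgroup T ≤ S and every normal subsystem E over T of the fusion system of G on S there is exactly one normal subgroup H of G containing T as a Sylow p-subgroup whose fusion system on T is E. -/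
theorem result {G : Type*} [Group G] [Finite G] (p : ℕ) [Fact p.Prime] (S : Sylow p G) (hG : Subgroup.centralizer ((Cfsg.pCore p G : Subgroup G) : Set G) ≤ Cfsg.pCore p G) (T : Subgroup G) (hTS : T ≤ S) (E : Cfsg.FusionSystem T) (hE : E.IsNormalIn (Cfsg.groupFusionSystem (S : Subgroup G)) p) : ∃ H : Subgroup G, (∃ hTH : T ≤ H, H.Normal ∧ (∃ R : Sylow p H, (R : Subgroup H) = T.subgroupOf H) ∧ ∀ P : Subgroup G, E.Hom P = (Cfsg.fusionSystemOfSubgroup H T hTH).Hom P) ∧ ∀ H' : Subgroup G, (∃ hTH' : T ≤ H', H'.Normal ∧ (∃ R : Sylow p H', (R : Subgroup H') = T.subgroupOf H') ∧ ∀ P : Subgroup G, E.Hom P = (Cfsg.fusionSystemOfSubgroup H' T hTH').Hom P) → H' = H := by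
  obtain ⟨H, hn, hH, e⟩ := Asch.exists_normal_of_nor (Fus.isSylowIn_top S) hG
    (Asch.isNormalIn_iff.1 hE)
  refine ⟨H, ⟨hH.le, hn, (sylow_iff hH.le).2 hH, fun P => by rw [← e]⟩, ?_⟩
  rintro H' ⟨hTH', hn', hs, e'⟩
  have hH' := (sylow_iff hTH').1 hs
  have e2 : autInducedBy H' (pCore p G ⊓ T) = autInducedBy H (pCore p G ⊓ T) := by
    rw [← Fus.sub_autGroup (hTH := hTH') inf_le_right, ← Fus.sub_autGroup (hTH := hH.le) inf_le_right,
      ← e, ← fusionSystem_ext e']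
  exact le_antisymm (Asch.le_of_sub_le hG hH' hH e2.le) (Asch.le_of_sub_le hG hH hH' e2.ge)

end Cfsg.Agent.S5121
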