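import Cfsg.Statements.S5123
import Cfsg.Agent.Lib.Fus.Group

set_option autoImplicit false
open Cfsg

namespace Cfsg.Agent.S5123

open Cfsg.Agent.Fus Cfsg.FusionSystem

/-- Let G be a finite group with Sylow p-subgroup S, P, Q ≤ S and g ∈ G with gPg⁻¹ = Q, and suppose N_S(Q) is a Sylow p-subgroup of N_G(Q). Let N be the set of x ∈ N_S(P) with gxg⁻¹ ∈ N_S(Q)C_G(Q). Then some h ∈ C_G(Q) satisfies (hg)N(hg)⁻¹ ≤ S. -/
theorem result {G : Type*} [Group G] [Finite G] (p : ℕ) [Fact p.Prime] (S : Sylow p G) (P Q : Subgroup G) (hP : P ≤ S) (hQ : Q ≤ S) (g : G) (hg : P.map (MulAut.conj g).toMonoidHom = Q) (hN : (∃ R : Sylow p ↥(Subgroup.normalizer (Q : Set G)), (R : Subgroup ↥(Subgroup.normalizer (Q : Set G))) = (Cfsg.FusionSystem.normalizerIn (S : Subgroup G) Q).subgroupOf (Subgroup.normalizer (Q : Set G)))) : ∃ h ∈ Subgroup.centralizer (Q : Set G), ((Cfsg.FusionSystem.normalizerIn (S : Subgroup G) P) ⊓ (Cfsg.FusionSystem.normalizerIn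 (S : Subgroup G) Q ⊔ Subgroup.centralizer (Q : Set G)).comap (MulAut.conj g).toMonoidHom).map (MulAut.conj (h * g)).toMonoidHom ≤ S := by
  have h' : IsSylowIn p (normalizerIn (S : Subgroup G) Q) (normalizerIn ⊤ Q) := by
    rw [normalizerIn_top]
    exact ⟨normalizerIn_le_normalizer Q, hN⟩
  obtain ⟨c, hc, H⟩ := exists_centralizer_conj_mem le_top h'
    (B := ((normalizerIn (S : Subgroup G) P) ⊓ (normalizerIn (S : Subgroup G) Q ⊔
      Subgroup.centralizer (Q : Set G)).comap (MulAut.conj g).toMonoidHom).map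
        (MulAut.conj g).toMonoidHom)
    ((S.isPGroup'.to_le (inf_le_left.trans (normalizerIn_le P))).map _) (by
      rw [centralizerIn_top]
      rintro _ ⟨x, hx, rfl⟩
      exact hx.2)
  refine ⟨c, hc.2, ?_⟩
  rintro _ ⟨x, hx, rfl⟩
  have : c * (g * x * g⁻¹) * c⁻¹ ∈ (S : Subgroup G) := (H _ ⟨x, hx, rfl⟩).1
  show c * g * x * (c * g)⁻¹ ∈ (S : Subgroup G)
  simpa only [mul_assoc, mul_inv_rev] using this

end Cfsg.Agent.S5123
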