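import Cfsg.Statements.S5130
import Cfsg.Agent.Lib.Fus2.Full

set_option autoImplicit false
open Cfsg

namespace Cfsg.Agent.S5130


/-- Let F be a saturated fusion system over a finite p-group S that is the direct product of two subgroups S₁ and S₂, each strongly closed in F. Let R be the full subsystem of F over S₁ (all maps of F between subgroups of S₁) and R′ the subsystem over S₁ of those maps that extend to the subgroup generated with S₂ fixing S₂ elementwise. Then R and R′ are saturated, R′ is normal in F and in R, and R is weakly normal in F. -/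
theorem result {Ω : Type*} [Group Ω] {S : Subgroup Ω} [Finite S] (p : ℕ) [Fact p.Prime] (hS : IsPGroup p S) (F : Cfsg.FusionSystem S) (hF : F.IsSaturated p) (S₁ S₂ : Subgroup Ω) (hprod : Cfsg.IsInternalDirectProduct S₁ S₂ S) (h₁ : F.StronglyClosed S₁) (h₂ : F.StronglyClosed S₂) (R R' : Cfsg.FusionSystem S₁) (hR : ∀ P : Subgroup Ω, P ≤ S₁ → R.Hom P = F.Hom P) (hR' : ∀ P : Subgroup Ω, P ≤ S₁ → R'.Hom P = F.centralizerHom S₂ P) : R.IsSaturated p ∧ R'.IsSaturated p ∧ R'.IsNormalIn F p ∧ R'.IsNormalIn R p ∧ R.IsWeaklyNormalIn F p := by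
  open Cfsg.FusionSystem Fus2 in
  obtain ⟨l1, l2, hc, hd, hs⟩ := hprod
  have := finite_of_le l1
  have hR := isFull_of_Hom_eq hR
  have lC : S₁ ≤ centralizerIn S S₂ := fun a ha =>
    Fus.mem_centralizerIn.2 ⟨l1 ha, fun b hb => (hc a ha b hb).symm⟩
  have hR' : ∀ P f, M R' P f ↔ P ≤ S₁ ∧ NK F S₂ ⊥ P f := fun P f =>
    ⟨fun H => ⟨H.le, (Hom_eq_centralizerHom_iff.1 (hR' P H.le) f).1 H⟩,
      fun H => (Hom_eq_centralizerHom_iff.1 (hR' P H.1) f).2 H.2⟩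
  have hR'' : ∀ P f, M R' P f ↔ P ≤ S₁ ∧
      ∃ g, M F (P ⊔ S₂) g ∧ (∀ x ∈ P, g x = f x) ∧ ∀ x ∈ S₂, g x = x := fun P f => by
    rw [hR', NK_bot_iff]
    exact and_congr_right fun h => and_iff_right (h.trans lC)
  have dec : ∀ s ∈ S, ∃ a ∈ S₁, ∃ b ∈ S₂, a * b = s := fun s h =>
    (mem_sup_iff_of_sc h₂ l1).1 (hs ▸ h)
  have hc' : ∀ s ∈ S, ∃ t ∈ S₁, ∀ x ∈ S₁, s * x * s⁻¹ = t * x * t⁻¹ := fun s h => by
    obtain ⟨a, ha, b, hb, rfl⟩ := dec s h
    refine ⟨a, ha, fun x hx => ?_⟩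
    rw [mul_assoc a b x, ← hc x hx b hb]; group
  have s1 : R.IsSaturated p := hR.saturated hS hF h₁ hc'
  have hC := isCentralizerSystem_centralizerSystem F l2
  have s2 : R'.IsSaturated p := by
    refine IsFull.saturated (F := centralizerSystem F l2)
      (Fus.isPGroup_of_le hS (Fus.centralizerIn_le _))
      (centralizer_saturated hS hF (fullyCentralized_of_weaklyClosed (sc_weaklyClosed h₂)) hC)
      (fun P f => ?_) (sc_sub (centralizer_isSubsystemOf hC) h₁ lC) fun s h => hc' s h.1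
    rw [hR', M_centralizer_iff hC, NK_bot_iff]
  have ext1 : ∀ a, M F S₁ a → ∃ g, M F S g ∧ ∀ x ∈ S₁, g x = a x := fun a ha =>
    hs ▸ exists_ext_of_disjoint hS hF h₁ h₂ hd le_rfl ha
  have ext2 : ∀ a, M F S₂ a → ∃ g, M F S g ∧ ∀ x ∈ S₂, g x = a x := fun a ha => by
    have := exists_ext_of_disjoint hS hF h₂ h₁ (inf_comm S₁ S₂ ▸ hd) le_rfl ha
    rwa [sup_comm, hs] at this
  have i1 : InvM R' F := by
    refine ⟨fun P f hf => ((hR' P f).1 hf).2.toM, h₁, fun P f hf a ha hi => ?_,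
      fun P f hP hf => ?_⟩
    · obtain ⟨hP, g, hg, e, c⟩ := (hR'' P f).1 hf
      obtain ⟨k, hk, ek⟩ := ext1 a ha
      obtain ⟨l, hl, hkl⟩ := hk.exists_gIso (hk.img_eq_self fun x hx => hk.mem hx)
      have := (hk.isoM_self hl hkl).push _ _ hg
      rw [hkl.img_sup (hP.trans l1) l2, hk.img_eq_of_sc h₂ l2,
        img_congr fun x hx => ek x (hP hx)] at this
      refine ⟨_, (hR'' _ _).2 ⟨hi ▸ img_mono a hP, _, this, fun _ _ => rfl, fun x hx => ?_⟩,
        fun x hx => ?_⟩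
      · simp only [c _ (hl.mem_of_sc h₂ (l2 hx) hx), hkl.right x (l2 hx)]
      · simp only [← ek x (hP hx), hkl.left x (l1 (hP hx)), e x hx, ek _ (hf.mem hx)]
    · obtain ⟨g, hg, e⟩ := exists_ext_of_disjoint hS hF h₁ h₂ hd hP hf
      obtain ⟨k, hk, ek⟩ := ext2 g (hg.mono le_sup_right)
      obtain ⟨l, hl, hkl⟩ := hk.exists_gIso (hk.img_eq_self fun x hx => hk.mem hx)
      refine ⟨k, fun x => l (g x), hk.mono l1, hk.img_eq_of_sc h₁ l1,
        (hR'' _ _).2 ⟨hP, _, hg.comp hl fun x hx => hg.mem hx, fun _ _ => rfl, fun x hx => ?_⟩,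
        fun x hx => ?_⟩
      · simp only [← ek x hx, hkl.left x (l2 hx)]
      · simp only [e x hx, hkl.right _ (hf.mem hx)]
  have i2 : InvM R' R := by
    refine ⟨fun P f hf => (hR P f).2 ⟨hf.le, i1.sub P f hf⟩, sc_top R,
      fun P f hf a ha => i1.conj P f hf a ((hR _ a).1 ha).2, fun P f hP hf => ?_⟩
    obtain ⟨a, f₀, ha, H⟩ := i1.frattini P f hP ((hR _ f).1 hf).2
    exact ⟨a, f₀, (hR _ a).2 ⟨le_rfl, ha⟩, H⟩
  refine ⟨s1, s2, isNormalIn_iff.2 ⟨s2, hF, i1, fun a ha => ?_⟩,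
    isNormalIn_iff.2 ⟨s2, s1, i2, fun a ha => ?_⟩, isWeaklyNormalIn_iff.2 ⟨s1, hF, hR.invM h₁⟩⟩
  · obtain ⟨-, g, hg, e, c⟩ := (hR'' _ a).1 ha
    rw [hs] at hg
    refine ⟨g, hg.mono (sup_le l1 (Fus.centralizerIn_le _)), e, fun s h => ?_⟩
    obtain ⟨x, hx, y, hy, rfl⟩ := dec s h.1
    rw [hg.map_mul (l1 hx) (l2 hy), c y hy]
    have := sc_conj_mem h₁ (S.inv_mem (l2 hy))
      (S₁.mul_mem (S₁.inv_mem hx) (hg.mem_of_sc h₁ (l1 hx) hx))
    convert this using 1; group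
  · exact ⟨a, (i2.sub _ a ha).mono (sup_le le_rfl (Fus.centralizerIn_le _)), fun _ _ => rfl,
      fun c hc => S₁.mul_mem (S₁.inv_mem hc.1) (ha.mem hc.1)⟩

end Cfsg.Agent.S5130
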