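import Cfsg.Statements.S5139
import Cfsg.Agent.Lib.Asch.PNormal
import Cfsg.Agent.Lib.Fus.Group

set_option autoImplicit false
open Cfsg

namespace Cfsg.Agent.S5139

open Cfsg Cfsg.FusionSystem Cfsg.Agent Cfsg.Agent.Fus2

theorem aux {G : Type*} [Group G] [Finite G] (p : ℕ) [Fact p.Prime] (S : Sylow p G)
    (T : Subgroup G) (hT : T = (S : Subgroup G) ⊓ pResidual p G) (E : FusionSystem T)
    (hE : E.IsSaturated p) (hi : E.HasPPowerIndexIn (groupFusionSystem (S : Subgroup G)) p) (P : Subgroup G) :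
    E.Hom P = (fusionSystemOfSubgroup (pResidual p G) ((S : Subgroup G) ⊓ pResidual p G)
      inf_le_right).Hom P := by
  subst hT
  have hs : Fus.IsSylowIn p ((S : Subgroup G) ⊓ pResidual p G) (pResidual p G) :=
    (Fus.isSylowIn_top S).inf_of_normal le_top fun g _ n hn => (Tr.pResidual_normal p G).conj_mem n hn g
  rw [Biset.eq_of_pPowerIndex hs.isPGroup hE (Fus.sub_isSaturated (hTH := inf_le_right) hs) hi]
  refine Biset.hasPPowerIndexIn_iff.2 ⟨isSubsystemOf_iff.2 fun P f hf => ?_, hi.2.1, ?_⟩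
  · obtain ⟨h1, h2, g, -, h3⟩ := M_sub_iff.1 hf
    exact M_group_iff.2 ⟨h1.trans inf_le_left, fun x hx => (h2 x hx).1, g, h3⟩
  · intro P hP α hα hc
    rw [Fus.group_autGroup (hP.trans inf_le_left)] at hα
    rw [Fus.sub_autGroup hP]
    obtain ⟨g, hg, rfl⟩ := Fus.mem_autInducedBy_iff'.1 hα
    obtain ⟨n, h1, h2⟩ := Fus.exists_pow_pPrimeElement (p := p) (isOfFinOrder_of_finite g) hc
    have h3 : Fus.conjAutHom ⊤ P (⟨g, hg⟩ ^ n) = Fus.conjAut P g hg.2 := by
      rw [map_pow, Fus.conjAutHom_apply, Fus.pow_eq_self_of_modEq (pow_orderOf_eq_one _) h1]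
    rw [← h3, Fus.conjAutHom_apply]
    exact Fus.conjAut_mem_autInducedBy (Tr.mem_pResidual_of_coprime h2) _

/-- Let G be a finite group with Sylow p-subgroup S and O^p(G) the subgroup generated by the elements of order prime to p. Then the p-residual subsystem of the fusion system of G on S — the saturated subsystem of p-power index over the hyperfocal subgroup — is the fusion system of O^p(G) on S ∩ O^p(G): its maps are exactly the conjugation maps by elements of O^p(G) between subgroups of S ∩ O^p(G). -/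
theorem result {G : Type*} [Group G] [Finite G] (p : ℕ) [Fact p.Prime] (S : Sylow p G) (E : Cfsg.FusionSystem ((Cfsg.groupFusionSystem (S : Subgroup G)).hyperfocalSubgroup p)) (hE : (Cfsg.groupFusionSystem (S : Subgroup G)).IsPResidual p E) : ∃ h : (S : Subgroup G) ⊓ Cfsg.pResidual p G ≤ Cfsg.pResidual p G, ∀ P : Subgroup G, E.Hom P = (Cfsg.fusionSystemOfSubgroup (Cfsg.pResidual p G) ((S : Subgroup G) ⊓ Cfsg.pResidual p G) h).Hom P := by
  exact ⟨inf_le_right, aux p S _ (hyp_group_eq S) E hE.1 hE.2⟩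

end Cfsg.Agent.S5139
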