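import Cfsg.Statements.S5156
import Cfsg.Agent.Lib.Fus.PSolv

set_option autoImplicit false
universe u
open Cfsg

namespace Cfsg.Agent.S5156

open Cfsg.Agent.Fus Cfsg.FusionSystem

/-- A saturated fusion system over a finite p-group has a terminating alternating chain of p'-residual and p-residual subsystems (the chain reaches the trivial system — the notion of solvability adapted to fusion systems of p-solvable groups) if and only if it is constrained and its models are p-solvable (a model is a finite group realizing the system on a Sylow p-subgroup with self-centralizing largest normal p-subgroup; it exists and is unique up to isomorphism for constrained systems). -/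
theorem result {Ω : Type u} [Group Ω] {S : Subgroup Ω} [Finite S] (p : ℕ) [Fact p.Prime] (hS : IsPGroup p S) (F : Cfsg.FusionSystem S) (hF : F.IsSaturated p) : F.HasTerminatingResidualSeries p ↔ (F.IsConstrained p ∧ ∀ (G : Type u) [Group G] (ι : S →* G), F.IsModel p G ι → Cfsg.IsPSolvable p G) := by
  constructor
  · intro h
    have := solvAut_of_terminating h hS hF
    exact ⟨this.1, fun G _ ι hG => isPSolvable_of_model hG (this.2 _ (Fus2.core_le F))⟩
  · rintro ⟨h, h'⟩
    obtain ⟨G, _, ι, hG⟩ := Asch.exists_model_of_constrained hS h
    have := hG.1
    exact terminating_of_solvAut _ rfl hS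
      ⟨h, fun P hP => isPSolvable_autGroup_of_realized hG.2.1 (h' G ι hG) hP⟩

end Cfsg.Agent.S5156
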