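import Cfsg.Statements.S5164
import Cfsg.Agent.Lib.Fus.Sylow

set_option autoImplicit false
open Cfsg

namespace Cfsg.Agent.S5164

open Equiv

theorem comm_of_lt {α : Type*} [Fintype α] {p : ℕ} [hp : Fact p.Prime] (hn : Fintype.card α < p ^ 2)
    {P : Subgroup (Perm α)} (hP : IsPGroup p P) (σ τ : P) : σ * τ = τ * σ := by
  classical
  refine Subtype.ext (Equiv.ext fun x => ?_)
  let φ := MulAction.toPermHom P (MulAction.orbit P x)
  obtain ⟨k, hk⟩ := hP.card_orbit x
  have hk1 : k ≤ 1 := by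
    have h1 : Nat.card (MulAction.orbit P x) ≤ Nat.card α :=
      Nat.card_le_card_of_injective _ Subtype.val_injective
    rw [hk, Nat.card_eq_fintype_card] at h1
    exact Nat.le_of_lt_succ ((Nat.pow_lt_pow_iff_right hp.out.one_lt).1 (h1.trans_lt hn))
  obtain ⟨m, hm⟩ := IsPGroup.iff_card.1 (hP.of_surjective _ φ.rangeRestrict_surjective)
  have hd : p ^ m ∣ (p ^ k).factorial := by
    rw [← hm, ← hk, ← Nat.card_perm]
    exact Subgroup.card_subgroup_dvd_card _
  have hd' : p ^ m ∣ p.factorial := hd.trans (Nat.factorial_dvd_factorial (by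
    calc p ^ k ≤ p ^ 1 := Nat.pow_le_pow_right hp.out.pos hk1
      _ = p := pow_one p))
  have hm1 : m ≤ 1 := by
    by_contra h
    have h2 : p * p ∣ p.factorial := by
      rw [← pow_two]; exact (pow_dvd_pow p (by omega)).trans hd'
    rw [← Nat.mul_factorial_pred hp.out.ne_zero] at h2
    have h3 := (Nat.Prime.dvd_factorial hp.out).1 (Nat.dvd_of_mul_dvd_mul_left hp.out.pos h2)
    have := hp.out.pos
    omega
  have hc : IsCyclic φ.range := by
    refine isCyclic_of_card_dvd_prime (p := p) ?_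
    rw [hm]
    exact (pow_dvd_pow p hm1).trans (pow_one p).dvd
  have h4 : φ.rangeRestrict σ * φ.rangeRestrict τ = φ.rangeRestrict τ * φ.rangeRestrict σ :=
    IsCyclic.commGroup.mul_comm _ _
  rw [← map_mul, ← map_mul] at h4
  have h5 : φ (σ * τ) = φ (τ * σ) := congrArg Subtype.val h4
  exact congrArg Subtype.val (Equiv.congr_fun h5 ⟨x, MulAction.mem_orbit_self x⟩)

/-- The wreath product of two cyclic groups of order `p`. -/
def W (p : ℕ) : Subgroup (Perm (ZMod p × ZMod p)) where
  carrier := {σ | ∃ (s : ZMod p) (f : ZMod p → ZMod p), ∀ x y, σ (x, y) = (x + s, y + f x)}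
  one_mem' := ⟨0, 0, fun x y => by simp⟩
  mul_mem' := by
    rintro σ τ ⟨s, f, h⟩ ⟨t, g, k⟩
    exact ⟨t + s, fun x => g x + f (x + t), fun x y => by
      rw [Perm.mul_apply, k, h, add_assoc, add_assoc]⟩
  inv_mem' := by
    rintro σ ⟨s, f, h⟩
    exact ⟨-s, fun x => -f (x + -s), fun x y => by
      rw [Perm.inv_def, Equiv.symm_apply_eq, h]; simp⟩

theorem isPGroup_W (p : ℕ) : IsPGroup p (W p) := by
  rintro ⟨σ, s, f, h⟩
  have h1 : ∀ m : ℕ, ∃ g : ZMod p → ZMod p, ∀ x y, (σ ^ m) (x, y) = (x + m * s, y + g x) := by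
    intro m
    induction m with
    | zero => exact ⟨0, fun x y => by simp⟩
    | succ m ih =>
      obtain ⟨g, hg⟩ := ih
      exact ⟨fun x => g x + f (x + m * s), fun x y => by
        rw [pow_succ', Perm.mul_apply, hg, h]; push_cast; simp [add_mul, add_assoc]⟩
  obtain ⟨g, hg⟩ := h1 p
  have h2 : ∀ m : ℕ, ∀ x y, ((σ ^ p) ^ m) (x, y) = (x, y + m * g x) := by
    intro m
    induction m with
    | zero => simp
    | succ m ih =>
      intro x y
      rw [pow_succ', Perm.mul_apply, ih, hg]; push_cast; simp [add_mul, add_assoc]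
  refine ⟨2, Subtype.ext (Equiv.ext fun ⟨x, y⟩ => ?_)⟩
  show (σ ^ p ^ 2) (x, y) = (x, y)
  rw [pow_two, pow_mul, h2]; simp

theorem W_noncomm (p : ℕ) [Fact p.Prime] : ∃ σ τ : W p, σ * τ ≠ τ * σ := by
  refine ⟨⟨Equiv.addRight (1, 0), 1, 0, fun x y => by simp⟩,
    ⟨Equiv.prodShear (Equiv.refl _) fun x => Equiv.addRight x, 0, id, fun x y => by simp⟩,
    fun h => ?_⟩
  have := Equiv.congr_fun (congrArg Subtype.val h) (0, 0)
  simp at this

theorem noncomm_of {n p : ℕ} [Fact p.Prime] (S : Sylow p (alternatingGroup (Fin n)))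
    {β : Type} [Fintype β] [DecidableEq β] (hβ : Fintype.card β ≤ n) (φ : W p →* Perm β)
    (hφ : Function.Injective φ) (hs : ∀ σ, Perm.sign (φ σ) = 1) : ¬ IsMulCommutative S := by
  classical
  intro h
  obtain ⟨ι⟩ : Nonempty (β ↪ Fin n) := Function.Embedding.nonempty_of_card_le (by simpa using hβ)
  let ψ : W p →* alternatingGroup (Fin n) :=
    ((Perm.extendDomainHom (Equiv.ofInjective ι ι.injective)).comp φ).codRestrict _ fun σ => by
      rw [Perm.mem_alternatingGroup, MonoidHom.comp_apply, Perm.extendDomainHom_apply,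
        Perm.sign_extendDomain, hs]
  have hψ : Function.Injective ψ := fun a b e =>
    hφ (Perm.extendDomainHom_injective _ (congrArg Subtype.val e))
  obtain ⟨g, -, hg⟩ := (Fus.isSylowIn_top S).exists_conj_mem
    ((isPGroup_W p).of_surjective _ ψ.rangeRestrict_surjective) le_top
  obtain ⟨σ, τ, hne⟩ := W_noncomm p
  refine hne (hψ ?_)
  have : g * ψ σ * g⁻¹ * (g * ψ τ * g⁻¹) = g * ψ τ * g⁻¹ * (g * ψ σ * g⁻¹) :=
    congrArg Subtype.val (h.is_comm.comm (⟨_, hg _ ⟨σ, rfl⟩⟩ : S) ⟨_, hg _ ⟨τ, rfl⟩⟩)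
  rw [map_mul, map_mul]
  calc ψ σ * ψ τ = g⁻¹ * (g * ψ σ * g⁻¹ * (g * ψ τ * g⁻¹)) * g := by group
    _ = _ := by rw [this]; group


/-- For n ≥ 6 and a prime p, a nontrivial Sylow p-subgroup of the alternating group of degree n is abelian if and only if n < p². -/
theorem result (n p : ℕ) (hn : 6 ≤ n) [Fact p.Prime] (S : Sylow p (alternatingGroup (Fin n))) (hS : (S : Subgroup (alternatingGroup (Fin n))) ≠ ⊥) : IsMulCommutative S ↔ n < p ^ 2 := by
  classical
  constructor
  · intro h
    by_contra hlt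
    rcases (Fact.out : p.Prime).eq_two_or_odd' with rfl | hodd
    · refine noncomm_of S (β := (ZMod 2 × ZMod 2) ⊕ ℤˣ) (by simpa using hn)
        ((Perm.sumCongrHom _ _).comp ((W 2).subtype.prod
          ((MulAction.toPermHom ℤˣ ℤˣ).comp (Perm.sign.comp (W 2).subtype)))) ?_ (fun σ => ?_) h
      · exact Perm.sumCongrHom_injective.comp fun a b e => Subtype.ext (congrArg Prod.fst e)
      · show Perm.sign (Perm.sumCongr (σ : Perm (ZMod 2 × ZMod 2))
          (MulAction.toPerm (Perm.sign (σ : Perm (ZMod 2 × ZMod 2))))) = 1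
        rw [Perm.sign_sumCongr]
        rcases Int.units_eq_one_or (Perm.sign (σ : Perm (ZMod 2 × ZMod 2))) with e | e <;>
          rw [e] <;> decide
    · refine noncomm_of S (β := ZMod p × ZMod p) (by simpa [pow_two] using hlt) (W p).subtype
        (W p).subtype_injective (fun σ => ?_) h
      obtain ⟨k, hk⟩ := isPGroup_W p σ
      have := congrArg (fun x : W p => Perm.sign ((W p).subtype x)) hk
      simp only [map_pow, map_one] at this
      rcases Int.units_eq_one_or (Perm.sign ((W p).subtype σ)) with e | e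
      · exact e
      · rw [e, (hodd.pow).neg_one_pow] at this
        exact absurd this (by decide)
  · intro h
    refine ⟨⟨fun a b => ?_⟩⟩
    have := comm_of_lt (by simpa using h) (S.2.map (alternatingGroup (Fin n)).subtype)
      ⟨_, a, a.2, rfl⟩ ⟨_, b, b.2, rfl⟩
    have h2 := congrArg Subtype.val this
    exact Subtype.ext (Subtype.ext h2)

end Cfsg.Agent.S5164
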