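import Cfsg.Statements.S5166
import Cfsg.Agent.Lib.Mathieu.M11

set_option autoImplicit false
open Cfsg

namespace Cfsg.Agent.S5166

open Cfsg.Agent.Fus Cfsg.FusionSystem

/-- The 2-fusion system of the Mathieu group M₁₁ (as the explicit permutation group carved out of the automorphism group of the binary Golay code) on a Sylow 2-subgroup is simple: saturated, over a nontrivial 2-group, with no normal subsystem other than the trivial one and itself. -/
theorem result (S : Sylow 2 Cfsg.Spor.M11) : (Cfsg.groupFusionSystem (S : Subgroup Cfsg.Spor.M11)).IsSimple 2 := by
  exact Cfsg.Agent.Mathieu.M11.isSimple S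

end Cfsg.Agent.S5166
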