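import Cfsg.Statements.S5311
import Cfsg.Agent.Lib.Fus2.Iso

set_option autoImplicit false
open Cfsg

namespace Cfsg.Agent.S5311

open Cfsg.FusionSystem Fus2 in
theorem aux {Ω : Type*} [Group Ω] {S : Subgroup Ω} [Finite S] {p : ℕ} [Fact p.Prime]
    (hS : IsPGroup p S) {F : Cfsg.FusionSystem S} {a b : Ω → Ω} (h : IsoM F F a b)
    {T : Subgroup Ω} {E : Cfsg.FusionSystem T} (hE : E.IsLayerOf F p) {T' : Subgroup Ω}
    {E' : Cfsg.FusionSystem T'} (hE' : IsoM E E' a b) : E.IsSubsystemOf E' := by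
  refine hE.2.2 _ _ (h.isNormalIn hE' hS hE.1) fun U C hC => ?_
  have hU := le_of_isSubsystemOf (subnormal_isSubsystemOf hC.1)
  obtain ⟨C', hC'⟩ := (h.toGIso.symm.restrict hU).exists_isoM C
  exact hE'.isSubsystemOf hC'.symm (hE.2.1 _ _ (h.symm.isComponentIn hC' hS hC))


/-- The layer of a saturated fusion system F over a finite p-group S is characteristic in F: for every automorphism α of S that is an automorphism of F (α and its inverse are morphisms from F to F) and every layer E of F over T, α carries T onto T and, for every map φ of E with source P, the map induced by α on α(P) (that is, α ∘ φ ∘ α⁻¹) is a map of E. -/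
theorem result {Ω : Type*} [Group Ω] {S : Subgroup Ω} [Finite S] (p : ℕ) [Fact p.Prime] (hS : IsPGroup p S) (F : Cfsg.FusionSystem S) (hF : F.IsSaturated p)
    (α : ↥S ≃* ↥S) (hα : F.IsMorphism F (S.subtype.comp α.toMonoidHom))
    (hα' : F.IsMorphism F (S.subtype.comp α.symm.toMonoidHom))
    {T : Subgroup Ω} (E : Cfsg.FusionSystem T) (hE : E.IsLayerOf F p) :
    Cfsg.FusionSystem.imageAlong (S.subtype.comp α.toMonoidHom) T = T ∧
      ∀ (P : Subgroup Ω) (φ : ↥P →* Ω), φ ∈ E.Hom P →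
        ∀ φ' : ↥(Cfsg.FusionSystem.imageAlong (S.subtype.comp α.toMonoidHom) P) →* Ω,
          Cfsg.FusionSystem.InducedAlong (S.subtype.comp α.toMonoidHom) φ φ' →
            φ' ∈ E.Hom (Cfsg.FusionSystem.imageAlong (S.subtype.comp α.toMonoidHom) P) := by
  open Cfsg.FusionSystem Fus2 in
  have ea : ∀ (β : ↥S ≃* ↥S), ∀ x ∈ S, fn (S.subtype.comp β.toMonoidHom) x = afn β x :=
    fun β x hx => by rw [fn_apply _ hx, afn_apply _ hx]; rfl
  have key : ∀ (β : ↥S ≃* ↥S), F.IsMorphism F (S.subtype.comp β.toMonoidHom) →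
      ∀ P f, M F P f → ∃ g, M F (img P (afn β)) g ∧ ∀ x ∈ P, g (afn β x) = afn β (f x) := by
    intro β hβ P f hf
    obtain ⟨g, hg, e⟩ := (isMorphism_iff.1 hβ).2 P f hf
    rw [img_congr fun x hx => ea β x (hf.le hx)] at hg
    exact ⟨g, hg, fun x hx => by rw [← ea β x (hf.le hx), e x hx, ea β _ (hf.mem hx)]⟩
  have h : IsoM F F (afn α) (afn α.symm) :=
    isoM_of_exists ⟨homOn_afn α, fun x hx => afn_mem α hx, fun x hx => afn_mem α.symm hx,
      fun x _ => afn_inv_afn α x, fun x _ => afn_afn_inv α x⟩ (key α hα) (key α.symm hα')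
  have hT := (invM_of_isNormalIn hE.1).le
  have := finite_of_le hT
  obtain ⟨E₁, hE₁⟩ := (h.restrict hT).exists_isoM E
  obtain ⟨E₂, hE₂⟩ := (h.toGIso.symm.restrict hT).exists_isoM E
  have h1 := aux hS h hE hE₁
  have h2 := aux hS h.symm hE hE₂
  have := hE₁.finite
  have eT : T = img T (afn α) :=
    eq_of_le_of_card_le (le_of_isSubsystemOf h1) (h.card_img hT).le
  refine ⟨by rw [imageAlong_eq _ hT, img_congr fun x hx => ea α x (hT hx), ← eT],
    fun P φ hφ φ' hφ' => ?_⟩
  have hP := (M_fn hφ).le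
  obtain ⟨-, h3, -, h4⟩ := inducedAlong_iff.1 hφ'
  rw [mem_Hom_iff]
  generalize fn φ' = g at h4
  rw [imageAlong_eq _ (hP.trans hT), img_congr fun x hx => ea α x (hT (hP hx))]
  refine hE₂.symm.M_of (isSubsystemOf_iff.1 h2 _ _ (M_fn hφ)) fun x hx => ?_
  rw [← ea α x (hT (hP hx)), h4 x hx, ea α _ (h3 x hx)]

end Cfsg.Agent.S5311
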